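import Mathlib

/-!
A configuration of 2520 vectors of `F₂₅³` (the 105 points of the group `3.A₇` in `SU₃(5)`), invariant under `I + J`.
-/

set_option autoImplicit false
set_option linter.unusedSectionVars false

namespace H17.U35

def mulN (u v : ℕ) : ℕ := ((u / 5) * (v / 5) + 2 * ((u % 5) * (v % 5))) % 5 * 5 + ((u / 5) * (v % 5) + (u % 5) * (v / 5)) % 5
def addN (u v : ℕ) : ℕ := (u / 5 + v / 5) % 5 * 5 + (u % 5 + v % 5) % 5
def normN (u : ℕ) : ℕ := ((u / 5) * (u / 5) + 3 * ((u % 5) * (u % 5))) % 5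
def p2 (u : ℕ) : ℕ := mulN u u
def p6 (u : ℕ) : ℕ := p2 (mulN (p2 u) u)
def p9 (u : ℕ) : ℕ := mulN (p2 (p2 (p2 u))) u

def OmN (a b c : ℕ) : Bool :=
  (((normN a + normN b + normN c) % 5 != 0) &&
    ((normN a == normN b) || (normN a == normN c) || (normN b == normN c))) &&
    (p9 (mulN (mulN a b) c) == mulN (mulN a b) c)

def okN : Bool := (List.range 25).all fun a => (List.range 25).all fun b => (List.range 25).all fun c =>
  !(OmN a b c) || OmN (addN a (addN (addN a b) c)) (addN b (addN (addN a b) c)) (addN c (addN (addN a b) c))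

theorem okN_true : okN = true := by decide +kernel

theorem p6_norm : ∀ u < 25, p6 u = 5 * normN u := by decide +kernel

theorem mulN_lt (u v : ℕ) : mulN u v < 25 := by
  have h1 := Nat.mod_lt ((u / 5) * (v / 5) + 2 * ((u % 5) * (v % 5))) (show 0 < 5 by norm_num)
  have h2 := Nat.mod_lt ((u / 5) * (v % 5) + (u % 5) * (v / 5)) (show 0 < 5 by norm_num)
  unfold mulN
  omega

theorem addN_lt (u v : ℕ) : addN u v < 25 := by
  unfold addN
  omega

theorem ok {a b c : ℕ} (ha : a < 25) (hb : b < 25) (hc : c < 25) (h : OmN a b c = true) :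
    OmN (addN a (addN (addN a b) c)) (addN b (addN (addN a b) c)) (addN c (addN (addN a b) c)) = true := by
  have h1 := okN_true
  unfold okN at h1
  rw [List.all_eq_true] at h1
  have h2 := h1 a (List.mem_range.2 ha)
  rw [List.all_eq_true] at h2
  have h3 := h2 b (List.mem_range.2 hb)
  rw [List.all_eq_true] at h3
  have h4 := h3 c (List.mem_range.2 hc)
  rw [h] at h4
  simpa using h4

variable {F : Type*} [Field F] [Fintype F]

def ph (r : F) (n : ℕ) : F := ((n / 5 : ℕ) : F) + ((n % 5 : ℕ) : F) * r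

theorem cast_mod (h5 : (5 : F) = 0) (x : ℕ) : ((x % 5 : ℕ) : F) = (x : F) := by
  conv_rhs => rw [← Nat.div_add_mod x 5]
  push_cast
  rw [h5, zero_mul, zero_add]

theorem ph_mul {r : F} (h5 : (5 : F) = 0) (hr : r * r = 2) (u v : ℕ) : ph r (mulN u v) = ph r u * ph r v := by
  have h2 := Nat.mod_lt ((u / 5) * (v % 5) + (u % 5) * (v / 5)) (show 0 < 5 by norm_num)
  have e1 : mulN u v / 5 = ((u / 5) * (v / 5) + 2 * ((u % 5) * (v % 5))) % 5 := by
    unfold mulN; omega
  have e2 : mulN u v % 5 = ((u / 5) * (v % 5) + (u % 5) * (v / 5)) % 5 := by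
    unfold mulN; omega
  unfold ph
  rw [e1, e2, cast_mod h5, cast_mod h5, Nat.cast_add, Nat.cast_add, Nat.cast_mul, Nat.cast_mul, Nat.cast_mul,
    Nat.cast_mul, Nat.cast_mul, Nat.cast_two]
  linear_combination (-((u % 5 : ℕ) : F) * ((v % 5 : ℕ) : F)) * hr

theorem ph_add {r : F} (h5 : (5 : F) = 0) (u v : ℕ) : ph r (addN u v) = ph r u + ph r v := by
  have e1 : addN u v / 5 = (u / 5 + v / 5) % 5 := by unfold addN; omega
  have e2 : addN u v % 5 = (u % 5 + v % 5) % 5 := by unfold addN; omega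
  unfold ph
  rw [e1, e2, cast_mod h5, cast_mod h5, Nat.cast_add, Nat.cast_add]
  ring

theorem exists_r (hF : Fintype.card F = 25) : ∃ r : F, r * r = 2 ∧ (5 : F) = 0 := by
  classical
  have h5 : (5 : F) = 0 := by
    have h1 : ((25 : ℕ) : F) = 0 := by
      rw [← hF]; exact Nat.cast_card_eq_zero F
    have h2 : (5 : F) * 5 = 0 := by
      have : ((25 : ℕ) : F) = (5 : F) * 5 := by norm_num
      rw [← this]; exact h1
    exact mul_self_eq_zero.1 h2
  have h2 : (2 : F) ≠ 0 := by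
    intro h
    have : (1 : F) = 0 := by linear_combination h5 - 2 * h
    exact one_ne_zero this
  have hc : ringChar F ≠ 2 := by
    intro h
    have := ringChar.Nat.cast_ringChar (R := F)
    rw [h] at this
    exact h2 (by exact_mod_cast this)
  have h3 : IsSquare (2 : F) := by
    rw [FiniteField.isSquare_iff hc h2, hF]
    norm_num
    linear_combination 819 * h5
  obtain ⟨r, hr⟩ := h3
  exact ⟨r, hr.symm, h5⟩

theorem nz (h5 : (5 : F) = 0) {d : ℕ} (h0 : 0 < d) (hd : d < 5) : (d : F) ≠ 0 := by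
  intro h
  apply one_ne_zero (α := F)
  interval_cases d
  · simpa using h
  · push_cast at h; linear_combination h5 - 2 * h
  · push_cast at h; linear_combination 2 * h - h5
  · push_cast at h; linear_combination h5 - h

theorem cast_inj5 (h5 : (5 : F) = 0) {a b : ℕ} (ha : a < 5) (hb : b < 5) (h : (a : F) = (b : F)) : a = b := by
  rcases lt_trichotomy a b with h1 | h1 | h1
  · exfalso
    apply nz h5 (d := b - a) (by omega) (by omega)
    rw [Nat.cast_sub h1.le, h, sub_self]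
  · exact h1
  · exfalso
    apply nz h5 (d := a - b) (by omega) (by omega)
    rw [Nat.cast_sub h1.le, h, sub_self]

theorem dec5' : ∀ a b a' b' : Fin 5,
    ((a.val + 5 - a'.val) * (a.val + 5 - a'.val) + 3 * ((b.val + 5 - b'.val) * (b.val + 5 - b'.val))) % 5 = 0 →
      a = a' ∧ b = b' := by decide +kernel

theorem dec5 {a b a' b' : ℕ} (ha : a < 5) (hb : b < 5) (ha' : a' < 5) (hb' : b' < 5)
    (h : ((a + 5 - a') * (a + 5 - a') + 3 * ((b + 5 - b') * (b + 5 - b'))) % 5 = 0) : a = a' ∧ b = b' := by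
  have := dec5' ⟨a, ha⟩ ⟨b, hb⟩ ⟨a', ha'⟩ ⟨b', hb'⟩ h
  exact ⟨congrArg Fin.val this.1, congrArg Fin.val this.2⟩

theorem ph_inj {r : F} (h5 : (5 : F) = 0) (hr : r * r = 2) {u v : ℕ} (hu : u < 25) (hv : v < 25)
    (h : ph r u = ph r v) : u = v := by
  unfold ph at h
  have h1 := dec5 (a := u / 5) (b := u % 5) (a' := v / 5) (b' := v % 5) (by omega) (by omega) (by omega) (by omega)
  set a := u / 5
  set b := u % 5
  set a' := v / 5
  set b' := v % 5
  have hX : ((a + 5 - a' : ℕ) : F) = a - a' := by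
    rw [Nat.cast_sub (by omega)]; push_cast; linear_combination h5
  have hY : ((b + 5 - b' : ℕ) : F) = b - b' := by
    rw [Nat.cast_sub (by omega)]; push_cast; linear_combination h5
  have h2 : ((((a + 5 - a') * (a + 5 - a') + 3 * ((b + 5 - b') * (b + 5 - b'))) % 5 : ℕ) : F) = 0 := by
    rw [cast_mod h5, Nat.cast_add, Nat.cast_mul, Nat.cast_mul, Nat.cast_mul, hX, hY]
    push_cast
    linear_combination ((a : F) - a' - (b - b') * r) * h + ((b : F) - b') ^ 2 * hr + ((b : F) - b') ^ 2 * h5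
  have h3 : ((a + 5 - a') * (a + 5 - a') + 3 * ((b + 5 - b') * (b + 5 - b'))) % 5 = 0 := by
    by_contra h4
    exact nz h5 (Nat.pos_of_ne_zero h4) (Nat.mod_lt _ (by norm_num)) h2
  obtain ⟨h4, h6⟩ := h1 h3
  omega

theorem ph_surj {r : F} (h5 : (5 : F) = 0) (hr : r * r = 2) (hF : Fintype.card F = 25) (x : F) :
    ∃ n < 25, ph r n = x := by
  have h1 : Function.Bijective (fun n : Fin 25 => ph r n.val) := by
    rw [Fintype.bijective_iff_injective_and_card]
    refine ⟨fun a b hab => Fin.ext (ph_inj h5 hr a.2 b.2 hab), ?_⟩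
    rw [Fintype.card_fin, hF]
  obtain ⟨n, hn⟩ := h1.2 x
  exact ⟨n.val, n.2, hn⟩

/-- the configuration -/
def Om (x : Fin 3 → F) : Prop :=
  (x 0 ^ 6 + x 1 ^ 6 + x 2 ^ 6 ≠ 0 ∧ (x 0 ^ 6 = x 1 ^ 6 ∨ x 0 ^ 6 = x 2 ^ 6 ∨ x 1 ^ 6 = x 2 ^ 6)) ∧
    (x 0 * x 1 * x 2) ^ 9 = x 0 * x 1 * x 2

theorem ph6 {r : F} (h5 : (5 : F) = 0) (hr : r * r = 2) {u : ℕ} (hu : u < 25) : ph r u ^ 6 = (normN u : F) := by
  have h1 : ph r (p6 u) = ph r u ^ 6 := by
    unfold p6 p2
    simp only [ph_mul h5 hr]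
    ring
  rw [← h1, p6_norm u hu]
  unfold ph
  have e1 : 5 * normN u / 5 = normN u := by omega
  have e2 : 5 * normN u % 5 = 0 := by omega
  rw [e1, e2]
  simp

theorem ph9 {r : F} (h5 : (5 : F) = 0) (hr : r * r = 2) (u : ℕ) : ph r (p9 u) = ph r u ^ 9 := by
  unfold p9 p2
  simp only [ph_mul h5 hr]
  ring

theorem normN_lt (u : ℕ) : normN u < 5 := Nat.mod_lt _ (by norm_num)

theorem Om_iff {r : F} (h5 : (5 : F) = 0) (hr : r * r = 2) {a b c : ℕ} (ha : a < 25) (hb : b < 25) (hc : c < 25)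
    {x : Fin 3 → F} (hx0 : x 0 = ph r a) (hx1 : x 1 = ph r b) (hx2 : x 2 = ph r c) :
    Om x ↔ OmN a b c = true := by
  unfold Om OmN
  rw [hx0, hx1, hx2, ph6 h5 hr ha, ph6 h5 hr hb, ph6 h5 hr hc, ← ph_mul h5 hr, ← ph_mul h5 hr, ← ph9 h5 hr]
  simp only [Bool.and_eq_true, Bool.or_eq_true, bne_iff_ne, beq_iff_eq, ne_eq]
  have k1 : (((normN a : ℕ) : F) + normN b + normN c = 0) ↔ (normN a + normN b + normN c) % 5 = 0 := by
    constructor
    · intro h
      by_contra h4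
      apply nz h5 (Nat.pos_of_ne_zero h4) (Nat.mod_lt _ (by norm_num))
      rw [cast_mod h5]; push_cast; exact h
    · intro h
      have := cast_mod (F := F) h5 (normN a + normN b + normN c)
      rw [h] at this
      push_cast at this
      exact this.symm
  have k2 : ∀ u v : ℕ, ((normN u : ℕ) : F) = (normN v : ℕ) ↔ normN u = normN v := fun u v =>
    ⟨fun h => cast_inj5 h5 (normN_lt u) (normN_lt v) h, fun h => by rw [h]⟩
  have k3 : (ph r (p9 (mulN (mulN a b) c)) = ph r (mulN (mulN a b) c)) ↔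
      p9 (mulN (mulN a b) c) = mulN (mulN a b) c :=
    ⟨fun h => ph_inj h5 hr (mulN_lt _ _) (mulN_lt _ _) h, fun h => by rw [h]⟩
  rw [k1, k2, k2, k2, k3]
  tauto

/-- the key computation -/
theorem Om_h (hF : Fintype.card F = 25) {x : Fin 3 → F} (h : Om x) : Om (fun i => x i + (x 0 + x 1 + x 2)) := by
  obtain ⟨r, hr, h5⟩ := exists_r hF
  obtain ⟨a, ha, ha'⟩ := ph_surj h5 hr hF (x 0)
  obtain ⟨b, hb, hb'⟩ := ph_surj h5 hr hF (x 1)
  obtain ⟨c, hc, hc'⟩ := ph_surj h5 hr hF (x 2)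
  have h1 := (Om_iff h5 hr ha hb hc ha'.symm hb'.symm hc'.symm).1 h
  have h2 := ok ha hb hc h1
  refine (Om_iff h5 hr (addN_lt _ _) (addN_lt _ _) (addN_lt _ _) ?_ ?_ ?_).2 h2
  · simp only [ph_add h5, ha', hb', hc']
  · simp only [ph_add h5, ha', hb', hc']
  · simp only [ph_add h5, ha', hb', hc']

/-- invariance under monomial maps with entries of norm one and determinant of square one -/
theorem Om_mono {x x' : Fin 3 → F} {π : Equiv.Perm (Fin 3)} {d : Fin 3 → F} (hd : ∀ i, d i ^ 6 = 1)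
    (hP : (∏ i, d i) ^ 8 = 1) (hx : ∀ i, x' (π i) = d i * x i) (h : Om x) : Om x' := by
  have e6 : ∀ i, x' (π i) ^ 6 = x i ^ 6 := fun i => by rw [hx, mul_pow, hd, one_mul]
  have hsum : x' 0 ^ 6 + x' 1 ^ 6 + x' 2 ^ 6 = x 0 ^ 6 + x 1 ^ 6 + x 2 ^ 6 := by
    have h1 : ∑ i, x' i ^ 6 = ∑ i, x i ^ 6 := by
      rw [← Equiv.sum_comp π]
      exact Finset.sum_congr rfl (fun i _ => e6 i)
    simpa [Fin.sum_univ_three] using h1
  have hprod : x' 0 * x' 1 * x' 2 = (∏ i, d i) * (x 0 * x 1 * x 2) := by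
    have h1 : ∏ i, x' i = (∏ i, d i) * ∏ i, x i := by
      rw [← Equiv.prod_comp π, ← Finset.prod_mul_distrib]
      exact Finset.prod_congr rfl (fun i _ => hx i)
    simp only [Fin.prod_univ_three] at h1 ⊢
    linear_combination h1
  have heq : ∀ i j, i ≠ j → x i ^ 6 = x j ^ 6 → (x' 0 ^ 6 = x' 1 ^ 6 ∨ x' 0 ^ 6 = x' 2 ^ 6 ∨ x' 1 ^ 6 = x' 2 ^ 6) := by
    intro i j hij hxx
    have h1 : x' (π i) ^ 6 = x' (π j) ^ 6 := by rw [e6, e6, hxx]
    have h2 : π i ≠ π j := fun h => hij (π.injective h)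
    generalize π i = k at h1 h2
    generalize π j = l at h1 h2
    fin_cases k <;> fin_cases l <;> simp_all
  obtain ⟨⟨h1, h2⟩, h3⟩ := h
  refine ⟨⟨by rw [hsum]; exact h1, ?_⟩, ?_⟩
  · rcases h2 with h2 | h2 | h2
    · exact heq 0 1 (by decide) h2
    · exact heq 0 2 (by decide) h2
    · exact heq 1 2 (by decide) h2
  · rw [hprod, mul_pow, h3]
    have : (∏ i, d i) ^ 9 = ∏ i, d i := by
      calc (∏ i, d i) ^ 9 = (∏ i, d i) ^ 8 * ∏ i, d i := by ring
        _ = _ := by rw [hP, one_mul]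
    rw [this]

/-- invariance under scalars -/
theorem Om_smul (hF : Fintype.card F = 25) {x : Fin 3 → F} {c : F} (hc : c ≠ 0) (h : Om x) : Om (fun i => c * x i) := by
  have h24 : c ^ 24 = 1 := by
    have := FiniteField.pow_card_sub_one_eq_one c hc
    rwa [hF] at this
  have h6 : c ^ 6 ≠ 0 := pow_ne_zero _ hc
  obtain ⟨⟨h1, h2⟩, h3⟩ := h
  refine ⟨⟨?_, ?_⟩, ?_⟩
  · simp only [mul_pow]
    intro h0
    apply h1
    have : c ^ 6 * (x 0 ^ 6 + x 1 ^ 6 + x 2 ^ 6) = 0 := by linear_combination h0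
    exact (mul_eq_zero.1 this).resolve_left h6
  · simp only [mul_pow]
    rcases h2 with h2 | h2 | h2
    · left; rw [h2]
    · right; left; rw [h2]
    · right; right; rw [h2]
  · simp only
    have e : c * x 0 * (c * x 1) * (c * x 2) = c ^ 3 * (x 0 * x 1 * x 2) := by ring
    rw [e, mul_pow, h3]
    have : (c ^ 3) ^ 9 = c ^ 3 := by
      calc (c ^ 3) ^ 9 = c ^ 24 * c ^ 3 := by ring
        _ = _ := by rw [h24, one_mul]
    rw [this]

end H17.U35
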