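import Cfsg.Agent.Lib.H17.G16Chk
import Cfsg.Agent.Lib.H17.G24JMain
import Cfsg.Agent.Lib.H63.J2Simple

/-!
# Subgroups of index 416 in `G2(4)`
-/

set_option autoImplicit false
set_option maxRecDepth 100000
set_option linter.all false

namespace H17.G16

open H35.TC H35.Net
open H35.TCSuzC (Lt mm extra)
open H35.SuzMain (φ gP hφ i1 i2 H1 H2)

/-! ### generic bound -/

/-- letters -/
def j3 : H35.TCSuzD.Lt → Lt
  | .a => .a
  | .b => .b
  | .c => .c
  | .d => .d

/-- letters -/
def j4 : H35.TCDih5.Lt → Lt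
  | .a => .a
  | .b => .b

theorem card_le_of_rels {G : Type} [Group G] (g : Lt → G) (hp : ∀ x y, (g x * g y) ^ mm x y = 1)
    (he : ∀ p ∈ extra, ((p.1.map g).prod) ^ p.2 = 1) :
    Nat.card (Subgroup.closure (Set.range g)) ≤ 604800 ∧ Nat.card (Subgroup.closure (Set.range g)) ≠ 0 := by
  have hsq : ∀ x, g x * g x = 1 := by
    intro x
    have h := hp x x
    cases x <;> simpa [H35.TCSuzC.mm] using h
  have hinv : ∀ x, g x = (g x)⁻¹ := fun x => (inv_eq_of_mul_eq_one_left (hsq x)).symm
  have hC := H35.TCSuzC.main (g := g) (H := Subgroup.closure (Set.range fun x => g (j3 x)))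
    (by intro x; have h := hinv x; cases x <;> exact h) hp he (by
      intro r hr
      simp only [H35.TCSuzC.subs, List.mem_cons, List.mem_nil_iff, or_false] at hr
      rcases hr with rfl | rfl | rfl | rfl
      · simp only [List.map_cons, List.map_nil, List.prod_cons, List.prod_nil, mul_one]
        exact Subgroup.subset_closure ⟨.a, rfl⟩
      · simp only [List.map_cons, List.map_nil, List.prod_cons, List.prod_nil, mul_one]
        exact Subgroup.subset_closure ⟨.b, rfl⟩
      · simp only [List.map_cons, List.map_nil, List.prod_cons, List.prod_nil, mul_one]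
        exact Subgroup.subset_closure ⟨.c, rfl⟩
      · simp only [List.map_cons, List.map_nil, List.prod_cons, List.prod_nil, mul_one]
        exact Subgroup.subset_closure ⟨.d, rfl⟩)
  have hD := H35.TCSuzD.main (g := fun x => g (j3 x)) (H := Subgroup.closure (Set.range fun x => g (j4 x)))
    (by intro x; have h := hinv (j3 x); cases x <;> exact h)
    (transfer_hp hp j3 (by intro x y; cases x <;> cases y <;> decide))
    (transfer_he he j3 (by decide)) (by
      intro r hr
      simp only [H35.TCSuzD.subs, List.mem_cons, List.mem_nil_iff, or_false] at hr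
      rcases hr with rfl | rfl
      · simp only [List.map_cons, List.map_nil, List.prod_cons, List.prod_nil, mul_one]
        exact Subgroup.subset_closure ⟨.a, rfl⟩
      · simp only [List.map_cons, List.map_nil, List.prod_cons, List.prod_nil, mul_one]
        exact Subgroup.subset_closure ⟨.b, rfl⟩)
  have hE := H35.TCDih5.main (g := fun x => g (j4 x)) (H := (⊥ : Subgroup G))
    (by intro x; have h := hinv (j4 x); cases x <;> exact h)
    (transfer_hp hp j4 (by intro x y; cases x <;> cases y <;> decide))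
    (transfer_he he j4 (by decide)) (by
      intro r hr
      simp [H35.TCDih5.subs] at hr)
  have h4 := card_le_bot hE
  have h3 := card_le_step (closure_letters_le (g := g) (ι := j4) (κ := j3) (fun x => by
    cases x <;> [exact ⟨.a, rfl⟩; exact ⟨.b, rfl⟩])) hD h4
  have h2 := card_le_step (H := Subgroup.closure (Set.range fun x => g (j3 x)))
    (K := Subgroup.closure (Set.range g)) (by
      apply Subgroup.closure_mono
      rintro _ ⟨x, rfl⟩
      exact ⟨j3 x, rfl⟩) hC h3
  exact ⟨h2.1.trans (by norm_num), h2.2⟩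

/-! ### the homomorphism to the permutations of 2016 points -/

/-- pairs -/
noncomputable def g16 (x : Lt) : Cfsg.Spor.Suz × Equiv.Perm ℕ := (gP (i2 x), π x)

theorem g16_word (w : List Lt) : (w.map g16).prod = ((w.map fun x => gP (i2 x)).prod, (w.map π).prod) := by
  induction w with
  | nil => rfl
  | cons x w ih => rw [List.map_cons, List.prod_cons, ih]; rfl

theorem g16_hp : ∀ x y, (g16 x * g16 y) ^ mm x y = 1 := by
  intro x y
  have h1 : (gP (i2 x) * gP (i2 y)) ^ mm x y = 1 :=
    transfer_hp H35.SuzMain.hpP i2 (by intro x y; cases x <;> cases y <;> decide) x y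
  have h2 := hp x y
  exact Prod.ext h1 h2

theorem g16_he : ∀ p ∈ extra, ((p.1.map g16).prod) ^ p.2 = 1 := by
  intro p hp'
  have h1 : ((p.1.map fun x => gP (i2 x)).prod) ^ p.2 = 1 :=
    transfer_he H35.SuzMain.heP i2 (by decide) p hp'
  have h2 := he p hp'
  rw [g16_word]
  exact Prod.ext h1 h2

/-- group of pairs -/
noncomputable def K16 : Subgroup (Cfsg.Spor.Suz × Equiv.Perm ℕ) := Subgroup.closure (Set.range g16)

theorem K16_card : Nat.card K16 ≤ 604800 ∧ Nat.card K16 ≠ 0 := card_le_of_rels g16 g16_hp g16_he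

theorem K16_fst : K16.map (MonoidHom.fst _ _) = H2 := by
  unfold K16 H35.SuzMain.H2
  rw [MonoidHom.map_closure, ← Set.range_comp]
  rfl

/-- projection -/
noncomputable def f1 : K16 →* H2 := ((MonoidHom.fst _ _).comp K16.subtype).codRestrict H2 (by
  intro k
  rw [← K16_fst]
  exact ⟨k, k.2, rfl⟩)

theorem f1_bij : Function.Bijective f1 := by
  have hfin : Finite K16 := Nat.finite_of_card_ne_zero K16_card.2
  have hs : Function.Surjective f1 := by
    rintro ⟨h, hh⟩
    have hh' := hh
    rw [← K16_fst] at hh'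
    obtain ⟨k, hk, rfl⟩ := hh'
    exact ⟨⟨k, hk⟩, rfl⟩
  have hfin2 : Finite H2 := Finite.of_surjective _ hs
  refine ⟨?_, hs⟩
  have : Fintype K16 := Fintype.ofFinite _
  have : Fintype H2 := Fintype.ofFinite _
  refine ((Fintype.bijective_iff_surjective_and_card f1).2 ⟨hs, ?_⟩).1
  apply le_antisymm
  · rw [← Nat.card_eq_fintype_card, ← Nat.card_eq_fintype_card, H17.G24J.card_H2]
    exact K16_card.1
  · exact Fintype.card_le_of_surjective _ hs

/-- the homomorphism -/
noncomputable def ρ : H2 →* Equiv.Perm ℕ :=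
  ((MonoidHom.snd _ _).comp K16.subtype).comp (MulEquiv.ofBijective f1 f1_bij).symm.toMonoidHom

theorem ρ_f1 (k : K16) : ρ (f1 k) = (k : Cfsg.Spor.Suz × Equiv.Perm ℕ).2 := by
  change ((((MulEquiv.ofBijective f1 f1_bij).symm (f1 k) : K16)) : Cfsg.Spor.Suz × Equiv.Perm ℕ).2 = _
  congr 2
  exact (MulEquiv.ofBijective f1 f1_bij).symm_apply_apply k

/-- value of a word in `H2` -/
noncomputable def val (w : List Lt) : H2 := ⟨(w.map fun x => gP (i2 x)).prod, by
  apply Subgroup.list_prod_mem
  intro g hg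
  obtain ⟨x, _, rfl⟩ := List.mem_map.1 hg
  exact Subgroup.subset_closure ⟨x, rfl⟩⟩

theorem val_coe (w : List Lt) : (val w : Cfsg.Spor.Suz) = (w.map fun x => gP (i2 x)).prod := rfl

theorem ρ_val (w : List Lt) : ρ (val w) = (w.map π).prod := by
  have hk : (w.map g16).prod ∈ K16 := by
    apply Subgroup.list_prod_mem
    intro g hg
    obtain ⟨x, _, rfl⟩ := List.mem_map.1 hg
    exact Subgroup.subset_closure ⟨x, rfl⟩
  have h := ρ_f1 ⟨_, hk⟩
  have e : f1 ⟨_, hk⟩ = val w := by
    apply Subtype.ext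
    change ((w.map g16).prod).1 = _
    rw [g16_word]
    rfl
  rw [e] at h
  rw [h]
  change ((w.map g16).prod).2 = _
  rw [g16_word]

theorem val_append (v w : List Lt) : val (v ++ w) = val v * val w := by
  apply Subtype.ext
  rw [Subgroup.coe_mul, val_coe, val_coe, val_coe, List.map_append, List.prod_append]

theorem val_nil : val [] = 1 := rfl

theorem val_cons (x : Lt) (w : List Lt) : val (x :: w) = val [x] * val w := val_append [x] w

theorem val_sq (x : Lt) : val [x] * val [x] = 1 := by
  apply Subtype.ext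
  have h := g16_hp x x
  have h1 : gP (i2 x) * gP (i2 x) = 1 := by
    have h := congrArg Prod.fst h
    cases x <;> simpa [H35.TCSuzC.mm, g16] using h
  rw [Subgroup.coe_mul, val_coe]
  simpa using h1

theorem val_reverse (w : List Lt) : val w.reverse = (val w)⁻¹ := by
  induction w with
  | nil => rw [List.reverse_nil, val_nil, inv_one]
  | cons x w ih =>
    rw [List.reverse_cons, val_append, ih, val_cons x w, mul_inv_rev]
    congr 1
    exact eq_inv_of_mul_eq_one_left (val_sq x)

theorem val_pw (w : List Lt) (n : ℕ) : val (pw w n) = val w ^ n := by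
  induction n with
  | zero => rw [pow_zero]; rfl
  | succ n ih =>
    have : pw w (n + 1) = w ++ pw w n := by simp [pw, List.replicate_succ]
    rw [this, val_append, ih, pow_succ']

/-- `H2` acts faithfully on the 1782 points -/
theorem φ_val (w : List Lt) : φ (val w : Cfsg.Spor.Suz) = (w.map π1).prod := by
  rw [val_coe]
  exact map_word (g := fun x => gP (i2 x)) (π := π1) (fun x => hφ (i2 x)) w

theorem val_eq_one {w : List Lt} {n : ℕ} (h : chkW net1 11 w n 0 11 = true) : (val w) ^ n = 1 := by
  have h1 := pow_eq_one_of_chk hbp1 h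
  apply Subtype.ext
  apply H35.SuzMain.card_inj.2
  rw [Subgroup.coe_pow, map_pow, φ_val, h1, Subgroup.coe_one, map_one]

/-! ### the action on 2016 points -/

/-- the action -/
@[reducible] noncomputable def act16 : MulAction H2 ℕ := MulAction.compHom ℕ ρ

attribute [local instance 2000] act16

theorem smul_def (g : H2) (n : ℕ) : g • n = ρ g n := rfl

instance finH2 : Finite H2 := Nat.finite_of_card_ne_zero (by rw [H17.G24J.card_H2]; norm_num)

theorem smul_word {w : List Lt} {a b : ℕ}
    (h : Nat.beq (appF net w (Nat.shiftLeft 1 b)) (Nat.shiftLeft 1 a) = true) : val w • a = b := by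
  rw [smul_def, ρ_val]
  have e := eqOfBeq h
  rw [appF_eq] at e
  have h1 := (app_BP hbp w).bit (Nat.shiftLeft 1 b) a
  rw [e] at h1
  have h2 : (Nat.shiftLeft 1 a).testBit a = true := H17.G24J.bit_shift.2 rfl
  rw [h2] at h1
  exact (H17.G24J.bit_shift.1 h1.symm)

theorem reach_mem {E : Subgroup H2} {ws : List (List Lt)} (hw : ∀ w ∈ ws, val w ∈ E) {b n O : ℕ}
    (h : Nat.beq (reachF net ws n (Nat.shiftLeft 1 b)) O = true) (c : ℕ) (hc : O.testBit c = true) :
    ∃ g ∈ E, g • b = c := by
  rw [← eqOfBeq h] at hc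
  obtain ⟨_, ⟨g, hg, rfl⟩, hgb⟩ := reachF_orbit hbp (Γ := E.map ρ)
    (fun w hw' => ⟨_, hw w hw', ρ_val w⟩) c hc
  exact ⟨g, hg, hgb⟩

theorem reach_all {E : Subgroup H2} {ws : List (List Lt)} (hw : ∀ w ∈ ws, val w ∈ E) {n : ℕ}
    (h : chkTrans net ws n 2016 0 = true) (c : ℕ) (hc : c < 2016) : ∃ g ∈ E, g • 0 = c := by
  refine reach_mem hw (O := Nat.sub (Nat.pow 2 2016) 1) (n := n) (b := 0) h c ?_
  change (2 ^ 2016 - 1).testBit c = true
  rw [Nat.testBit_two_pow_sub_one]
  simpa using hc

theorem letters_all : ∀ x : Lt, x ∈ [Lt.a, Lt.b, Lt.c, Lt.d, Lt.e] := by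
  intro x; cases x <;> decide

theorem H2_eq_range : ∀ g : H2, ∃ w : List Lt, g = val w := by
  have hsub : (Set.univ : Set H2) ⊆ {g | ∃ w : List Lt, g = val w} := by
    rintro ⟨g, hg⟩ _
    have hg' : g ∈ Subgroup.closure (Set.range fun x => gP (i2 x)) := hg
    suffices h : ∀ g ∈ Subgroup.closure (Set.range fun x => gP (i2 x)), ∃ w : List Lt,
        g = (w.map fun x => gP (i2 x)).prod by
      obtain ⟨w, hw⟩ := h g hg'
      exact ⟨w, Subtype.ext hw⟩
    intro g hg
    induction hg using Subgroup.closure_induction with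
    | mem g hg =>
      obtain ⟨x, rfl⟩ := hg
      exact ⟨[x], by simp⟩
    | one => exact ⟨[], rfl⟩
    | mul g h _ _ hg hh =>
      obtain ⟨v, rfl⟩ := hg
      obtain ⟨w, rfl⟩ := hh
      exact ⟨v ++ w, by simp⟩
    | inv g _ hg =>
      obtain ⟨w, rfl⟩ := hg
      exact ⟨w.reverse, (congrArg Subtype.val (val_reverse w)).symm⟩
  exact fun g => hsub trivial

theorem smul_lt (g : H2) (b : ℕ) : g • b < 2016 ↔ b < 2016 := by
  obtain ⟨w, rfl⟩ := H2_eq_range g
  rw [smul_def, ρ_val]
  have hpres : ∀ x b, π x b < 2016 ↔ b < 2016 := fun x => pres_of_chk hbp pres_chk x (letters_all x)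
  induction w generalizing b with
  | nil => exact Iff.rfl
  | cons x w ih =>
    rw [List.map_cons, List.prod_cons, Equiv.Perm.mul_apply]
    exact (hpres _ _).trans (ih b)

/-- stabiliser of the point 0 -/
noncomputable def M : Subgroup H2 := MulAction.stabilizer H2 (0 : ℕ)

theorem mem_M (g : H2) : g ∈ M ↔ g • 0 = 0 := Iff.rfl

theorem orbit0 : MulAction.orbit H2 (0 : ℕ) = (Finset.range 2016 : Finset ℕ) := by
  ext q
  rw [Finset.coe_range, Set.mem_Iio]
  constructor
  · rintro ⟨g, rfl⟩
    exact (smul_lt g 0).2 (by norm_num)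
  · intro hq
    obtain ⟨g, _, hg⟩ := reach_all (E := ⊤) (fun w _ => trivial) trans_chk q hq
    exact ⟨g, hg⟩

theorem card_M : Nat.card M = 300 := by
  have h1 : M.index = 2016 := by
    unfold M
    rw [MulAction.index_stabilizer, orbit0, Set.ncard_coe_finset, Finset.card_range]
  have h2 := Subgroup.card_mul_index M
  rw [h1, H17.G24J.card_H2] at h2
  omega

/-- the Sylow 5-subgroup -/
noncomputable def P : Subgroup H2 := Subgroup.closure {g | ∃ w ∈ wP, g = val w}

theorem p1_mem : val p1 ∈ P := Subgroup.subset_closure ⟨p1, by simp [wP], rfl⟩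
theorem p2_mem : val p2 ∈ P := Subgroup.subset_closure ⟨p2, by simp [wP], rfl⟩

/-- generated part of the stabiliser -/
noncomputable def M' : Subgroup H2 := Subgroup.closure {g | ∃ w ∈ wM, g = val w}

theorem wM_mem : ∀ w ∈ wM, val w ∈ M' := fun w hw => Subgroup.subset_closure ⟨w, hw, rfl⟩

theorem M'_le : M' ≤ M := by
  unfold M'
  rw [Subgroup.closure_le]
  rintro _ ⟨w, hw, rfl⟩
  change val w • 0 = 0
  rw [smul_def, ρ_val]
  exact prod_fix hbp fM w hw 0 (by simp)

theorem M'_eq : M' = M := by
  apply Subgroup.eq_of_le_of_card_ge M'_le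
  rw [card_M]
  have hfin : Finite (M'.map ρ) := Finite.of_surjective _ (ρ.subgroupMap_surjective M')
  have h1 : 300 ≤ (MulAction.orbit (M'.map ρ) (16 : ℕ)).ncard := by
    have h2 : Nat.ble 300 (popc 11 (reachF net wM _ (Nat.shiftLeft 1 16))) = true := o_M
    refine (Nat.le_of_ble_eq_true h2).trans ?_
    apply orbit_ncard_ge
    intro c hc
    exact reachF_orbit hbp (Γ := M'.map ρ) (fun w hw => Subgroup.mem_map.2 ⟨_, wM_mem w hw, ρ_val w⟩) c hc
  have h2 : (MulAction.orbit (M'.map ρ) (16 : ℕ)).ncard ≤ Nat.card (M'.map ρ) := by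
    rw [← MulAction.index_stabilizer]
    exact Nat.le_of_dvd Nat.card_pos (Subgroup.index_dvd_card _)
  have h3 : Nat.card (M'.map ρ) ≤ Nat.card M' := Nat.card_le_card_of_surjective _ (ρ.subgroupMap_surjective M')
  omega

theorem rel_conj {m p : List Lt} {i j : ℕ}
    (h : chkW net1 11 (m ++ p ++ m.reverse ++ pw p1 i ++ pw p2 j) 1 0 11 = true) :
    val m * val p * (val m)⁻¹ ∈ P := by
  have h1 := val_eq_one h
  rw [pow_one, val_append, val_append, val_append, val_append, val_reverse, val_pw, val_pw] at h1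
  have h2 : val m * val p * (val m)⁻¹ = (val p1 ^ i * val p2 ^ j)⁻¹ := by
    rw [eq_inv_iff_mul_eq_one]
    rw [← h1]
    group
  rw [h2]
  exact inv_mem (mul_mem (pow_mem p1_mem _) (pow_mem p2_mem _))

/-- the elements conjugating `P` into itself -/
theorem norm_closure {S : Set H2} (hS : ∀ m ∈ S, ∀ p ∈ P, m * p * m⁻¹ ∈ P) :
    ∀ m ∈ Subgroup.closure S, ∀ p ∈ P, m * p * m⁻¹ ∈ P := by
  intro m hm
  induction hm using Subgroup.closure_induction with
  | mem m hm => exact hS m hm
  | one => intro p hp; simpa using hp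
  | mul a b _ _ ha hb =>
    intro p hp
    have := ha _ (hb p hp)
    have e : a * b * p * (a * b)⁻¹ = a * (b * p * b⁻¹) * a⁻¹ := by group
    rw [e]; exact this
  | inv a _ ha =>
    -- finite order
    have hpow : ∀ n : ℕ, ∀ p ∈ P, a ^ n * p * (a ^ n)⁻¹ ∈ P := by
      intro n
      induction n with
      | zero => intro p hp; simpa using hp
      | succ n ih =>
        intro p hp
        have := ha _ (ih p hp)
        have e : a ^ (n + 1) * p * (a ^ (n + 1))⁻¹ = a * (a ^ n * p * (a ^ n)⁻¹) * a⁻¹ := by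
          rw [pow_succ']; group
        rw [e]; exact this
    have e : a⁻¹ = a ^ (orderOf a - 1) := by
      rw [eq_comm, ← mul_right_inj a, mul_inv_cancel, ← pow_succ', Nat.sub_add_cancel
        (orderOf_pos a), pow_orderOf_eq_one]
    rw [e]
    exact hpow _

theorem conj_gen {m : H2} (h1 : m * val p1 * m⁻¹ ∈ P) (h2 : m * val p2 * m⁻¹ ∈ P) :
    ∀ p ∈ P, m * p * m⁻¹ ∈ P := by
  intro p hp
  unfold P at hp
  induction hp using Subgroup.closure_induction with
  | mem p hp =>
    obtain ⟨w, hw, rfl⟩ := hp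
    simp only [wP, List.mem_cons, List.not_mem_nil, or_false] at hw
    rcases hw with rfl | rfl
    · exact h1
    · exact h2
  | one => simp
  | mul a b _ _ ha hb =>
    have e : m * (a * b) * m⁻¹ = (m * a * m⁻¹) * (m * b * m⁻¹) := by group
    rw [e]; exact mul_mem ha hb
  | inv a _ ha =>
    have e : m * a⁻¹ * m⁻¹ = (m * a * m⁻¹)⁻¹ := by group
    rw [e]; exact inv_mem ha

theorem norm_M : ∀ m ∈ M, ∀ p ∈ P, m * p * m⁻¹ ∈ P := by
  rw [← M'_eq]
  apply norm_closure
  rintro _ ⟨w, hw, rfl⟩
  simp only [wM, List.mem_cons, List.not_mem_nil, or_false] at hw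
  rcases hw with rfl | rfl | rfl | rfl | rfl
  · intro p hp; exact mul_mem (mul_mem p1_mem hp) (inv_mem p1_mem)
  · intro p hp; exact mul_mem (mul_mem p2_mem hp) (inv_mem p2_mem)
  · exact conj_gen (rel_conj n_0_p1) (rel_conj n_0_p2)
  · exact conj_gen (rel_conj n_1_p1) (rel_conj n_1_p2)
  · exact conj_gen (rel_conj n_2_p1) (rel_conj n_2_p2)

end H17.G16
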