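import Cfsg.Agent.Lib.H17.G16

/-!
# Subgroups of index 416 in `G2(4)`: overgroups of the Sylow 5-subgroup in `J2`
-/

set_option autoImplicit false
set_option maxRecDepth 100000
set_option linter.all false

namespace H17.G16

open H35.TC H35.Net
open H35.TCSuzC (Lt mm extra)
open H35.SuzMain (φ gP hφ i1 i2 H1 H2)

attribute [local instance 2000] act16

instance simple_H2 : IsSimpleGroup H2 := by
  obtain ⟨e⟩ := H17.G24J.iso_P0
  have := H63.J2.simple_P0
  have : Nontrivial H2 := e.toEquiv.nontrivial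
  exact IsSimpleGroup.isSimpleGroup_of_surjective e.symm.toMonoidHom e.symm.surjective

theorem conj_mem {E : Subgroup H2} (hPE : P ≤ E) {y : H2} (hy : ∃ g ∈ E, g • 0 = y • 0) :
    ∀ p ∈ P, y * p * y⁻¹ ∈ E := by
  intro p hp
  obtain ⟨g, hg, hgy⟩ := hy
  have hm : g⁻¹ * y ∈ M := by
    rw [mem_M, mul_smul, ← hgy, inv_smul_smul]
  have h := norm_M _ hm p hp
  have e : y * p * y⁻¹ = g * (g⁻¹ * y * p * (g⁻¹ * y)⁻¹) * g⁻¹ := by group
  rw [e]
  exact mul_mem (mul_mem hg (hPE h)) (inv_mem hg)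

theorem fact_two {n m p : ℕ} (hp : p.Prime) (h : n = p ^ 2 * m) (hm : ¬ p ∣ m) (h0 : n ≠ 0) : n.factorization p = 2 := by
  apply le_antisymm
  · by_contra hlt
    push Not at hlt
    have h3 : p ^ 3 ∣ n := (hp.pow_dvd_iff_le_factorization h0).2 hlt
    rw [h, show (3 : ℕ) = 2 + 1 from rfl, pow_succ] at h3
    exact hm (Nat.dvd_of_mul_dvd_mul_left (pow_pos hp.pos 2) h3)
  · exact (hp.pow_dvd_iff_le_factorization h0).1 ⟨m, h⟩

theorem P_form : ∀ x ∈ P, ∃ i j : ℤ, x = val p1 ^ i * val p2 ^ j := by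
  have hc : val p1 * val p2 = val p2 * val p1 := by
    have h := val_eq_one p_comm
    rw [pow_one, val_append, val_append, val_append, val_reverse, val_reverse] at h
    have h2 : val p1 * val p2 * (val p2 * val p1)⁻¹ = 1 := by
      rw [mul_inv_rev, ← h]; group
    exact mul_inv_eq_one.1 h2
  have hcc : Commute (val p1) (val p2) := hc
  intro x hx
  unfold P at hx
  induction hx using Subgroup.closure_induction with
  | mem x hx =>
    obtain ⟨w, hw, rfl⟩ := hx
    simp only [wP, List.mem_cons, List.not_mem_nil, or_false] at hw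
    rcases hw with rfl | rfl
    · exact ⟨1, 0, by simp⟩
    · exact ⟨0, 1, by simp⟩
  | one => exact ⟨0, 0, by simp⟩
  | mul a b _ _ ha hb =>
    obtain ⟨i, j, rfl⟩ := ha
    obtain ⟨k, l, rfl⟩ := hb
    refine ⟨i + k, j + l, ?_⟩
    rw [zpow_add, zpow_add, mul_assoc, mul_assoc, ← mul_assoc (val p2 ^ j), ← mul_assoc (val p1 ^ k),
      (hcc.zpow_zpow k j).eq]
  | inv a _ ha =>
    obtain ⟨i, j, rfl⟩ := ha
    refine ⟨-i, -j, ?_⟩
    rw [mul_inv_rev, zpow_neg, zpow_neg]
    exact ((hcc.zpow_zpow i j).inv_inv.eq).symm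

theorem P_pow : ∀ x ∈ P, x ^ 5 = 1 := by
  intro x hx
  obtain ⟨i, j, rfl⟩ := P_form x hx
  have hc : Commute (val p1) (val p2) := by
    have h := val_eq_one p_comm
    rw [pow_one, val_append, val_append, val_append, val_reverse, val_reverse] at h
    have h2 : val p1 * val p2 * (val p2 * val p1)⁻¹ = 1 := by
      rw [mul_inv_rev, ← h]; group
    exact mul_inv_eq_one.1 h2
  have h1 := val_eq_one p_1
  have h2 := val_eq_one p_2
  rw [(hc.zpow_zpow i j).mul_pow, ← zpow_natCast, ← zpow_natCast, ← zpow_mul, ← zpow_mul, mul_comm i, mul_comm j,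
    zpow_mul, zpow_mul, zpow_natCast, zpow_natCast, h1, h2, one_zpow, one_zpow, one_mul]

theorem P_pgroup : IsPGroup 5 P := by
  intro x
  exact ⟨1, Subtype.ext (by simpa using P_pow x x.2)⟩

theorem card_P : Nat.card P = 25 := by
  haveI : Fact (Nat.Prime 5) := ⟨by norm_num⟩
  apply le_antisymm
  · obtain ⟨T, hT⟩ := P_pgroup.exists_le_sylow
    have h1 := Sylow.card_eq_multiplicity T
    rw [fact_two (m := 24192) (by norm_num) (by rw [H17.G24J.card_H2]; norm_num) (by norm_num)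
      (by rw [H17.G24J.card_H2]; norm_num)] at h1
    have h2 := Subgroup.card_le_of_le hT
    omega
  · have hfin : Finite (P.map (φ.comp H2.subtype)) :=
      Finite.of_surjective _ ((φ.comp H2.subtype).subgroupMap_surjective P)
    have h2 : 25 ≤ popc 11 (reachF net1 wP 4 (Nat.shiftLeft 1 137)) := Nat.le_of_ble_eq_true o_P
    have hP : ∀ w ∈ wP, (w.map π1).prod ∈ P.map (φ.comp H2.subtype) := by
      intro w hw
      exact ⟨val w, Subgroup.subset_closure ⟨w, hw, rfl⟩, φ_val w⟩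
    have h4 : popc 11 (reachF net1 wP 4 (Nat.shiftLeft 1 137)) ≤
        (MulAction.orbit (P.map (φ.comp H2.subtype)) (137 : ℕ)).ncard :=
      orbit_ncard_ge (fun c hc => reachF_orbit hbp1 hP c hc)
    have h5 : (MulAction.orbit (P.map (φ.comp H2.subtype)) (137 : ℕ)).ncard ≤ Nat.card (P.map (φ.comp H2.subtype)) := by
      rw [← MulAction.index_stabilizer]
      exact Nat.le_of_dvd Nat.card_pos (Subgroup.index_dvd_card _)
    have h6 : Nat.card (P.map (φ.comp H2.subtype)) ≤ Nat.card P :=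
      Nat.card_le_card_of_surjective _ ((φ.comp H2.subtype).subgroupMap_surjective P)
    omega

theorem P_ne : P ≠ ⊥ := by
  intro h
  have h1 := card_P
  rw [h, Subgroup.card_bot] at h1
  omega

theorem top_of_trans {E : Subgroup H2} (hPE : P ≤ E) (hE : ∀ q < 2016, ∃ g ∈ E, g • 0 = q) : E = ⊤ := by
  have h1 : Subgroup.normalClosure (P : Set H2) ≤ E := by
    unfold Subgroup.normalClosure
    rw [Subgroup.closure_le]
    intro x hx
    obtain ⟨p, hp, hc⟩ := Group.mem_conjugatesOfSet_iff.1 hx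
    obtain ⟨y, rfl⟩ := isConj_iff.1 hc
    exact conj_mem hPE (hE (y • 0) ((smul_lt y 0).2 (by norm_num))) p hp
  have h2 : (Subgroup.normalClosure (P : Set H2)) = ⊥ ∨ Subgroup.normalClosure (P : Set H2) = ⊤ :=
    Subgroup.normalClosure_normal.eq_bot_or_eq_top
  rcases h2 with h2 | h2
  · exfalso
    apply P_ne
    rw [eq_bot_iff, ← h2]
    exact Subgroup.subset_normalClosure
  · exact top_le_iff.1 (h2.ge.trans h1)

theorem conj_word_mem {E : Subgroup H2} {y p : List Lt} (h : val y * val p * (val y)⁻¹ ∈ E) :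
    val (y ++ p ++ y.reverse) ∈ E := by
  rw [val_append, val_append, val_reverse]
  exact h

theorem nonspec {y : List Lt} {q r : ℕ}
    (hy : Nat.beq (appF net y (Nat.shiftLeft 1 q)) (Nat.shiftLeft 1 0) = true)
    (rt : chkTrans net [p1, p2, y ++ p1 ++ y.reverse, y ++ p2 ++ y.reverse] r 2016 0 = true)
    {E : Subgroup H2} (hPE : P ≤ E) (hE : ∃ g ∈ E, g • 0 = q) : E = ⊤ := by
  have hy' := smul_word hy
  have h1 := conj_mem hPE (y := val y) (by rw [hy']; exact hE)
  apply top_of_trans hPE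
  refine reach_all ?_ rt
  intro w hw
  simp only [List.mem_cons, List.not_mem_nil, or_false] at hw
  rcases hw with rfl | rfl | rfl | rfl
  · exact hPE p1_mem
  · exact hPE p2_mem
  · exact conj_word_mem (h1 _ p1_mem)
  · exact conj_word_mem (h1 _ p2_mem)

/-- conjugation by an element of `M` -/
theorem conj_E {E : Subgroup H2} (hPE : P ≤ E) {m : H2} (hm : m ∈ M) {q : ℕ} (hE : ∃ g ∈ E, g • 0 = m • q) :
    P ≤ E.map (MulAut.conj m⁻¹).toMonoidHom ∧ (∃ g ∈ E.map (MulAut.conj m⁻¹).toMonoidHom, g • 0 = q) ∧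
      Nat.card (E.map (MulAut.conj m⁻¹).toMonoidHom) = Nat.card E ∧
      (E.map (MulAut.conj m⁻¹).toMonoidHom = ⊤ → E = ⊤) := by
  refine ⟨?_, ?_, ?_, ?_⟩
  · intro p hp
    refine ⟨m * p * m⁻¹, hPE (norm_M m hm p hp), ?_⟩
    change m⁻¹ * (m * p * m⁻¹) * m⁻¹⁻¹ = p
    group
  · obtain ⟨g, hg, hgq⟩ := hE
    refine ⟨m⁻¹ * g * m⁻¹⁻¹, ⟨g, hg, rfl⟩, ?_⟩
    rw [inv_inv, mul_smul, (mem_M m).1 hm, mul_smul, hgq, inv_smul_smul]
  · exact Nat.card_congr ((MulAut.conj m⁻¹).subgroupMap E).toEquiv.symm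
  · intro h
    rw [eq_top_iff]
    intro x _
    have hx : m⁻¹ * x * m⁻¹⁻¹ ∈ E.map (MulAut.conj m⁻¹).toMonoidHom := by rw [h]; trivial
    obtain ⟨g, hg, hgx⟩ := hx
    have : g = x := (MulAut.conj m⁻¹).injective hgx
    rw [← this]
    exact hg

theorem conj_top {E : Subgroup H2} (hPE : P ≤ E) {m : H2} (hm : m ∈ M) {q : ℕ} (hE : ∃ g ∈ E, g • 0 = m • q)
    (h : ∀ E' : Subgroup H2, P ≤ E' → (∃ g ∈ E', g • 0 = q) → Nat.card E' = Nat.card E → E' = ⊤) : E = ⊤ := by
  obtain ⟨h1, h2, h3, h4⟩ := conj_E hPE hm hE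
  exact h4 (h _ h1 h2 h3)

theorem reachM {b n O : ℕ} (h : Nat.beq (reachF net wM n (Nat.shiftLeft 1 b)) O = true) (c : ℕ)
    (hc : O.testBit c = true) : ∃ g ∈ M, g • b = c := by
  rw [← M'_eq]
  exact reach_mem wM_mem h c hc

theorem ns0 {E : Subgroup H2} (hPE : P ≤ E) {q : ℕ} (hq : a0.testBit q = true) (hE : ∃ g ∈ E, g • 0 = q) : E = ⊤ := by
  obtain ⟨m, hm, rfl⟩ := reachM ra0 _ hq
  exact conj_top hPE hm hE (fun E' h1 h2 _ => nonspec ry0 rt0 h1 h2)

theorem ns1 {E : Subgroup H2} (hPE : P ≤ E) {q : ℕ} (hq : a1.testBit q = true) (hE : ∃ g ∈ E, g • 0 = q) : E = ⊤ := by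
  obtain ⟨m, hm, rfl⟩ := reachM ra1 _ hq
  exact conj_top hPE hm hE (fun E' h1 h2 _ => nonspec ry1 rt1 h1 h2)

theorem ns2 {E : Subgroup H2} (hPE : P ≤ E) {q : ℕ} (hq : a2.testBit q = true) (hE : ∃ g ∈ E, g • 0 = q) : E = ⊤ := by
  obtain ⟨m, hm, rfl⟩ := reachM ra2 _ hq
  exact conj_top hPE hm hE (fun E' h1 h2 _ => nonspec ry2 rt2 h1 h2)

theorem ns3 {E : Subgroup H2} (hPE : P ≤ E) {q : ℕ} (hq : a3.testBit q = true) (hE : ∃ g ∈ E, g • 0 = q) : E = ⊤ := by
  obtain ⟨m, hm, rfl⟩ := reachM ra3 _ hq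
  exact conj_top hPE hm hE (fun E' h1 h2 _ => nonspec ry3 rt3 h1 h2)

theorem ns4 {E : Subgroup H2} (hPE : P ≤ E) {q : ℕ} (hq : a4.testBit q = true) (hE : ∃ g ∈ E, g • 0 = q) : E = ⊤ := by
  obtain ⟨m, hm, rfl⟩ := reachM ra4 _ hq
  exact conj_top hPE hm hE (fun E' h1 h2 _ => nonspec ry4 rt4 h1 h2)

theorem ns5 {E : Subgroup H2} (hPE : P ≤ E) {q : ℕ} (hq : a5.testBit q = true) (hE : ∃ g ∈ E, g • 0 = q) : E = ⊤ := by
  obtain ⟨m, hm, rfl⟩ := reachM ra5 _ hq
  exact conj_top hPE hm hE (fun E' h1 h2 _ => nonspec ry5 rt5 h1 h2)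

theorem ns6 {E : Subgroup H2} (hPE : P ≤ E) {q : ℕ} (hq : a6.testBit q = true) (hE : ∃ g ∈ E, g • 0 = q) : E = ⊤ := by
  obtain ⟨m, hm, rfl⟩ := reachM ra6 _ hq
  exact conj_top hPE hm hE (fun E' h1 h2 _ => nonspec ry6 rt6 h1 h2)

theorem ns7 {E : Subgroup H2} (hPE : P ≤ E) {q : ℕ} (hq : a7.testBit q = true) (hE : ∃ g ∈ E, g • 0 = q) : E = ⊤ := by
  obtain ⟨m, hm, rfl⟩ := reachM ra7 _ hq
  exact conj_top hPE hm hE (fun E' h1 h2 _ => nonspec ry7 rt7 h1 h2)

theorem ns8 {E : Subgroup H2} (hPE : P ≤ E) {q : ℕ} (hq : a8.testBit q = true) (hE : ∃ g ∈ E, g • 0 = q) : E = ⊤ := by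
  obtain ⟨m, hm, rfl⟩ := reachM ra8 _ hq
  exact conj_top hPE hm hE (fun E' h1 h2 _ => nonspec ry8 rt8 h1 h2)

theorem ns9 {E : Subgroup H2} (hPE : P ≤ E) {q : ℕ} (hq : a9.testBit q = true) (hE : ∃ g ∈ E, g • 0 = q) : E = ⊤ := by
  obtain ⟨m, hm, rfl⟩ := reachM ra9 _ hq
  exact conj_top hPE hm hE (fun E' h1 h2 _ => nonspec ry9 rt9 h1 h2)

theorem ns10 {E : Subgroup H2} (hPE : P ≤ E) {q : ℕ} (hq : a10.testBit q = true) (hE : ∃ g ∈ E, g • 0 = q) : E = ⊤ := by
  obtain ⟨m, hm, rfl⟩ := reachM ra10 _ hq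
  exact conj_top hPE hm hE (fun E' h1 h2 _ => nonspec ry10 rt10 h1 h2)

theorem ns11 {E : Subgroup H2} (hPE : P ≤ E) {q : ℕ} (hq : a11.testBit q = true) (hE : ∃ g ∈ E, g • 0 = q) : E = ⊤ := by
  obtain ⟨m, hm, rfl⟩ := reachM ra11 _ hq
  exact conj_top hPE hm hE (fun E' h1 h2 _ => nonspec ry11 rt11 h1 h2)

theorem ns12 {E : Subgroup H2} (hPE : P ≤ E) {q : ℕ} (hq : a12.testBit q = true) (hE : ∃ g ∈ E, g • 0 = q) : E = ⊤ := by
  obtain ⟨m, hm, rfl⟩ := reachM ra12 _ hq
  exact conj_top hPE hm hE (fun E' h1 h2 _ => nonspec ry12 rt12 h1 h2)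

theorem ns13 {E : Subgroup H2} (hPE : P ≤ E) {q : ℕ} (hq : a13.testBit q = true) (hE : ∃ g ∈ E, g • 0 = q) : E = ⊤ := by
  obtain ⟨m, hm, rfl⟩ := reachM ra13 _ hq
  exact conj_top hPE hm hE (fun E' h1 h2 _ => nonspec ry13 rt13 h1 h2)

theorem ns14 {E : Subgroup H2} (hPE : P ≤ E) {q : ℕ} (hq : a14.testBit q = true) (hE : ∃ g ∈ E, g • 0 = q) : E = ⊤ := by
  obtain ⟨m, hm, rfl⟩ := reachM ra14 _ hq
  exact conj_top hPE hm hE (fun E' h1 h2 _ => nonspec ry14 rt14 h1 h2)

theorem ns15 {E : Subgroup H2} (hPE : P ≤ E) {q : ℕ} (hq : a15.testBit q = true) (hE : ∃ g ∈ E, g • 0 = q) : E = ⊤ := by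
  obtain ⟨m, hm, rfl⟩ := reachM ra15 _ hq
  exact conj_top hPE hm hE (fun E' h1 h2 _ => nonspec ry15 rt15 h1 h2)


theorem cases_pt {q : ℕ} (hq : q < 2016) (h0 : q ≠ 0) : sp.testBit q = true ∨ a0.testBit q = true ∨ a1.testBit q = true ∨ a2.testBit q = true ∨ a3.testBit q = true ∨ a4.testBit q = true ∨ a5.testBit q = true ∨ a6.testBit q = true ∨ a7.testBit q = true ∨ a8.testBit q = true ∨ a9.testBit q = true ∨ a10.testBit q = true ∨ a11.testBit q = true ∨ a12.testBit q = true ∨ a13.testBit q = true ∨ a14.testBit q = true ∨ a15.testBit q = true := by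
  have h := bit_of_full cov hq
  rw [H17.G24J.bit_or] at h
  rcases h with h | h
  · exact absurd (bit_one h) h0
  · simpa only [H17.G24J.bit_or] using h

theorem nonspec_all {E : Subgroup H2} (hPE : P ≤ E) {q : ℕ} (hq : a0.testBit q = true ∨ a1.testBit q = true ∨ a2.testBit q = true ∨ a3.testBit q = true ∨ a4.testBit q = true ∨ a5.testBit q = true ∨ a6.testBit q = true ∨ a7.testBit q = true ∨ a8.testBit q = true ∨ a9.testBit q = true ∨ a10.testBit q = true ∨ a11.testBit q = true ∨ a12.testBit q = true ∨ a13.testBit q = true ∨ a14.testBit q = true ∨ a15.testBit q = true) (hE : ∃ g ∈ E, g • 0 = q) : E = ⊤ := by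
  rcases hq with h | h | h | h | h | h | h | h | h | h | h | h | h | h | h | h
  · exact ns0 hPE h hE
  · exact ns1 hPE h hE
  · exact ns2 hPE h hE
  · exact ns3 hPE h hE
  · exact ns4 hPE h hE
  · exact ns5 hPE h hE
  · exact ns6 hPE h hE
  · exact ns7 hPE h hE
  · exact ns8 hPE h hE
  · exact ns9 hPE h hE
  · exact ns10 hPE h hE
  · exact ns11 hPE h hE
  · exact ns12 hPE h hE
  · exact ns13 hPE h hE
  · exact ns14 hPE h hE
  · exact ns15 hPE h hE

theorem special {E : Subgroup H2} (hPE : P ≤ E) (hcard : 1454 ≤ Nat.card E) (hE : ∃ g ∈ E, g • 0 = 2) : E = ⊤ := by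
  have hys := smul_word rys
  have h1 := conj_mem hPE (y := val ys) (by rw [hys]; exact hE)
  by_cases h : ∃ g ∈ E, ¬ t1.testBit (g • 0) = true
  · obtain ⟨g, hg, hgt⟩ := h
    have hlt : g • 0 < 2016 := (smul_lt g 0).2 (by norm_num)
    have hne : g • 0 ≠ 0 := by
      intro h0
      rw [h0] at hgt
      exact hgt (by decide +kernel)
    rcases cases_pt hlt hne with hs | ha
    · have h2 : (Nat.land sp (Nat.lor t1 (Nat.lor t2 t3))).testBit (g • 0) = true := by rw [eqOfBeq spcov]; exact hs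
      have h3 : (Nat.lor t1 (Nat.lor t2 t3)).testBit (g • 0) = true := by
        have h2' : (sp &&& (Nat.lor t1 (Nat.lor t2 t3))).testBit (g • 0) = true := h2
        rw [Nat.testBit_and, Bool.and_eq_true] at h2'
        exact h2'.2
      rw [H17.G24J.bit_or, H17.G24J.bit_or] at h3
      rcases h3 with h3 | h3 | h3
      · exact absurd h3 hgt
      · obtain ⟨p, hp, hpq⟩ := reach_mem (E := P) (fun w hw => Subgroup.subset_closure ⟨w, hw, rfl⟩) rt_2 _ h3
        have hz := smul_word rz2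
        have h4 := conj_mem hPE (y := val z2) (by
          rw [hz]
          refine ⟨p⁻¹ * g, mul_mem (inv_mem (hPE hp)) hg, ?_⟩
          rw [mul_smul, ← hpq, inv_smul_smul])
        apply top_of_trans hPE
        refine reach_all ?_ rtt2
        intro w hw
        simp only [List.mem_cons, List.not_mem_nil, or_false] at hw
        rcases hw with rfl | rfl | rfl | rfl | rfl | rfl
        · exact hPE p1_mem
        · exact hPE p2_mem
        · exact conj_word_mem (h1 _ p1_mem)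
        · exact conj_word_mem (h1 _ p2_mem)
        · exact conj_word_mem (h4 _ p1_mem)
        · exact conj_word_mem (h4 _ p2_mem)
      · obtain ⟨p, hp, hpq⟩ := reach_mem (E := P) (fun w hw => Subgroup.subset_closure ⟨w, hw, rfl⟩) rt_3 _ h3
        have hz := smul_word rz3
        have h4 := conj_mem hPE (y := val z3) (by
          rw [hz]
          refine ⟨p⁻¹ * g, mul_mem (inv_mem (hPE hp)) hg, ?_⟩
          rw [mul_smul, ← hpq, inv_smul_smul])
        apply top_of_trans hPE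
        refine reach_all ?_ rtt3
        intro w hw
        simp only [List.mem_cons, List.not_mem_nil, or_false] at hw
        rcases hw with rfl | rfl | rfl | rfl | rfl | rfl
        · exact hPE p1_mem
        · exact hPE p2_mem
        · exact conj_word_mem (h1 _ p1_mem)
        · exact conj_word_mem (h1 _ p2_mem)
        · exact conj_word_mem (h4 _ p1_mem)
        · exact conj_word_mem (h4 _ p2_mem)
    · exact nonspec_all hPE ha ⟨g, hg, rfl⟩
  · exfalso
    push Not at h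
    -- the orbit of 0 has at most six points
    have h2 : (MulAction.orbit E (0 : ℕ)).ncard ≤ 6 := by
      rw [← t1_card, ← H17.G24J.ncard_mask (k := 11) (U := t1) (by decide +kernel)]
      apply Set.ncard_le_ncard
      · rintro _ ⟨g, rfl⟩
        exact h g g.2
      · refine (Set.finite_Iio 2048).subset ?_
        intro c hc
        by_contra hlt
        have hc' : t1.testBit c = true := hc
        have hlt' : 2048 ≤ c := by simpa using hlt
        rw [Nat.testBit_lt_two_pow (lt_of_lt_of_le (by decide +kernel : t1 < 2 ^ 2048)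
          (Nat.pow_le_pow_right (by norm_num) hlt'))] at hc'
        exact absurd hc' (by simp)
    have h3 : (MulAction.stabilizer E (0 : ℕ)).index = (MulAction.orbit E (0 : ℕ)).ncard := MulAction.index_stabilizer E (0 : ℕ)
    have h4 := Subgroup.card_mul_index (MulAction.stabilizer E (0 : ℕ))
    have h5 : Nat.card (MulAction.stabilizer E (0 : ℕ)) = Nat.card (E ⊓ M : Subgroup H2) := by
      apply Nat.card_congr
      refine ⟨fun x => ⟨x.1.1, x.1.2, x.2⟩, fun x => ⟨⟨x.1, x.2.1⟩, x.2.2⟩, fun x => rfl, fun x => rfl⟩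
    have h6 : Nat.card (E ⊓ M : Subgroup H2) ∣ 300 := by
      rw [← card_M]
      exact Subgroup.card_dvd_of_le inf_le_right
    have h7 : 243 ≤ Nat.card (E ⊓ M : Subgroup H2) := by
      rw [h5, h3] at h4
      by_contra hlt
      push Not at hlt
      have : Nat.card (E ⊓ M : Subgroup H2) * (MulAction.orbit E (0 : ℕ)).ncard ≤ 242 * 6 :=
        Nat.mul_le_mul (by omega) h2
      omega
    have h8 : Nat.card (E ⊓ M : Subgroup H2) = 300 := by
      obtain ⟨k, hk⟩ := h6
      have hk1 : k < 2 := by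
        by_contra hlt
        push Not at hlt
        have : Nat.card (E ⊓ M : Subgroup H2) * 2 ≤ Nat.card (E ⊓ M : Subgroup H2) * k := Nat.mul_le_mul_left _ hlt
        omega
      interval_cases k
      · omega
      · omega
    have h9 : E ⊓ M = M := Subgroup.eq_of_le_of_card_ge inf_le_right (by rw [h8, card_M])
    have h10 : M ≤ E := by rw [← h9]; exact inf_le_left
    obtain ⟨m, hm, hm2⟩ := reachM rsp 206 (by decide +kernel)
    obtain ⟨g, hg, hg2⟩ := hE
    have h11 := h (m * g) (mul_mem (h10 hm) hg)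
    rw [mul_smul, hg2, hm2] at h11
    exact absurd h11 (by decide +kernel)

/-- **overgroups of the Sylow 5-subgroup of `J2`** -/
theorem overgroup {E : Subgroup H2} (hPE : P ≤ E) (hcard : 1454 ≤ Nat.card E) : E = ⊤ := by
  have h1 : ∃ g ∈ E, g • 0 ≠ 0 := by
    by_contra h
    push Not at h
    have h2 : E ≤ M := fun g hg => h g hg
    have h3 := Subgroup.card_le_of_le h2
    rw [card_M] at h3
    omega
  obtain ⟨g, hg, hne⟩ := h1
  have hlt : g • 0 < 2016 := (smul_lt g 0).2 (by norm_num)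
  rcases cases_pt hlt hne with hs | ha
  · obtain ⟨m, hm, hmq⟩ := reachM rsp _ hs
    exact conj_top hPE hm (q := 2) ⟨g, hg, hmq.symm⟩ (fun E' h1 h2 h3 => special h1 (by rw [h3]; exact hcard) h2)
  · exact nonspec_all hPE ha ⟨g, hg, rfl⟩

end H17.G16
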