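import Cfsg.Agent.Lib.H17.OrthTrans2
import Cfsg.Agent.Lib.H17.OrthOmega

set_option autoImplicit false
set_option linter.unusedSectionVars false

/-! The subgroup generated by one class of reflections. -/

namespace H17.OrthIdx

open QuadraticMap H17.OrthAbs H17.OrthTheta H17.OrthOmega

variable {F V : Type*} [Field F] [AddCommGroup V] [Module F V]

/-- the subgroup generated by the reflections of class `c` -/
def D (Q : QuadraticForm F V) (c : F) : Subgroup ↥(O Q) :=
  Subgroup.closure {g : ↥(O Q) | ∃ (v : V) (hv : Q v ≠ 0), (∃ t : F, t ≠ 0 ∧ Q v = c * t ^ 2) ∧ g = rf Q v hv}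

theorem rf_mem_D {Q : QuadraticForm F V} {c : F} {v : V} (hv : Q v ≠ 0) (h : ∃ t : F, t ≠ 0 ∧ Q v = c * t ^ 2) :
    rf Q v hv ∈ D Q c := Subgroup.subset_closure ⟨v, hv, h, rfl⟩

theorem D_normal (Q : QuadraticForm F V) (c : F) : (D Q c).Normal := by
  constructor
  intro n hn g
  have h1 : (D Q c).map (MulAut.conj g).toMonoidHom ≤ D Q c := by
    rw [D, MonoidHom.map_closure, Subgroup.closure_le]
    rintro _ ⟨_, ⟨v, hv, ht, rfl⟩, rfl⟩
    have hgv : Q ((g : V ≃ₗ[F] V) v) = Q v := g.2 v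
    have hgv0 : Q ((g : V ≃ₗ[F] V) v) ≠ 0 := by rw [hgv]; exact hv
    have : (MulAut.conj g).toMonoidHom (rf Q v hv) = rf Q ((g : V ≃ₗ[F] V) v) hgv0 := conj_rf Q g v hv hgv0
    rw [this]
    exact rf_mem_D hgv0 (by rw [hgv]; exact ht)
  exact h1 ⟨n, hn, rfl⟩

theorem diag [Finite F] (h2 : (2 : F) ≠ 0) {c d e : F} (hc : c ≠ 0) (he0 : e ≠ 0) :
    ∃ X Y : F, c * X ^ 2 + e * Y ^ 2 = d := by
  have := Fintype.ofFinite F
  have hodd : Fintype.card F % 2 = 1 := by
    have h := FiniteField.odd_card_of_char_ne_two (F := F) (by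
      intro h
      apply h2
      have := ringChar.Nat.cast_ringChar (R := F)
      rw [h] at this
      exact_mod_cast this)
    exact h
  obtain ⟨X, Y, h⟩ := FiniteField.exists_root_sum_quadratic (R := F)
    (f := Polynomial.C c * Polynomial.X ^ 2 - Polynomial.C d) (g := Polynomial.C e * Polynomial.X ^ 2)
    (by
      rw [Polynomial.degree_sub_eq_left_of_degree_lt]
      · exact Polynomial.degree_C_mul_X_pow 2 hc
      · rw [Polynomial.degree_C_mul_X_pow 2 hc]
        exact lt_of_le_of_lt Polynomial.degree_C_le (by norm_num)) (Polynomial.degree_C_mul_X_pow 2 he0) hodd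
  simp only [Polynomial.eval_sub, Polynomial.eval_mul, Polynomial.eval_C, Polynomial.eval_pow, Polynomial.eval_X] at h
  exact ⟨X, Y, by linear_combination h⟩

theorem binary [Finite F] (h2 : (2 : F) ≠ 0) {c d B : F} (hc : c ≠ 0) (hd : 4 * c ^ 2 - B ^ 2 ≠ 0) :
    ∃ α β : F, c * α ^ 2 + B * α * β + c * β ^ 2 = d := by
  set e : F := (4 * c ^ 2 - B ^ 2) / (4 * c) with he
  have h4 : (4 : F) ≠ 0 := by
    have : (4 : F) = 2 * 2 := by norm_num
    rw [this]; exact mul_ne_zero h2 h2
  have he0 : e ≠ 0 := div_ne_zero hd (mul_ne_zero h4 hc)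
  obtain ⟨X, Y, h'⟩ := diag (d := d) h2 hc he0
  refine ⟨X - B * Y / (2 * c), Y, ?_⟩
  rw [← h', he]
  field_simp
  ring

theorem triple (Q : QuadraticForm F V) (u w : V) (hu : Q u ≠ 0) (hw : Q w ≠ 0) (α β : F)
    (ha : Q (α • u + β • w) ≠ 0) :
    ∃ (b : V) (hb : Q b ≠ 0), Q b = Q (α • u + β • w) * (Q u * Q w) ∧
      rf Q (α • u + β • w) ha * rf Q u hu * rf Q w hw = rf Q b hb := by
  have hA : Q (α • u + β • w) = α ^ 2 * Q u + α * β * polar (⇑Q) u w + β ^ 2 * Q w := by
    rw [QuadraticMap.map_add (⇑Q), QuadraticMap.map_smul, QuadraticMap.map_smul, QuadraticMap.polar_smul_left,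
      QuadraticMap.polar_smul_right]
    simp only [smul_eq_mul]
    ring
  have hQb : Q ((-β * Q w) • u + (α * Q u + β * polar (⇑Q) u w) • w) = Q (α • u + β • w) * (Q u * Q w) := by
    rw [hA, QuadraticMap.map_add (⇑Q), QuadraticMap.map_smul, QuadraticMap.map_smul, QuadraticMap.polar_smul_left,
      QuadraticMap.polar_smul_right]
    simp only [smul_eq_mul]
    ring
  have hb : Q ((-β * Q w) • u + (α * Q u + β * polar (⇑Q) u w) • w) ≠ 0 := by
    rw [hQb]; exact mul_ne_zero ha (mul_ne_zero hu hw)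
  refine ⟨_, hb, hQb, ?_⟩
  apply Subtype.ext
  apply LinearEquiv.ext
  intro x
  change refl Q _ ha (refl Q u hu (refl Q w hw x)) = refl Q _ hb x
  have hwu : polar (⇑Q) w u = polar (⇑Q) u w := polar_comm _ _ _
  rw [refl_apply Q _ hb, hQb, refl_apply Q _ ha, refl_apply Q u hu, refl_apply Q w hw]
  simp only [QuadraticMap.polar_sub_right, QuadraticMap.polar_smul_right, QuadraticMap.polar_add_left,
    QuadraticMap.polar_smul_left, QuadraticMap.polar_self, hwu, smul_eq_mul]
  generalize Q (α • u + β • w) = A at *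
  generalize polar (⇑Q) u x = p
  generalize polar (⇑Q) w x = s
  generalize polar (⇑Q) u w = B at *
  generalize Q u = U at *
  generalize Q w = W at *
  match_scalars
  · ring
  · field_simp
    rw [hA]
    ring
  · field_simp
    rw [hA]
    ring

section

variable [Finite F] [FiniteDimensional F V] (h2 : (2 : F) ≠ 0) (Q : QuadraticForm F V)

include h2 in
theorem pair_mem {c₁ c₂ : F} (hc₁ : c₁ ≠ 0) (hc₂ : c₂ ≠ 0) {u w : V} (hu : Q u = c₂) (hw : Q w = c₂)
    (hu0 : Q u ≠ 0) (hw0 : Q w ≠ 0) (hd : 4 * c₂ ^ 2 - polar (⇑Q) u w ^ 2 ≠ 0) :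
    rf Q u hu0 * rf Q w hw0 ∈ D Q c₁ := by
  obtain ⟨α, β, h⟩ := binary (d := c₁) h2 hc₂ hd
  have hA : Q (α • u + β • w) = c₁ := by
    rw [QuadraticMap.map_add (⇑Q), QuadraticMap.map_smul, QuadraticMap.map_smul, QuadraticMap.polar_smul_left,
      QuadraticMap.polar_smul_right, hu, hw, ← h]
    simp only [smul_eq_mul]
    ring
  have ha : Q (α • u + β • w) ≠ 0 := by rw [hA]; exact hc₁
  obtain ⟨b, hb, hQb, he⟩ := triple Q u w hu0 hw0 α β ha
  have h1 : rf Q u hu0 * rf Q w hw0 = rf Q _ ha * rf Q b hb := by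
    rw [← he, ← mul_assoc, ← mul_assoc, rf_sq, one_mul]
  rw [h1]
  refine mul_mem (rf_mem_D ha ⟨1, one_ne_zero, by rw [hA]; ring⟩) (rf_mem_D hb ⟨c₂, hc₂, ?_⟩)
  rw [hQb, hA, hu, hw]; ring

theorem finrank_three {u e f : V} (hu : Q u ≠ 0) (h2 : (2 : F) ≠ 0) (he : Q e = 0) (hf : Q f = 0)
    (hue : polar (⇑Q) u e = 0) (huf : polar (⇑Q) u f = 0) (hef : polar (⇑Q) e f = 1) :
    3 ≤ Module.finrank F V := by
  have hli : LinearIndependent F ![u, e, f] := by
    rw [Fintype.linearIndependent_iff]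
    intro g hg
    simp only [Fin.sum_univ_three, Matrix.cons_val_zero, Matrix.cons_val_one, Matrix.cons_val] at hg
    have e1 : polar (⇑Q) u (g 0 • u + g 1 • e + g 2 • f) = 0 := by rw [hg, QuadraticMap.polar_zero_right]
    have e2 : polar (⇑Q) e (g 0 • u + g 1 • e + g 2 • f) = 0 := by rw [hg, QuadraticMap.polar_zero_right]
    have e3 : polar (⇑Q) f (g 0 • u + g 1 • e + g 2 • f) = 0 := by rw [hg, QuadraticMap.polar_zero_right]
    have heu : polar (⇑Q) e u = 0 := by rw [polar_comm]; exact hue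
    have hfu : polar (⇑Q) f u = 0 := by rw [polar_comm]; exact huf
    have hfe : polar (⇑Q) f e = 1 := by rw [polar_comm]; exact hef
    simp only [QuadraticMap.polar_add_right, QuadraticMap.polar_smul_right, QuadraticMap.polar_self, hue, huf, hef,
      heu, hfu, hfe, he, hf, smul_eq_mul, mul_zero, mul_one, add_zero, zero_add] at e1 e2 e3
    have h0 : g 0 = 0 := by
      have := e1
      rw [nsmul_eq_mul] at this
      rcases mul_eq_zero.1 this with h | h
      · exact h
      · exact absurd h (mul_ne_zero (by exact_mod_cast h2) hu)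
    intro i
    fin_cases i
    · exact h0
    · simpa using e3
    · simpa using e2
  have := hli.fintype_card_le_finrank
  simpa using this

include h2 in
/-- the degenerate case -/
theorem pair_deg (hQ : (polarBilin Q).Nondegenerate) (hn : Even (Module.finrank F V))
    (h43 : ¬ (Module.finrank F V = 4 ∧ Nat.card F = 3)) {c₁ c₂ : F} (hc₁ : c₁ ≠ 0) (hc₂ : c₂ ≠ 0) {u w : V}
    (hu : Q u = c₂) (hw : Q w = c₂) (hu0 : Q u ≠ 0) (hw0 : Q w ≠ 0) (hB : polar (⇑Q) u w = 2 * c₂) :
    rf Q u hu0 * rf Q w hw0 ∈ D Q c₁ := by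
  have h4 : (4 : F) ≠ 0 := by
    have : (4 : F) = 2 * 2 := by norm_num
    rw [this]; exact mul_ne_zero h2 h2
  by_cases huw : u = w
  · subst huw
    rw [rf_sq]; exact one_mem _
  set e := u - w with he
  have he0 : e ≠ 0 := sub_ne_zero.2 huw
  have hpuu : polar (⇑Q) u u = 2 * c₂ := by rw [QuadraticMap.polar_self, hu, nsmul_eq_mul]; norm_num
  have hue : polar (⇑Q) u e = 0 := by
    rw [he, QuadraticMap.polar_sub_right, hpuu, hB, sub_self]
  have hwe' : w = u - e := by rw [he]; abel
  have hQe : Q e = 0 := by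
    have h1 : Q w = Q u + Q (-e) + polar (⇑Q) u (-e) := by
      rw [hwe', sub_eq_add_neg, QuadraticMap.map_add (⇑Q)]
    rw [QuadraticMap.map_neg, QuadraticMap.polar_neg_right, hue, hu, hw] at h1
    linear_combination -h1
  -- the partner of `e`
  obtain ⟨y, hy⟩ : ∃ y, polar (⇑Q) e y ≠ 0 := by
    by_contra h
    push Not at h
    exact he0 (hQ.1 e h)
  have heu : polar (⇑Q) e u = 0 := by rw [polar_comm]; exact hue
  obtain ⟨y', hy1, hy2⟩ : ∃ y', polar (⇑Q) e y' = 1 ∧ polar (⇑Q) u y' = 0 := by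
    refine ⟨(polar (⇑Q) e y)⁻¹ • (y - (polar (⇑Q) u y / (2 * c₂)) • u), ?_, ?_⟩
    · rw [QuadraticMap.polar_smul_right, QuadraticMap.polar_sub_right, QuadraticMap.polar_smul_right, heu]
      simp only [smul_eq_mul, mul_zero, sub_zero]
      exact inv_mul_cancel₀ hy
    · rw [QuadraticMap.polar_smul_right, QuadraticMap.polar_sub_right, QuadraticMap.polar_smul_right, hpuu]
      simp only [smul_eq_mul]
      rw [div_mul_cancel₀ _ (mul_ne_zero h2 hc₂), sub_self, mul_zero]
  have hee : polar (⇑Q) e e = 0 := by rw [QuadraticMap.polar_self, hQe]; simp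
  set f := y' - Q y' • e with hf
  have hef : polar (⇑Q) e f = 1 := by
    rw [hf, QuadraticMap.polar_sub_right, QuadraticMap.polar_smul_right, hee, hy1]; simp
  have huf : polar (⇑Q) u f = 0 := by
    rw [hf, QuadraticMap.polar_sub_right, QuadraticMap.polar_smul_right, hue, hy2]; simp
  have hQf : Q f = 0 := by
    rw [hf, sub_eq_add_neg, QuadraticMap.map_add (⇑Q), QuadraticMap.map_neg, QuadraticMap.map_smul, hQe,
      QuadraticMap.polar_neg_right, QuadraticMap.polar_smul_right, polar_comm (⇑Q) y' e, hy1]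
    simp
  have hn3 := finrank_three (F := F) Q hu0 h2 hQe hQf hue huf hef
  -- it is enough to find `z`
  have key : ∀ z : V, Q z = c₂ → polar (⇑Q) u z = 0 → 4 * c₂ ^ 2 - polar (⇑Q) z w ^ 2 ≠ 0 →
      rf Q u hu0 * rf Q w hw0 ∈ D Q c₁ := by
    intro z hz h1 h3
    have hz0 : Q z ≠ 0 := by rw [hz]; exact hc₂
    have a1 := pair_mem h2 Q hc₁ hc₂ hu hz hu0 hz0 (by
      rw [h1]
      simpa using mul_ne_zero h4 (pow_ne_zero 2 hc₂))
    have a2 := pair_mem h2 Q hc₁ hc₂ hz hw hz0 hw0 h3
    have : rf Q u hu0 * rf Q w hw0 = (rf Q u hu0 * rf Q z hz0) * (rf Q z hz0 * rf Q w hw0) := by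
      rw [mul_assoc, ← mul_assoc (rf Q z hz0), rf_sq, one_mul]
    rw [this]
    exact mul_mem a1 a2
  by_cases hq : Nat.card F = 3
  · -- dimension at least six
    have hn4 : Module.finrank F V ≠ 4 := fun h => h43 ⟨h, hq⟩
    have hn6 : 6 ≤ Module.finrank F V := by
      obtain ⟨k, hk⟩ := hn
      omega
    set W1 := (⊥ : Submodule F V) ⊔ Submodule.span F {u} with hW1
    have hbot : ∀ (a : V), ∀ x ∈ (⊥ : Submodule F V), polar (⇑Q) a x = 0 := by
      intro a x hx
      rw [Submodule.mem_bot] at hx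
      rw [hx, QuadraticMap.polar_zero_right]
    have hg1 : Good Q W1 := good_sup_one Q ⊥ (good_bot Q) u (hbot u) (by rw [hpuu]; exact mul_ne_zero h2 hc₂)
    have hW1u : ∀ x ∈ W1, ∃ t : F, x = t • u := by
      intro x hx
      rw [hW1, bot_sup_eq, Submodule.mem_span_singleton] at hx
      obtain ⟨t, rfl⟩ := hx
      exact ⟨t, rfl⟩
    set W2 := W1 ⊔ Submodule.span F {e, f} with hW2
    have hg2 : Good Q W2 := good_sup_two Q W1 hg1 e f
      (by
        intro x hx
        obtain ⟨t, rfl⟩ := hW1u x hx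
        rw [QuadraticMap.polar_smul_right, heu]; simp)
      (by
        intro x hx
        obtain ⟨t, rfl⟩ := hW1u x hx
        rw [QuadraticMap.polar_smul_right, polar_comm, huf]; simp)
      hee (by rw [QuadraticMap.polar_self, hQf]; simp) (by rw [hef]; exact one_ne_zero)
    have hr1 : Module.finrank F W1 ≤ 1 := by
      rw [hW1, bot_sup_eq]
      exact (finrank_span_le_card ({u} : Set V)).trans (by simp)
    have hr2 : Module.finrank F W2 ≤ 3 := by
      have h1 := Submodule.finrank_add_le_finrank_add_finrank W1 (Submodule.span F {e, f})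
      have h3 : Module.finrank F (Submodule.span F ({e, f} : Set V)) ≤ 2 := by
        classical
        have := finrank_span_finset_le_card (R := F) ({e, f} : Finset V)
        simp only [Finset.coe_insert, Finset.coe_singleton] at this
        exact this.trans Finset.card_le_two
      rw [← hW2] at h1
      omega
    obtain ⟨z₁, hz₁, hz₁0⟩ := exists_nonsingular Q hQ W2 hg2 (by
      intro h
      rw [h, finrank_top] at hr2
      omega)
    set W3 := W2 ⊔ Submodule.span F {z₁} with hW3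
    have hg3 : Good Q W3 := good_sup_one Q W2 hg2 z₁ hz₁ (by
      rw [QuadraticMap.polar_self, nsmul_eq_mul]
      exact mul_ne_zero (by exact_mod_cast h2) hz₁0)
    have hr3 : Module.finrank F W3 ≤ 4 := by
      have h1 := Submodule.finrank_add_le_finrank_add_finrank W2 (Submodule.span F {z₁})
      have h3 : Module.finrank F (Submodule.span F ({z₁} : Set V)) ≤ 1 :=
        (finrank_span_le_card ({z₁} : Set V)).trans (by simp)
      rw [← hW3] at h1
      omega
    obtain ⟨z₂, hz₂, hz₂0⟩ := exists_nonsingular Q hQ W3 hg3 (by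
      intro h
      rw [h, finrank_top] at hr3
      omega)
    obtain ⟨X, Y, hXY⟩ := diag (d := c₂) h2 hz₁0 hz₂0
    have hu2 : u ∈ W2 := Submodule.mem_sup_left (Submodule.mem_sup_right (Submodule.mem_span_singleton_self u))
    have he2 : e ∈ W2 := Submodule.mem_sup_right (Submodule.subset_span (by simp))
    have hz13 : z₁ ∈ W3 := Submodule.mem_sup_right (Submodule.mem_span_singleton_self z₁)
    have p1 := hz₁ u hu2
    have p2 := hz₁ e he2
    have p3 := hz₂ u (Submodule.mem_sup_left hu2)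
    have p4 := hz₂ e (Submodule.mem_sup_left he2)
    have p5 := hz₂ z₁ hz13
    have hzu : polar (⇑Q) (X • z₁ + Y • z₂) u = 0 := by
      rw [QuadraticMap.polar_add_left, QuadraticMap.polar_smul_left, QuadraticMap.polar_smul_left, p1, p3]; simp
    have hze : polar (⇑Q) (X • z₁ + Y • z₂) e = 0 := by
      rw [QuadraticMap.polar_add_left, QuadraticMap.polar_smul_left, QuadraticMap.polar_smul_left, p2, p4]; simp
    refine key (X • z₁ + Y • z₂) ?_ ?_ ?_
    · rw [QuadraticMap.map_add (⇑Q), QuadraticMap.map_smul, QuadraticMap.map_smul, QuadraticMap.polar_smul_left,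
        QuadraticMap.polar_smul_right, polar_comm (⇑Q) z₁ z₂, p5, ← hXY]
      simp only [smul_eq_mul]; ring
    · rw [polar_comm]; exact hzu
    · rw [hwe', QuadraticMap.polar_sub_right, hzu, hze]
      simpa using mul_ne_zero h4 (pow_ne_zero 2 hc₂)
  · -- explicit vector
    obtain ⟨γ, hγ0, hγ1, hγ2⟩ : ∃ γ : F, γ ≠ 0 ∧ γ ≠ 2 * c₂ ∧ γ ≠ -(2 * c₂) := by
      classical
      by_contra hcon
      push Not at hcon
      have := Fintype.ofFinite F
      have hsub : (Finset.univ : Finset F) ⊆ {0, 2 * c₂, -(2 * c₂)} := by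
        intro x _
        simp only [Finset.mem_insert, Finset.mem_singleton]
        by_cases hx0 : x = 0
        · exact Or.inl hx0
        · by_cases hx1 : x = 2 * c₂
          · exact Or.inr (Or.inl hx1)
          · exact Or.inr (Or.inr (hcon x hx0 hx1))
      have h1 := Finset.card_le_card hsub
      have h3 : ({0, 2 * c₂, -(2 * c₂)} : Finset F).card ≤ 3 := Finset.card_le_three
      have h5 : 3 ≤ Fintype.card F := by
        have h6 : ({0, 2 * c₂, -(2 * c₂)} : Finset F).card = 3 := by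
          have a1 : (0 : F) ≠ 2 * c₂ := (mul_ne_zero h2 hc₂).symm
          have a2 : (0 : F) ≠ -(2 * c₂) := (neg_ne_zero.2 (mul_ne_zero h2 hc₂)).symm
          have a3 : (2 * c₂ : F) ≠ -(2 * c₂) := by
            intro h
            have : 4 * c₂ = 0 := by linear_combination h
            exact mul_ne_zero h4 hc₂ this
          rw [Finset.card_insert_of_notMem (by simp [a1, a2]), Finset.card_pair a3]
        rw [← h6]; exact Finset.card_le_univ _
      rw [Finset.card_univ] at h1
      apply hq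
      rw [Nat.card_eq_fintype_card]
      omega
    have hzu : polar (⇑Q) u ((c₂ / γ) • e + γ • f) = 0 := by
      rw [QuadraticMap.polar_add_right, QuadraticMap.polar_smul_right, QuadraticMap.polar_smul_right, hue, huf]; simp
    have hfe : polar (⇑Q) f e = 1 := by rw [polar_comm]; exact hef
    have hze : polar (⇑Q) ((c₂ / γ) • e + γ • f) e = γ := by
      rw [QuadraticMap.polar_add_left, QuadraticMap.polar_smul_left, QuadraticMap.polar_smul_left, hee, hfe]; simp
    refine key ((c₂ / γ) • e + γ • f) ?_ hzu ?_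
    · rw [QuadraticMap.map_add (⇑Q), QuadraticMap.map_smul, QuadraticMap.map_smul, QuadraticMap.polar_smul_left,
        QuadraticMap.polar_smul_right, hQe, hQf, hef]
      simp only [smul_eq_mul, mul_zero, mul_one, zero_add]
      exact div_mul_cancel₀ _ hγ0
    · rw [hwe', QuadraticMap.polar_sub_right, polar_comm (⇑Q) _ u, hzu, hze]
      have : 4 * c₂ ^ 2 - (0 - γ) ^ 2 = -((γ - 2 * c₂) * (γ - -(2 * c₂))) := by ring
      rw [this]
      exact neg_ne_zero.2 (mul_ne_zero (sub_ne_zero.2 hγ1) (sub_ne_zero.2 hγ2))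

include h2 in
theorem pair_all (hQ : (polarBilin Q).Nondegenerate) (hn : Even (Module.finrank F V))
    (h43 : ¬ (Module.finrank F V = 4 ∧ Nat.card F = 3)) {c₁ c₂ : F} (hc₁ : c₁ ≠ 0) (hc₂ : c₂ ≠ 0) {u w : V}
    (hu : Q u = c₂) (hw : Q w = c₂) (hu0 : Q u ≠ 0) (hw0 : Q w ≠ 0) :
    rf Q u hu0 * rf Q w hw0 ∈ D Q c₁ := by
  by_cases hd : 4 * c₂ ^ 2 - polar (⇑Q) u w ^ 2 = 0
  · have h1 : (2 * c₂ - polar (⇑Q) u w) * (2 * c₂ + polar (⇑Q) u w) = 0 := by linear_combination hd
    rcases mul_eq_zero.1 h1 with h | h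
    · exact pair_deg h2 Q hQ hn h43 hc₁ hc₂ hu hw hu0 hw0 (by linear_combination -h)
    · have hw' : Q (-w) = c₂ := by rw [QuadraticMap.map_neg, hw]
      have hw0' : Q (-w) ≠ 0 := by rw [hw']; exact hc₂
      have h3 := pair_deg h2 Q hQ hn h43 hc₁ hc₂ hu hw' hu0 hw0' (by
        rw [QuadraticMap.polar_neg_right]; linear_combination -h)
      have h5 : rf Q (-w) hw0' = rf Q w hw0 := by
        have h6 : Q ((-1 : F) • w) ≠ 0 := by rw [neg_one_smul]; exact hw0'
        rw [← refl_smul Q w hw0 (-1) (neg_ne_zero.2 one_ne_zero) h6]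
        congr 1
        rw [neg_one_smul]
      rwa [h5] at h3
  · exact pair_mem h2 Q hc₁ hc₂ hu hw hu0 hw0 hd

variable [Finite V] (R : Reps F)

include h2 in
theorem D_eq_ker (hQ : (polarBilin Q).Nondegenerate) (hn : Even (Module.finrank F V)) (hn2 : 2 ≤ Module.finrank F V)
    (h43 : ¬ (Module.finrank F V = 4 ∧ Nat.card F = 3)) : D Q R.c₁ = (theta Q R.c₂).ker := by
  have := Fintype.ofFinite F
  have hcard : Fintype.card F ≠ 2 := by
    intro h
    apply h2
    have : (Fintype.card F : F) = 0 := Nat.cast_card_eq_zero F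
    rw [h] at this
    exact_mod_cast this
  obtain ⟨u, w, hu, hw, huc, hwc, a1, a2, b1, b2⟩ := exists_pair_theta h2 Q R hQ hn2
  have hle : D Q R.c₁ ≤ (theta Q R.c₂).ker := by
    rw [D, Subgroup.closure_le]
    rintro _ ⟨v, hv, ht, rfl⟩
    exact theta_of_not_class h2 Q v hv R.c₂ R.h₂ (fun h => R.excl _ hv ht h)
  have hN := D_normal Q R.c₁
  -- products of two reflections of the second class
  have hpair : ∀ (v : V) (hv : Q v ≠ 0), (∃ t : F, t ≠ 0 ∧ Q v = R.c₂ * t ^ 2) → rf Q v hv * rf Q w hw ∈ D Q R.c₁ := by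
    rintro v hv ⟨t, ht0, ht⟩
    have hv' : Q (t⁻¹ • v) = R.c₂ := by
      rw [QuadraticMap.map_smul, ht, smul_eq_mul]; field_simp
    have hv0' : Q (t⁻¹ • v) ≠ 0 := by rw [hv']; exact R.h₂
    rw [← refl_smul Q v hv t⁻¹ (inv_ne_zero ht0) hv0']
    exact pair_all h2 Q hQ hn h43 R.h₁ R.h₂ hv' hwc hv0' hw
  refine le_antisymm hle ?_
  intro g hg
  have hP : ∀ g : ↥(O Q), g ∈ D Q R.c₁ ∨ g * rf Q w hw ∈ D Q R.c₁ := by
    intro g
    have hgm : g ∈ Subgroup.closure {g : ↥(O Q) | ∃ (v : V) (hv : Q v ≠ 0), g = rf Q v hv} := by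
      rw [closure_rf (Or.inl hcard) Q hQ]; trivial
    have step : ∀ (v : V) (hv : Q v ≠ 0) (y : ↥(O Q)), (y ∈ D Q R.c₁ ∨ y * rf Q w hw ∈ D Q R.c₁) →
        (rf Q v hv * y ∈ D Q R.c₁ ∨ rf Q v hv * y * rf Q w hw ∈ D Q R.c₁) := by
      intro v hv y hy
      rcases R.cover (Q v) hv with h | h
      · have hs := rf_mem_D hv h
        rcases hy with hy | hy
        · exact Or.inl (mul_mem hs hy)
        · right; rw [mul_assoc]; exact mul_mem hs hy
      · have hs := hpair v hv h
        rcases hy with hy | hy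
        · right
          have e : rf Q v hv * y * rf Q w hw = (rf Q v hv * rf Q w hw) * (rf Q w hw * y * (rf Q w hw)⁻¹) := by
            rw [rf_inv, mul_assoc (rf Q v hv) (rf Q w hw), ← mul_assoc (rf Q w hw) (rf Q w hw * y), ← mul_assoc (rf Q w hw) (rf Q w hw),
              rf_sq, one_mul, mul_assoc]
          rw [e]
          exact mul_mem hs (hN.conj_mem _ hy _)
        · left
          have e : rf Q v hv * y = (rf Q v hv * rf Q w hw) * (rf Q w hw * (y * rf Q w hw) * (rf Q w hw)⁻¹) := by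
            rw [rf_inv, mul_assoc (rf Q w hw) (y * rf Q w hw), mul_assoc y, rf_sq, mul_one, mul_assoc (rf Q v hv),
              ← mul_assoc (rf Q w hw) (rf Q w hw), rf_sq, one_mul]
          rw [e]
          exact mul_mem hs (hN.conj_mem _ hy _)
    induction hgm using Subgroup.closure_induction_left with
    | one => exact Or.inl (one_mem _)
    | mul_left x hx y _ hy =>
      obtain ⟨v, hv, rfl⟩ := hx
      exact step v hv y hy
    | inv_mul_cancel x hx y _ hy =>
      obtain ⟨v, hv, rfl⟩ := hx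
      rw [rf_inv]
      exact step v hv y hy
  rcases hP g with h | h
  · exact h
  · exfalso
    have h1 : theta Q R.c₂ (g * rf Q w hw) = 1 := hle h
    have h3 : theta Q R.c₂ g = 1 := hg
    rw [map_mul, h3, b2, one_mul] at h1
    exact absurd h1 (by decide)

include h2 in
theorem D_index (hQ : (polarBilin Q).Nondegenerate) (hn : Even (Module.finrank F V)) (hn2 : 2 ≤ Module.finrank F V)
    (h43 : ¬ (Module.finrank F V = 4 ∧ Nat.card F = 3)) : (D Q R.c₁).index = 2 := by
  obtain ⟨u, w, hu, hw, huc, hwc, a1, a2, b1, b2⟩ := exists_pair_theta h2 Q R hQ hn2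
  rw [D_eq_ker h2 Q R hQ hn hn2 h43, Subgroup.index_ker]
  have : (theta Q R.c₂).range = ⊤ := by
    rw [eq_top_iff]
    intro x _
    rcases Int.units_eq_one_or x with rfl | rfl
    · exact one_mem _
    · exact ⟨_, b2⟩
  rw [this, Subgroup.card_top, Nat.card_eq_fintype_card]
  decide

end

end H17.OrthIdx
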