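import Cfsg.Agent.Lib.H17.OrthSiegel
import Cfsg.Agent.Lib.H17.OrthTrans2

set_option autoImplicit false
set_option linter.unusedSectionVars false

/-! Generation of the commutator subgroup by long root elements (odd characteristic). -/

namespace H17.OrthSiegel

open QuadraticMap H17.OrthAbs H17.OrthTheta H17.OrthOmega H17.OrthGenTwo

variable {F V : Type*} [Field F] [AddCommGroup V] [Module F V]

/-- In dimension at least three (odd characteristic) the perp of a nonsingular vector contains
vectors of every non-zero norm. -/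
theorem exists_perp_eq [Finite F] [FiniteDimensional F V] (h2 : (2 : F) ≠ 0)
    (Q : QuadraticForm F V) (hQ : (polarBilin Q).Nondegenerate) (hd : 3 ≤ Module.finrank F V)
    (u : V) (hu : Q u ≠ 0) (c : F) (hc : c ≠ 0) : ∃ w : V, polar (⇑Q) u w = 0 ∧ Q w = c := by
  have hu0 : u ≠ 0 := by
    rintro rfl
    exact hu (QuadraticMap.map_zero Q)
  have huu : polar (⇑Q) u u ≠ 0 := by
    rw [QuadraticMap.polar_self]
    simpa using ⟨h2, hu⟩
  have hND := H48.QuadSplit.nd_iff.mpr hQ
  have hU : H48.QuadSplit.ND (Q.restrict (Submodule.span F {u})) := by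
    rintro ⟨x, hx⟩ h
    obtain ⟨a, rfl⟩ := Submodule.mem_span_singleton.mp hx
    have h1 := h ⟨u, Submodule.mem_span_singleton_self u⟩
    rw [H48.QuadSplit.polar_restrict] at h1
    simp only [QuadraticMap.polar_smul_left, smul_eq_mul, mul_eq_zero] at h1
    rcases h1 with h1 | h1
    · apply Subtype.ext
      simp [h1]
    · exact absurd h1 huu
  have h3 := H48.QuadSplit.finrank_orth hND (Submodule.span F {u})
  rw [finrank_span_singleton hu0] at h3
  obtain ⟨⟨w, hw⟩, hwc⟩ := H48.QuadStd.exists_eq (H48.QuadSplit.nd_orth hND hU) (by omega) hc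
  exact ⟨w, H48.QuadSplit.mem_orth.mp hw u (Submodule.mem_span_singleton_self u), hwc⟩

/-- If `v ≠ ± u` have equal non-zero norm, a product of long root elements takes `u` to `v`. -/
theorem trans_step [Finite F] [FiniteDimensional F V] (h2 : (2 : F) ≠ 0)
    (Q : QuadraticForm F V) (hQ : (polarBilin Q).Nondegenerate) (hd : 5 ≤ Module.finrank F V)
    (u v : V) (hu : Q u ≠ 0) (huv : Q u = Q v) (h1 : v ≠ u) (h3 : v ≠ -u) :
    ∃ g ∈ longRoot Q, (g : V ≃ₗ[F] V) u = v := by
  have hND := H48.QuadSplit.nd_iff.mpr hQ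
  have hd0 : v - u ≠ 0 := sub_ne_zero.mpr h1
  -- a singular vector orthogonal to `v - u`, not orthogonal to `u`
  obtain ⟨z, hz, hzd, hzu⟩ : ∃ z, Q z = 0 ∧ polar (⇑Q) z (v - u) = 0 ∧ polar (⇑Q) z u ≠ 0 := by
    by_contra hcon
    push Not at hcon
    have hsub : ∀ x, polar (⇑Q) x (v - u) = 0 → polar (⇑Q) x u = 0 := by
      intro x hx
      have hx' := span_singular_perp h2 Q hQ hd (v - u) hd0 x hx
      induction hx' using Submodule.span_induction with
      | mem y hy => exact hcon y hy.1 hy.2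
      | zero => exact QuadraticMap.polar_zero_left _ _
      | add a b ha' hb' ha hb =>
        rw [QuadraticMap.polar_add_left]
        have h4 : ∀ y ∈ Submodule.span F {e : V | Q e = 0 ∧ polar (⇑Q) e (v - u) = 0},
            polar (⇑Q) y (v - u) = 0 := by
          intro y hy
          induction hy using Submodule.span_induction with
          | mem y hy => exact hy.2
          | zero => exact QuadraticMap.polar_zero_left _ _
          | add a b _ _ ha hb => rw [QuadraticMap.polar_add_left, ha, hb, add_zero]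
          | smul t a _ ha => rw [QuadraticMap.polar_smul_left, ha, smul_zero]
        rw [ha (h4 a ha'), hb (h4 b hb'), add_zero]
      | smul t a ha' ha =>
        have h4 : ∀ y ∈ Submodule.span F {e : V | Q e = 0 ∧ polar (⇑Q) e (v - u) = 0},
            polar (⇑Q) y (v - u) = 0 := by
          intro y hy
          induction hy using Submodule.span_induction with
          | mem y hy => exact hy.2
          | zero => exact QuadraticMap.polar_zero_left _ _
          | add a b _ _ ha hb => rw [QuadraticMap.polar_add_left, ha, hb, add_zero]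
          | smul t a _ ha => rw [QuadraticMap.polar_smul_left, ha, smul_zero]
        rw [QuadraticMap.polar_smul_left, ha (h4 a ha'), smul_zero]
    have hmem : u ∈ H48.QuadSplit.orth Q (H48.QuadSplit.orth Q (Submodule.span F {v - u})) := by
      rw [H48.QuadSplit.mem_orth]
      intro x hx
      apply hsub x
      rw [polar_comm]
      exact H48.QuadSplit.mem_orth.mp hx _ (Submodule.mem_span_singleton_self _)
    rw [H48.QuadSplit.orth_orth hND] at hmem
    obtain ⟨t, ht⟩ := Submodule.mem_span_singleton.mp hmem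
    have ht0 : t ≠ 0 := by
      rintro rfl
      rw [zero_smul] at ht
      exact hu (by rw [← ht]; exact QuadraticMap.map_zero Q)
    have hv : v = (1 + t⁻¹) • u := by
      have h5 : t⁻¹ • u = v - u := by
        rw [← ht, smul_smul, inv_mul_cancel₀ ht0, one_smul, ht]
      rw [add_smul, one_smul, h5]
      abel
    have h6 : (1 + t⁻¹) * (1 + t⁻¹) = 1 := by
      have h7 : Q u = ((1 + t⁻¹) * (1 + t⁻¹)) * Q u := by
        conv_lhs => rw [huv, hv]
        rw [QuadraticMap.map_smul, smul_eq_mul]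
      have h8 : ((1 + t⁻¹) * (1 + t⁻¹) - 1) * Q u = 0 := by linear_combination -h7
      rcases mul_eq_zero.mp h8 with h9 | h9
      · linear_combination h9
      · exact absurd h9 hu
    rcases mul_self_eq_one_iff.mp h6 with h7 | h7
    · exact h1 (by rw [hv, h7, one_smul])
    · exact h3 (by rw [hv, h7, neg_smul, one_smul])
  set a := polar (⇑Q) z u with ha
  have hzw : polar (⇑Q) z (a⁻¹ • (v - u)) = 0 := by
    rw [QuadraticMap.polar_smul_right, hzd, smul_zero]
  refine ⟨sg Q z (a⁻¹ • (v - u)) hz hzw, sg_mem_longRoot h2 Q hQ hd z _ hz hzw, ?_⟩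
  rw [sg_apply, ← ha]
  have e1 : polar (⇑Q) (a⁻¹ • (v - u)) u = a⁻¹ * (polar (⇑Q) v u - 2 * Q u) := by
    rw [QuadraticMap.polar_smul_left, QuadraticMap.polar_sub_left, QuadraticMap.polar_self]
    simp
  have e2 : Q (a⁻¹ • (v - u)) = a⁻¹ * a⁻¹ * (2 * Q u - polar (⇑Q) v u) := by
    rw [QuadraticMap.map_smul, Q_sub, ← huv, smul_eq_mul]
    ring
  rw [e1, e2, smul_smul, mul_inv_cancel₀ hzu, one_smul]
  have e3 : a⁻¹ * a⁻¹ * (2 * Q u - polar (⇑Q) v u) * a =
      a⁻¹ * (2 * Q u - polar (⇑Q) v u) := by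
    field_simp
  rw [e3]
  exact (by module)

theorem trans_longRoot [Finite F] [FiniteDimensional F V] (h2 : (2 : F) ≠ 0)
    (Q : QuadraticForm F V) (hQ : (polarBilin Q).Nondegenerate) (hd : 5 ≤ Module.finrank F V)
    (u v : V) (hu : Q u ≠ 0) (huv : Q u = Q v) :
    ∃ g ∈ longRoot Q, (g : V ≃ₗ[F] V) u = v := by
  by_cases h1 : v = u
  · exact ⟨1, one_mem _, h1.symm⟩
  by_cases h3 : v = -u
  · obtain ⟨w, huw, hw⟩ := exists_perp_eq h2 Q hQ (by omega) u hu (Q u) hu
    have huu : polar (⇑Q) u u ≠ 0 := by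
      rw [QuadraticMap.polar_self]
      simpa using ⟨h2, hu⟩
    have hne1 : w ≠ u := by
      rintro rfl
      exact huu huw
    have hne2 : w ≠ -u := by
      rintro rfl
      rw [QuadraticMap.polar_neg_right, neg_eq_zero] at huw
      exact huu huw
    obtain ⟨g, hg, hgu⟩ := trans_step h2 Q hQ hd u w hu hw.symm hne1 hne2
    obtain ⟨g', hg', hgw⟩ := trans_step h2 Q hQ hd w v (by rw [hw]; exact hu) (by rw [hw, huv])
      (by rw [h3]; exact hne2.symm) (by rw [h3]; intro h; exact hne1 (neg_injective h).symm)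
    refine ⟨g' * g, mul_mem hg' hg, ?_⟩
    change (g' : V ≃ₗ[F] V) ((g : V ≃ₗ[F] V) u) = v
    rw [hgu, hgw]
  · exact trans_step h2 Q hQ hd u v hu huv h1 h3

/-- The group generated by long root elements contains the commutator subgroup. -/
theorem commutator_le_longRoot [Fintype F] [FiniteDimensional F V] [Finite V] (h2 : (2 : F) ≠ 0)
    (Q : QuadraticForm F V) (hQ : (polarBilin Q).Nondegenerate) (hd : 5 ≤ Module.finrank F V) :
    commutator ↥(O Q) ≤ longRoot Q := by
  haveI := longRoot_normal Q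
  obtain ⟨R, -⟩ := exists_reps (F := F) h2 1 one_ne_zero
  have hND := H48.QuadSplit.nd_iff.mpr hQ
  obtain ⟨u, hu⟩ := H48.QuadStd.exists_eq hND (by omega) R.h₁
  have hu0 : Q u ≠ 0 := by rw [hu]; exact R.h₁
  obtain ⟨w, huw, hw⟩ := exists_perp_eq h2 Q hQ (by omega) u hu0 R.c₂ R.h₂
  have hw0 : Q w ≠ 0 := by rw [hw]; exact R.h₂
  -- reflections of the same class agree modulo `longRoot`
  have hcl : ∀ (x y : V) (hx : Q x ≠ 0) (hy : Q y ≠ 0), (∃ t : F, t ≠ 0 ∧ Q y = Q x * t ^ 2) →
      (QuotientGroup.mk (rf Q x hx) : ↥(O Q) ⧸ longRoot Q) = QuotientGroup.mk (rf Q y hy) := by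
    intro x y hx hy h
    obtain ⟨t, ht0, ht⟩ := h
    have hx' : Q (t • x) ≠ 0 := by
      rw [QuadraticMap.map_smul, smul_eq_mul]
      exact mul_ne_zero (mul_ne_zero ht0 ht0) hx
    have hxy : Q (t • x) = Q y := by
      rw [QuadraticMap.map_smul, smul_eq_mul, ht]; ring
    obtain ⟨g, hg, hgx⟩ := trans_longRoot h2 Q hQ hd (t • x) y hx' hxy
    have h1 : g * rf Q x hx * g⁻¹ = rf Q y hy := by
      rw [← refl_smul Q x hx t ht0 hx', conj_rf Q g (t • x) hx' (by rw [hgx]; exact hy)]
      congr 1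
    rw [← h1, QuotientGroup.mk_mul, QuotientGroup.mk_mul, QuotientGroup.mk_inv]
    have : (QuotientGroup.mk g : ↥(O Q) ⧸ longRoot Q) = 1 :=
      (QuotientGroup.eq_one_iff g).mpr hg
    rw [this, one_mul, inv_one, mul_one]
  have hcomm : rf Q u hu0 * rf Q w hw0 = rf Q w hw0 * rf Q u hu0 := by
    apply O_ext
    intro x
    change refl Q u hu0 (refl Q w hw0 x) = refl Q w hw0 (refl Q u hu0 x)
    rw [refl_apply, refl_apply, refl_apply, refl_apply]
    have hwu : polar (⇑Q) w u = 0 := by rw [polar_comm, huw]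
    simp only [QuadraticMap.polar_sub_right, QuadraticMap.polar_smul_right, huw, hwu, smul_eq_mul,
      mul_zero, sub_zero]
    abel
  -- the image of every element lies in the commutative subgroup generated by two reflections
  set a : ↥(O Q) ⧸ longRoot Q := QuotientGroup.mk (rf Q u hu0) with ha
  set b : ↥(O Q) ⧸ longRoot Q := QuotientGroup.mk (rf Q w hw0) with hb
  have hab : a * b = b * a := by
    rw [ha, hb, ← QuotientGroup.mk_mul, ← QuotientGroup.mk_mul, hcomm]
  have hcl2 : ∀ (x : V) (hx : Q x ≠ 0), (QuotientGroup.mk (rf Q x hx) : ↥(O Q) ⧸ longRoot Q) = a ∨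
      (QuotientGroup.mk (rf Q x hx) : ↥(O Q) ⧸ longRoot Q) = b := by
    intro x hx
    rcases R.cover (Q x) hx with ⟨t, ht0, ht⟩ | ⟨t, ht0, ht⟩
    · left
      exact (hcl u x hu0 hx ⟨t, ht0, by rw [hu, ht]⟩).symm
    · right
      exact (hcl w x hw0 hx ⟨t, ht0, by rw [hw, ht]⟩).symm
  have hcard : Fintype.card F ≠ 2 ∨ Module.finrank F V ≠ 4 := Or.inr (by omega)
  have hall : ∀ g : ↥(O Q), (QuotientGroup.mk g : ↥(O Q) ⧸ longRoot Q) * a =
      a * QuotientGroup.mk g ∧ (QuotientGroup.mk g : ↥(O Q) ⧸ longRoot Q) * b =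
      b * QuotientGroup.mk g := by
    intro g
    have hg : g ∈ Subgroup.closure {g : ↥(O Q) | ∃ (v : V) (hv : Q v ≠ 0), g = rf Q v hv} := by
      rw [closure_rf hcard Q hQ]; trivial
    induction hg using Subgroup.closure_induction with
    | mem x hx =>
      obtain ⟨v, hv, rfl⟩ := hx
      rcases hcl2 v hv with h | h
      · rw [h]; exact ⟨rfl, hab⟩
      · rw [h]; exact ⟨hab.symm, rfl⟩
    | one => rw [QuotientGroup.mk_one]; simp
    | mul x y _ _ hx hy =>
      rw [QuotientGroup.mk_mul]
      constructor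
      · rw [mul_assoc, hy.1, ← mul_assoc, hx.1, mul_assoc]
      · rw [mul_assoc, hy.2, ← mul_assoc, hx.2, mul_assoc]
    | inv x _ hx =>
      rw [QuotientGroup.mk_inv]
      constructor
      · rw [inv_mul_eq_iff_eq_mul, ← mul_assoc, eq_mul_inv_iff_mul_eq]; exact hx.1.symm
      · rw [inv_mul_eq_iff_eq_mul, ← mul_assoc, eq_mul_inv_iff_mul_eq]; exact hx.2.symm
  have habel : ∀ x y : ↥(O Q), (QuotientGroup.mk x : ↥(O Q) ⧸ longRoot Q) * QuotientGroup.mk y =
      QuotientGroup.mk y * QuotientGroup.mk x := by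
    intro x y
    have hy : y ∈ Subgroup.closure {g : ↥(O Q) | ∃ (v : V) (hv : Q v ≠ 0), g = rf Q v hv} := by
      rw [closure_rf hcard Q hQ]; trivial
    induction hy using Subgroup.closure_induction with
    | mem z hz =>
      obtain ⟨v, hv, rfl⟩ := hz
      rcases hcl2 v hv with h | h
      · rw [h]; exact (hall x).1
      · rw [h]; exact (hall x).2
    | one => rw [QuotientGroup.mk_one]; simp
    | mul y z _ _ hy hz =>
      rw [QuotientGroup.mk_mul, ← mul_assoc, hy, mul_assoc, hz, mul_assoc]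
    | inv y _ hy =>
      rw [QuotientGroup.mk_inv, mul_inv_eq_iff_eq_mul, mul_assoc, hy, ← mul_assoc,
        inv_mul_cancel, one_mul]
  rw [commutator_def, Subgroup.commutator_le]
  intro x _ y _
  rw [← QuotientGroup.eq_one_iff, commutatorElement_def, QuotientGroup.mk_mul,
    QuotientGroup.mk_mul, QuotientGroup.mk_mul, QuotientGroup.mk_inv, QuotientGroup.mk_inv,
    habel x y]
  group

/-- Long root elements are commutators, dimension at least five. -/
theorem long_mem_commutatorSet [Fintype F] [FiniteDimensional F V] (h2 : (2 : F) ≠ 0)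
    (Q : QuadraticForm F V) (hQ : (polarBilin Q).Nondegenerate) (hd : 5 ≤ Module.finrank F V)
    (u v : V) (hu : Q u = 0) (hv : Q v = 0) (huv : polar (⇑Q) u v = 0) :
    sg Q u v hu huv ∈ commutatorSet ↥(O Q) := by
  obtain ⟨w, hw, hwu, hwv⟩ := exists_nonsingular_perp Q hQ hd u v
  have h := long_commutator h2 Q u v w hu hv huv hw hwu hwv 1 (by rw [one_smul]; exact huv)
  rw [sg_congr Q hu huv hu (by rw [one_smul]; exact huv) rfl (one_smul F v).symm]
  exact h

theorem longRoot_eq [Fintype F] [FiniteDimensional F V] [Finite V] (h2 : (2 : F) ≠ 0)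
    (Q : QuadraticForm F V) (hQ : (polarBilin Q).Nondegenerate) (hd : 5 ≤ Module.finrank F V) :
    longRoot Q = commutator ↥(O Q) := by
  apply le_antisymm
  · rw [longRoot, Subgroup.closure_le]
    rintro g ⟨u, v, hu, hv, huv, rfl⟩
    rw [commutator_eq_closure]
    exact Subgroup.subset_closure (long_mem_commutatorSet h2 Q hQ hd u v hu hv huv)
  · exact commutator_le_longRoot h2 Q hQ hd

open Matrix in
/-- Matrix isometries equal to a Siegel matrix correspond to the abstract Siegel elements. -/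
theorem equiv_siegel {ι : Type} [Fintype ι] [DecidableEq ι] (Q : QuadraticForm F (ι → F))
    (u v : ι → F) (c : F) (hu : Q u = 0) (hv : Q v = 0) (huv : polar (⇑Q) u v = 0)
    (hcv : polar (⇑Q) u (c • v) = 0) (g : ↥(Cfsg.isometryGroup F (⇑Q))) :
    ((g : GeneralLinearGroup ι F) : Matrix ι ι F) = Cfsg.siegelMatrix (⇑Q) u v c ↔
      OrthTrans.equiv Q g = sg Q u (c • v) hu hcv := by
  have key : ∀ x, (Cfsg.siegelMatrix (⇑Q) u v c).mulVec x =
      (sg Q u (c • v) hu hcv : (ι → F) ≃ₗ[F] (ι → F)) x := by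
    intro x
    rw [OrthMat.siegelMatrix_mulVec, sg_apply, QuadraticMap.map_smul, hv,
      QuadraticMap.polar_smul_left, smul_zero, zero_mul, zero_smul, sub_zero, smul_smul,
      smul_eq_mul, mul_comm c]
  constructor
  · intro h
    apply O_ext
    intro x
    rw [OrthTrans.equiv_apply, h, key]
  · intro h
    apply Matrix.ext_of_mulVec_single
    intro i
    rw [key, ← h, OrthTrans.equiv_apply]

end H17.OrthSiegel
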