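import Cfsg.Agent.Lib.H17.SpInvol
import Cfsg.Agent.Lib.H17.OrthSiegel2

set_option autoImplicit false
set_option linter.unusedSectionVars false

/-! Involutions in the commutator subgroup of an orthogonal group of odd characteristic. -/

namespace H17.OrthInvol

open Module QuadraticMap H17.OrthAbs H17.OrthTheta H17.OrthOmega H17.OrthGenTwo H17.OrthSiegel
open H17.SpInvol

variable {F V : Type*} [Field F] [AddCommGroup V] [Module F V]

/-- The underlying linear map of an element of `O Q`. -/
def lin {Q : QuadraticForm F V} (t : ↥(O Q)) : V →ₗ[F] V := ((t : V ≃ₗ[F] V) : V →ₗ[F] V)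

theorem lin_apply {Q : QuadraticForm F V} (t : ↥(O Q)) (x : V) :
    lin t x = (t : V ≃ₗ[F] V) x := rfl

theorem lin_mul {Q : QuadraticForm F V} (s t : ↥(O Q)) (x : V) :
    lin (s * t) x = lin s (lin t x) := rfl

theorem lin_polar {Q : QuadraticForm F V} (t : ↥(O Q)) (x y : V) :
    polarBilin Q (lin t x) (lin t y) = polarBilin Q x y := by
  rw [polarBilin_apply_apply, polarBilin_apply_apply]
  exact polar_map t.2 x y

theorem lin_rf {Q : QuadraticForm F V} (v : V) (hv : Q v ≠ 0) (x : V) :
    lin (rf Q v hv) x = x - ((Q v)⁻¹ * polar (⇑Q) v x) • v := by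
  rw [lin_apply]
  exact refl_apply Q v hv x

theorem sq_iff {Q : QuadraticForm F V} (t : ↥(O Q)) : t * t = 1 ↔ ∀ x, lin t (lin t x) = x := by
  constructor
  · intro h x
    rw [← lin_mul, h]; rfl
  · intro h
    apply O_ext
    intro x
    exact h x

theorem nondeg' {Q : QuadraticForm F V} (hQ : (polarBilin Q).Nondegenerate) :
    ∀ v, (∀ w, polarBilin Q v w = 0) → v = 0 := fun v h =>
  H48.QuadSplit.nd_iff.mpr hQ v (fun w => h w)

/-- Existence of vectors of prescribed norm in a non-degenerate subspace. -/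
theorem exists_norm [Finite F] [FiniteDimensional F V] {Q : QuadraticForm F V}
    (U : Submodule F V) (hU : ∀ v ∈ U, (∀ w ∈ U, polarBilin Q v w = 0) → v = 0)
    (hd : 2 ≤ finrank F U) {c : F} (hc : c ≠ 0) : ∃ v ∈ U, Q v = c := by
  have h : H48.QuadSplit.ND (Q.restrict U) := by
    intro x hx
    apply Subtype.ext
    apply hU _ x.2
    intro w hw
    exact hx ⟨w, hw⟩
  obtain ⟨v, hv⟩ := H48.QuadStd.exists_eq h hd hc
  exact ⟨v, v.2, hv⟩

theorem exists_nonsing {Q : QuadraticForm F V}
    (U : Submodule F V) (hU : ∀ v ∈ U, (∀ w ∈ U, polarBilin Q v w = 0) → v = 0)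
    (hne : U ≠ ⊥) : ∃ v ∈ U, Q v ≠ 0 := by
  by_contra hcon
  push Not at hcon
  apply hne
  rw [eq_bot_iff]
  intro x hx
  rw [Submodule.mem_bot]
  apply hU x hx
  intro w hw
  rw [polarBilin_apply_apply, polar, hcon _ (U.add_mem hx hw), hcon _ hx, hcon _ hw]
  simp

/-- Multiplying an involution by a reflection in a fixed vector. -/
theorem step [Finite F] [FiniteDimensional F V] (h2 : (2 : F) ≠ 0) {Q : QuadraticForm F V}
    (hQ : (polarBilin Q).Nondegenerate) (t : ↥(O Q)) (ht : t * t = 1)
    (hd : finrank F (neg (lin t)) + 2 ≤ finrank F V) :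
    ∃ (v : V) (hv : Q v ≠ 0), Q v = 1 ∧ (t * rf Q v hv) * (t * rf Q v hv) = 1 ∧
      finrank F (neg (lin (t * rf Q v hv))) = finrank F (neg (lin t)) + 1 := by
  have hgg := (sq_iff t).mp ht
  have hnd := nondeg' hQ
  have hpos := pos_nondeg hnd h2 (lin_polar t) hgg
  have hsum := finrank_neg_add_pos h2 hgg
  obtain ⟨v, hvp, hv1⟩ := exists_norm (pos (lin t)) hpos (by omega) (one_ne_zero (α := F))
  have hv : Q v ≠ 0 := by rw [hv1]; exact one_ne_zero
  have htv : lin t v = v := mem_pos.mp hvp
  have happ : ∀ x, lin (t * rf Q v hv) x = lin t x - polar (⇑Q) v x • v := by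
    intro x
    rw [lin_mul, lin_rf, hv1, inv_one, one_mul, map_sub, map_smul, htv]
  have hvv : polar (⇑Q) v v = 2 := by rw [QuadraticMap.polar_self, hv1]; simp
  have hpv : ∀ x, polar (⇑Q) v (lin t x) = polar (⇑Q) v x := by
    intro x
    have := lin_polar t v x
    rw [htv] at this
    exact this
  refine ⟨v, hv, hv1, ?_, ?_⟩
  · rw [sq_iff]
    intro x
    rw [happ, happ, QuadraticMap.polar_sub_right, QuadraticMap.polar_smul_right, hvv, hpv,
      map_sub, map_smul, htv, hgg, smul_eq_mul]
    module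
  · have h1 : neg (lin (t * rf Q v hv)) = neg (lin t) ⊔ Submodule.span F {v} := by
      apply le_antisymm
      · intro x hx
        rw [mem_neg, happ] at hx
        have e1 : x = (x - (2⁻¹ * polar (⇑Q) v x) • v) + (2⁻¹ * polar (⇑Q) v x) • v := by abel
        rw [e1]
        apply Submodule.add_mem_sup
        · rw [mem_neg, map_sub, map_smul, htv]
          have e2 : lin t x = -x + polar (⇑Q) v x • v := by
            rw [← hx]; abel
          rw [e2]
          have e3 : polar (⇑Q) v x • v = (2⁻¹ * polar (⇑Q) v x) • v + (2⁻¹ * polar (⇑Q) v x) • v := by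
            rw [← add_smul]
            congr 1
            field_simp
            ring
          rw [e3]
          abel
        · exact Submodule.smul_mem _ _ (Submodule.mem_span_singleton_self v)
      · apply sup_le
        · intro x hx
          rw [mem_neg, happ]
          have h3 : polar (⇑Q) v x = 0 := by
            have := ortho' h2 (lin_polar t) hvp hx
            exact this
          rw [h3, zero_smul, sub_zero]
          exact mem_neg.mp hx
        · rw [Submodule.span_singleton_le_iff_mem, mem_neg, happ, htv, hvv]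
          module
    have hv0 : v ≠ 0 := by
      rintro rfl
      exact hv (QuadraticMap.map_zero Q)
    have h3 : neg (lin t) ⊓ Submodule.span F {v} = ⊥ := by
      rw [eq_bot_iff]
      rintro x ⟨hx1, hx2⟩
      obtain ⟨a, rfl⟩ := Submodule.mem_span_singleton.mp hx2
      have h4 := mem_neg.mp hx1
      rw [map_smul, htv] at h4
      have h5 : (2 * a) • v = 0 := by
        rw [mul_comm, mul_smul, two_smul, smul_add]
        nth_rewrite 1 [h4]
        abel
      rw [Submodule.mem_bot]
      rcases smul_eq_zero.mp h5 with h6 | h6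
      · rw [(mul_eq_zero.mp h6).resolve_left h2, zero_smul]
      · exact absurd h6 hv0
    have h4 := Submodule.finrank_sup_add_finrank_inf_eq (neg (lin t)) (Submodule.span F {v})
    rw [h3, finrank_bot, add_zero, finrank_span_singleton hv0] at h4
    rw [h1, h4]

/-- The commutator subgroup contains involutions with `-1`-eigenspace of every even dimension
less than `dim V`. -/
theorem exists_invol [Finite F] [FiniteDimensional F V] [Finite V] (h2 : (2 : F) ≠ 0)
    {Q : QuadraticForm F V} (hQ : (polarBilin Q).Nondegenerate) (k : ℕ)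
    (hk : 2 * k + 1 ≤ finrank F V) :
    ∃ t : ↥(O Q), t ∈ commutator ↥(O Q) ∧ t * t = 1 ∧ finrank F (neg (lin t)) = 2 * k := by
  induction k with
  | zero =>
    refine ⟨1, one_mem _, one_mul 1, ?_⟩
    rw [mul_zero, Submodule.finrank_eq_zero, eq_bot_iff]
    intro x hx
    have h : x = -x := mem_neg.mp hx
    have h5 : (2 : F) • x = 0 := by rw [two_smul]; nth_rewrite 1 [h]; abel
    exact (smul_eq_zero.mp h5).resolve_left h2
  | succ k ih =>
    obtain ⟨t, ht, htt, hd⟩ := ih (by omega)
    obtain ⟨v, hv, hv1, h3, h4⟩ := step h2 hQ t htt (by omega)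
    obtain ⟨w, hw, hw1, h5, h6⟩ := step h2 hQ (t * rf Q v hv) h3 (by omega)
    refine ⟨t * rf Q v hv * rf Q w hw, ?_, h5, by omega⟩
    obtain ⟨g, hg⟩ := conj_of_class h2 Q v w hv hw ⟨1, one_ne_zero, by rw [hv1, hw1]; ring⟩
    rw [mul_assoc]
    apply mul_mem ht
    rw [commutator_eq_closure]
    apply Subgroup.subset_closure
    refine ⟨rf Q v hv, g, ?_⟩
    rw [commutatorElement_def, rf_inv, ← hg]
    group

/-- An element of order at most two of `O Q` centralising the commutator subgroup is `± 1`. -/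
theorem central_invol [Fintype F] [FiniteDimensional F V] [Finite V] (h2 : (2 : F) ≠ 0)
    {Q : QuadraticForm F V} (hQ : (polarBilin Q).Nondegenerate) (hd : 5 ≤ finrank F V)
    (z : ↥(O Q)) (hz : z * z = 1) (hc : ∀ g ∈ commutator ↥(O Q), z * g = g * z) :
    (∀ x, lin z x = x) ∨ (∀ x, lin z x = -x) := by
  have hgg := (sq_iff z).mp hz
  have hnd := nondeg' hQ
  have hpos := pos_nondeg hnd h2 (lin_polar z) hgg
  have hneg := neg_nondeg hnd h2 (lin_polar z) hgg
  have hsum := finrank_neg_add_pos h2 hgg
  have htrans : ∀ v w : V, Q v ≠ 0 → Q v = Q w → ∃ g ∈ commutator ↥(O Q), lin g v = w := by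
    intro v w hv hvw
    obtain ⟨g, hg, hgv⟩ := trans_longRoot h2 Q hQ hd v w hv hvw
    rw [longRoot_eq h2 Q hQ hd] at hg
    exact ⟨g, hg, hgv⟩
  -- no vectors of the same non-zero norm in the two eigenspaces
  have key : ∀ v ∈ neg (lin z), ∀ w ∈ pos (lin z), Q v ≠ 0 → Q v = Q w → False := by
    intro v hv w hw hv0 hvw
    obtain ⟨g, hg, hgv⟩ := htrans v w hv0 hvw
    have h1 : lin z (lin g v) = lin g (lin z v) := by
      rw [← lin_mul, ← lin_mul, hc g hg]
    rw [hgv, mem_pos.mp hw, mem_neg.mp hv, map_neg, hgv] at h1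
    have h5 : (2 : F) • w = 0 := by rw [two_smul]; nth_rewrite 1 [h1]; abel
    have h6 := (smul_eq_zero.mp h5).resolve_left h2
    rw [h6, QuadraticMap.map_zero] at hvw
    exact hv0 hvw
  by_cases h1 : neg (lin z) = ⊥
  · left
    intro x
    have h3 := sub_mem_neg hgg 1 x
    rw [h1, Submodule.mem_bot, one_smul, sub_eq_zero] at h3
    exact h3.symm
  by_cases h3 : pos (lin z) = ⊥
  · right
    intro x
    have h4 := add_mem_pos hgg 1 x
    rw [h3, Submodule.mem_bot, one_smul] at h4
    exact (neg_eq_of_add_eq_zero_right h4).symm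
  exfalso
  by_cases h4 : 2 ≤ finrank F (neg (lin z))
  · obtain ⟨w, hw, hw0⟩ := exists_nonsing _ hpos h3
    obtain ⟨v, hv, hvw⟩ := exists_norm _ hneg h4 hw0
    exact key v hv w hw (by rw [hvw]; exact hw0) hvw
  · obtain ⟨v, hv, hv0⟩ := exists_nonsing _ hneg h1
    obtain ⟨w, hw, hvw⟩ := exists_norm _ hpos (by omega) hv0
    exact key v hv w hw hv0 hvw.symm

/-- The `-1`-eigenspaces of conjugate elements have the same dimension. -/
theorem finrank_neg_conj [FiniteDimensional F V] {Q : QuadraticForm F V} (g t : ↥(O Q)) :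
    finrank F (neg (lin (g * t * g⁻¹))) = finrank F (neg (lin t)) := by
  have h1 : neg (lin (g * t * g⁻¹)) = (neg (lin t)).map (lin g) := by
    ext x
    rw [Submodule.mem_map, mem_neg]
    constructor
    · intro hx
      refine ⟨lin g⁻¹ x, ?_, ?_⟩
      · rw [mem_neg]
        have h3 : lin g (lin t (lin g⁻¹ x)) = -x := hx
        have h4 : lin g⁻¹ (lin g (lin t (lin g⁻¹ x))) = lin t (lin g⁻¹ x) := by
          rw [← lin_mul, inv_mul_cancel]; rfl
        rw [← h4, h3, map_neg]
      · rw [← lin_mul, mul_inv_cancel]; rfl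
    · rintro ⟨y, hy, rfl⟩
      rw [mem_neg] at hy
      have h3 : lin (g * t * g⁻¹) (lin g y) = lin g (lin t y) := by
        rw [← lin_mul, inv_mul_cancel_right, lin_mul]
      rw [h3, hy, map_neg]
  rw [h1]
  exact LinearEquiv.finrank_map_eq (g : V ≃ₗ[F] V) (neg (lin t))

/-- In odd dimension at least five: even-dimensional involutions with conjugate images modulo
the centre have `-1`-eigenspaces of the same dimension. -/
theorem eq_of_conj_mod [Fintype F] [FiniteDimensional F V] [Finite V] (h2 : (2 : F) ≠ 0)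
    {Q : QuadraticForm F V} (hQ : (polarBilin Q).Nondegenerate) (hd : 5 ≤ finrank F V)
    (hodd : Odd (finrank F V))
    (s t z g : ↥(O Q)) (hs : s * s = 1) (ht : t * t = 1)
    (hc : ∀ g ∈ commutator ↥(O Q), z * g = g * z) (htc : t ∈ commutator ↥(O Q))
    (hconj : g * s * g⁻¹ = t * z) (k l : ℕ) (hk : finrank F (neg (lin s)) = 2 * k)
    (hl : finrank F (neg (lin t)) = 2 * l) : k = l := by
  have hz : z * z = 1 := by
    have h1 : (t * z) * (t * z) = 1 := by
      rw [← hconj]
      calc g * s * g⁻¹ * (g * s * g⁻¹) = g * (s * s) * g⁻¹ := by group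
        _ = 1 := by rw [hs]; group
    calc z * z = (t * t) * (z * z) := by rw [ht, one_mul]
      _ = t * (t * z) * z := by group
      _ = t * (z * t) * z := by rw [hc t htc]
      _ = (t * z) * (t * z) := by group
      _ = 1 := h1
  have h3 := finrank_neg_conj g s
  rw [hconj, hk] at h3
  rcases central_invol h2 hQ hd z hz hc with h | h
  · have h4 : z = 1 := O_ext h
    rw [h4, mul_one, hl] at h3
    omega
  · have h4 : neg (lin (t * z)) = pos (lin t) := by
      ext x
      rw [mem_neg, mem_pos, lin_mul, h, map_neg, neg_inj]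
    have h5 := finrank_neg_add_pos h2 ((sq_iff t).mp ht)
    rw [h4] at h3
    rw [h3, hl] at h5
    obtain ⟨r, hr⟩ := hodd
    omega

end H17.OrthInvol
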