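import Mathlib

set_option autoImplicit false
set_option linter.unusedSectionVars false

/-! Powers of elements of `SL₃`. -/

namespace H17.PSL34

open Matrix

variable {F : Type*} [Field F]

/-- The second coefficient of the characteristic polynomial of a `3 × 3` matrix. -/
def sig (X : Matrix (Fin 3) (Fin 3) F) : F :=
  X 0 0 * X 1 1 - X 0 1 * X 1 0 + X 0 0 * X 2 2 - X 0 2 * X 2 0 + X 1 1 * X 2 2 - X 1 2 * X 2 1

/-- Cayley–Hamilton for `3 × 3` matrices. -/
theorem cube_eq (X : Matrix (Fin 3) (Fin 3) F) :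
    X * X * X = X.trace • (X * X) - sig X • X + X.det • (1 : Matrix (Fin 3) (Fin 3) F) := by
  ext i j
  fin_cases i <;> fin_cases j <;>
    simp [Matrix.mul_apply, Fin.sum_univ_three, Matrix.trace_fin_three, Matrix.det_fin_three, sig] <;>
    ring

/-- One step of the computation of powers. -/
theorem step {X : Matrix (Fin 3) (Fin 3) F} {a b : F}
    (h3 : X * X * X = a • (X * X) + b • X + (1 : Matrix (Fin 3) (Fin 3) F)) {k : ℕ} {p q r : F}
    (hk : X ^ k = p • (X * X) + q • X + r • (1 : Matrix (Fin 3) (Fin 3) F)) :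
    X ^ (k + 1) = (p * a + q) • (X * X) + (p * b + r) • X + p • (1 : Matrix (Fin 3) (Fin 3) F) := by
  rw [pow_succ, hk, add_mul, add_mul, smul_mul_assoc, h3, smul_mul_assoc, smul_mul_assoc, one_mul]
  exact (by module)

/-- Over the field of four elements, a power of exponent 3, 4, 5 or 7 is scalar. -/
theorem exists_pow_scalar [Fintype F] (hF : Fintype.card F = 4) {X : Matrix (Fin 3) (Fin 3) F}
    (hX : X.det = 1) : ∃ k : ℕ, (k = 3 ∨ k = 4 ∨ k = 5 ∨ k = 7) ∧
      ∃ r : F, X ^ k = r • (1 : Matrix (Fin 3) (Fin 3) F) := by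
  classical
  have h2 : (2 : F) = 0 := by
    have h4 : (4 : F) = 0 := by
      have h1 : ((Fintype.card F : ℕ) : F) = 0 := by simp
      rw [hF] at h1
      exact_mod_cast h1
    have : (2 : F) * 2 = 0 := by rw [← h4]; norm_num
    rcases mul_eq_zero.mp this with h | h <;> exact h
  have hq : ∀ x : F, x ^ 4 = x := by
    intro x
    have := FiniteField.pow_card x
    rwa [hF] at this
  have hc : ∀ x : F, x ≠ 0 → x ^ 3 = 1 := by
    intro x hx
    have h1 : x * (x ^ 3 - 1) = 0 := by linear_combination hq x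
    exact sub_eq_zero.mp ((mul_eq_zero.mp h1).resolve_left hx)
  obtain ⟨a, ha⟩ : ∃ a, a = X.trace := ⟨_, rfl⟩
  obtain ⟨b, hb⟩ : ∃ b, b = -sig X := ⟨_, rfl⟩
  have h3 : X * X * X = a • (X * X) + b • X + (1 : Matrix (Fin 3) (Fin 3) F) := by
    rw [cube_eq, hX, ha, hb, one_smul, neg_smul, sub_eq_add_neg]
  have k2 : X ^ 2 = (1 : F) • (X * X) + (0 : F) • X + (0 : F) • (1 : Matrix (Fin 3) (Fin 3) F) := by
    rw [pow_two, one_smul, zero_smul, zero_smul, add_zero, add_zero]
  have k3 := step h3 k2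
  have k4 := step h3 k3
  have k5 := step h3 k4
  have k6 := step h3 k5
  have k7 := step h3 k6
  norm_num at k3 k4 k5 k7
  have fin : ∀ (k : ℕ) (p q r : F), X ^ k = p • (X * X) + q • X +
      r • (1 : Matrix (Fin 3) (Fin 3) F) → p = 0 → q = 0 →
      ∃ r : F, X ^ k = r • (1 : Matrix (Fin 3) (Fin 3) F) := by
    intro k p q r h hp hq
    refine ⟨r, ?_⟩
    rw [h, hp, hq, zero_smul, zero_smul, zero_add, zero_add]
  by_cases ha0 : a = 0
  · by_cases hb0 : b = 0
    · refine ⟨3, by simp, fin 3 a b 1 ?_ ha0 hb0⟩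
      rw [k3, one_smul]
    · refine ⟨7, by simp, fin 7 _ _ _ k7 ?_ ?_⟩
      · rw [ha0]
        linear_combination b * h2
      · rw [ha0]
        linear_combination hc b hb0 + h2
  · by_cases hb0 : b = 0
    · refine ⟨7, by simp, fin 7 _ _ _ k7 ?_ ?_⟩
      · rw [hb0]
        linear_combination a ^ 2 * hc a ha0 + 2 * a ^ 2 * h2
      · rw [hb0]
        linear_combination hc a ha0 + h2
    · by_cases hab : a * b = 1
      · refine ⟨4, by simp, fin 4 _ _ _ k4 ?_ ?_⟩
        · linear_combination a ^ 2 * h2 - b * hc a ha0 + a ^ 2 * hab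
        · linear_combination hab + h2
      · have h5 : (a * b) ^ 2 + a * b + 1 = 0 := by
          have h6 := hc (a * b) (mul_ne_zero ha0 hb0)
          have h7 : (a * b - 1) * ((a * b) ^ 2 + a * b + 1) = 0 := by linear_combination h6
          exact (mul_eq_zero.mp h7).resolve_left (sub_ne_zero.mpr hab)
        refine ⟨5, by simp, fin 5 _ _ _ k5 ?_ ?_⟩
        · linear_combination hc a ha0 + (a * b + 1) * h2
        · linear_combination a * h5 - b ^ 2 * hc a ha0

end H17.PSL34
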