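import Cfsg.Agent.Lib.H17.F4
import Cfsg.Agent.Lib.H64.U34C
import Cfsg.Agent.Lib.H7.UnitSU
import Cfsg.Agent.S0280

set_option autoImplicit false

/-! `PSU_3(2)` is `3² : Q_8`. -/

namespace H17.PSU32

open Cfsg Matrix H17.F4 H7.UnitSU

abbrev M3 := Matrix (Fin 3) (Fin 3) F4

theorem hK : Fintype.card F4 = 2 ^ 2 := rfl

abbrev L := SU 3 F4 2

def Good (M : M3) : Prop := M.det = 1 ∧ Mᵀ * bar 2 M = 1

/-- an element of `SU_3(2)` from its matrix -/
def ofM (M : M3) (h : Good M) : L := ⟨⟨M, h.1⟩, (mem_SU_iff hK _).2 h.2⟩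

def A : M3 := !![c 1, c 1, c 1; c 1, c 2, c 3; c 1, c 3, c 2]
def X : M3 := !![c 1, c 2, c 2; c 3, c 2, c 3; c 3, c 3, c 2]
def D : M3 := !![c 1, c 0, c 0; c 0, c 2, c 0; c 0, c 0, c 3]
def C : M3 := !![c 0, c 1, c 0; c 0, c 0, c 1; c 1, c 0, c 0]

/-- powers by repeated product, computable -/
def pw (M : M3) : ℕ → M3
  | 0 => 1
  | n + 1 => pw M n * M

def qmat : QuaternionGroup 2 → M3
  | .a i => pw A (ZMod.val i)
  | .xa i => X * pw A (ZMod.val i)

def nmat (x : ZMod 3 × ZMod 3) : M3 := pw D x.1.val * pw C x.2.val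

theorem qgood' : ∀ x : QuaternionGroup 2, (qmat x).det = 1 := by
  simp only [det_fin_three]
  decide +kernel

theorem qgood'' : ∀ x : QuaternionGroup 2, (qmat x)ᵀ * bar 2 (qmat x) = 1 := by
  unfold bar
  decide +kernel

theorem ngood' : ∀ x : ZMod 3 × ZMod 3, (nmat x).det = 1 := by
  simp only [det_fin_three]
  decide +kernel

theorem ngood'' : ∀ x : ZMod 3 × ZMod 3, (nmat x)ᵀ * bar 2 (nmat x) = 1 := by
  unfold bar
  decide +kernel

theorem qmul : ∀ x y : QuaternionGroup 2, qmat (x * y) = qmat x * qmat y := by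
  decide +kernel

theorem nmul : ∀ x y : ZMod 3 × ZMod 3, ∃ s : F4, s ≠ 0 ∧ nmat (x + y) = s • (nmat x * nmat y) := by
  decide +kernel

theorem nconj : ∀ (q : QuaternionGroup 2) (x : ZMod 3 × ZMod 3), ∃ y : ZMod 3 × ZMod 3, ∃ s : F4,
    s ≠ 0 ∧ qmat q * nmat x = s • (nmat y * qmat q) := by
  decide +kernel

theorem ncentral : ∀ x : ZMod 3 × ZMod 3, nmat x * D = D * nmat x → nmat x * C = C * nmat x → x = 0 := by
  decide +kernel

theorem qcentral : ∀ x : QuaternionGroup 2, qmat x * D = D * qmat x → qmat x * C = C * qmat x → x = 1 := by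
  decide +kernel

theorem qgood (x : QuaternionGroup 2) : Good (qmat x) := ⟨qgood' x, qgood'' x⟩
theorem ngood (x : ZMod 3 × ZMod 3) : Good (nmat x) := ⟨ngood' x, ngood'' x⟩

theorem nmat_D : nmat (1, 0) = D := by decide +kernel
theorem nmat_C : nmat (0, 1) = C := by decide +kernel

theorem val_mul (a b : L) : ((a * b : L).1.1 : M3) = a.1.1 * b.1.1 := rfl

theorem L_ext {a b : L} (h : a.1.1 = b.1.1) : a = b := Subtype.ext (Subtype.ext h)

/-- equality in `PSU` from equality up to a scalar -/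
theorem mk_eq {a b : L} {s : F4} (h : a.1.1 = s • b.1.1) :
    (QuotientGroup.mk a : PSU 3 F4 2) = QuotientGroup.mk b := by
  rw [eq_comm, QuotientGroup.eq, Subgroup.mem_center_iff]
  have h1 : a = b * (b⁻¹ * a) := by group
  have h2 : (b⁻¹ * a).1.1 = s • (1 : M3) := by
    rw [val_mul, h, Matrix.mul_smul, ← val_mul, inv_mul_cancel]
    rfl
  intro g
  apply L_ext
  rw [val_mul, val_mul _ g, h2]
  simp

/-- the quaternion group in `PSU_3(2)` -/
noncomputable def Qh : QuaternionGroup 2 →* PSU 3 F4 2 where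
  toFun x := QuotientGroup.mk (ofM (qmat x) (qgood x))
  map_one' := by
    have h : ofM (qmat 1) (qgood 1) = 1 := L_ext (by change qmat 1 = 1; decide +kernel)
    rw [h]; rfl
  map_mul' x y := by
    have h : ofM (qmat (x * y)) (qgood _) = ofM (qmat x) (qgood x) * ofM (qmat y) (qgood y) :=
      L_ext (qmul x y)
    rw [h]; rfl

/-- the elementary abelian group of order 9 in `PSU_3(2)` -/
noncomputable def Nh : Multiplicative (ZMod 3 × ZMod 3) →* PSU 3 F4 2 where
  toFun x := QuotientGroup.mk (ofM (nmat x.toAdd) (ngood _))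
  map_one' := by
    have h : ofM (nmat 0) (ngood 0) = 1 := L_ext (by change nmat 0 = 1; decide +kernel)
    change QuotientGroup.mk (ofM (nmat 0) (ngood 0)) = _
    rw [h]; rfl
  map_mul' x y := by
    obtain ⟨s, hs, h⟩ := nmul x.toAdd y.toAdd
    rw [← QuotientGroup.mk_mul]
    exact mk_eq (s := s) h

theorem central_comm {a : L} (h : (QuotientGroup.mk a : PSU 3 F4 2) = 1) (b : L) :
    a.1.1 * b.1.1 = b.1.1 * a.1.1 := by
  rw [QuotientGroup.eq_one_iff, Subgroup.mem_center_iff] at h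
  have h2 := h b
  rw [← val_mul, ← val_mul, h2]

theorem Qh_inj : Function.Injective Qh := by
  rw [injective_iff_map_eq_one]
  intro x hx
  have hD := central_comm hx (ofM (nmat (1, 0)) (ngood _))
  have hC := central_comm hx (ofM (nmat (0, 1)) (ngood _))
  change qmat x * nmat (1, 0) = nmat (1, 0) * qmat x at hD
  change qmat x * nmat (0, 1) = nmat (0, 1) * qmat x at hC
  rw [nmat_D] at hD
  rw [nmat_C] at hC
  exact qcentral x hD hC

theorem Nh_inj : Function.Injective Nh := by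
  rw [injective_iff_map_eq_one]
  intro x hx
  have hD := central_comm hx (ofM (nmat (1, 0)) (ngood _))
  have hC := central_comm hx (ofM (nmat (0, 1)) (ngood _))
  change nmat x.toAdd * nmat (1, 0) = nmat (1, 0) * nmat x.toAdd at hD
  change nmat x.toAdd * nmat (0, 1) = nmat (0, 1) * nmat x.toAdd at hC
  rw [nmat_D] at hD
  rw [nmat_C] at hC
  exact ncentral x.toAdd hD hC

theorem card_psu {F : Type*} [Field F] [Fintype F] (hF : Fintype.card F = 4) :
    Nat.card (PSU 3 F 2) = 72 := by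
  have h := Cfsg.Agent.S0280.result (F := F) (q := 2) (by rw [hF]; norm_num) 3 (by norm_num)
  simp only [Finset.prod_range_succ, Finset.prod_range_zero] at h
  norm_num at h
  omega

theorem pow_three (x : Multiplicative (ZMod 3 × ZMod 3)) : x ^ 3 = 1 := by
  revert x
  decide

theorem disj {q : QuaternionGroup 2} {n : Multiplicative (ZMod 3 × ZMod 3)} (h : Qh q = Nh n) :
    q = 1 ∧ n = 1 := by
  have h4 : ∀ q : QuaternionGroup 2, q ^ 4 = 1 := by decide
  have hn : n = 1 := by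
    apply Nh_inj
    rw [map_one]
    have h1 : Nh n ^ 3 = 1 := by rw [← map_pow, pow_three, map_one]
    have h2 : Nh n ^ 4 = 1 := by rw [← h, ← map_pow, h4, map_one]
    rwa [pow_succ, h1, one_mul] at h2
  refine ⟨?_, hn⟩
  apply Qh_inj
  rw [h, hn, map_one, map_one]

theorem surj (g : PSU 3 F4 2) : ∃ (n : Multiplicative (ZMod 3 × ZMod 3)) (q : QuaternionGroup 2),
    g = Nh n * Qh q := by
  let f : Multiplicative (ZMod 3 × ZMod 3) × QuaternionGroup 2 → PSU 3 F4 2 :=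
    fun p => Nh p.1 * Qh p.2
  have hinj : Function.Injective f := by
    rintro ⟨n, q⟩ ⟨n', q'⟩ h
    change Nh n * Qh q = Nh n' * Qh q' at h
    have h1 : Qh (q * q'⁻¹) = Nh (n⁻¹ * n') := by
      rw [map_mul, map_mul, map_inv, map_inv]
      rw [mul_inv_eq_iff_eq_mul, mul_assoc, ← h]
      group
    obtain ⟨h2, h3⟩ := disj h1
    rw [mul_inv_eq_one] at h2
    rw [inv_mul_eq_one] at h3
    rw [h2, h3]
  have hbij := hinj.bijective_of_nat_card_le (by
    rw [card_psu (F := F4) rfl, Nat.card_eq_fintype_card]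
    decide)
  obtain ⟨⟨n, q⟩, h⟩ := hbij.2 g
  exact ⟨n, q, h.symm⟩

theorem conj_mem (q : QuaternionGroup 2) (n : Multiplicative (ZMod 3 × ZMod 3)) :
    Qh q * Nh n * (Qh q)⁻¹ ∈ Nh.range := by
  obtain ⟨y, s, hs, h⟩ := nconj q n.toAdd
  refine ⟨Multiplicative.ofAdd y, ?_⟩
  rw [eq_mul_inv_iff_mul_eq, eq_comm]
  exact mk_eq (s := s) h

theorem normal : Nh.range.Normal := by
  constructor
  rintro x ⟨n, rfl⟩ g
  obtain ⟨m, q, rfl⟩ := surj g
  have h : Nh m * Qh q * Nh n * (Nh m * Qh q)⁻¹ = Nh m * (Qh q * Nh n * (Qh q)⁻¹) * (Nh m)⁻¹ := by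
    group
  rw [h]
  exact mul_mem (mul_mem ⟨m, rfl⟩ (conj_mem q n)) (inv_mem ⟨m, rfl⟩)

theorem main4 : ∃ (N : Subgroup (PSU 3 F4 2)) (_ : N.Normal), Nat.card N = 9 ∧
    (∀ x ∈ N, x ^ 3 = 1) ∧ Nonempty (PSU 3 F4 2 ⧸ N ≃* QuaternionGroup 2) := by
  have := normal
  refine ⟨Nh.range, normal, ?_, ?_, ?_⟩
  · rw [Nat.card_congr (MonoidHom.ofInjective Nh_inj).symm.toEquiv, Nat.card_eq_fintype_card]
    decide
  · rintro x ⟨n, rfl⟩
    rw [← map_pow, pow_three, map_one]
  · let f : QuaternionGroup 2 →* PSU 3 F4 2 ⧸ Nh.range := (QuotientGroup.mk' Nh.range).comp Qh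
    refine ⟨(MulEquiv.ofBijective f ⟨?_, ?_⟩).symm⟩
    · rw [injective_iff_map_eq_one]
      intro x hx
      change QuotientGroup.mk (Qh x) = (1 : PSU 3 F4 2 ⧸ Nh.range) at hx
      rw [QuotientGroup.eq_one_iff] at hx
      obtain ⟨n, hn⟩ := hx
      exact (disj hn.symm).1
    · intro y
      obtain ⟨g, rfl⟩ := QuotientGroup.mk_surjective y
      obtain ⟨n, q, rfl⟩ := surj g
      refine ⟨q, ?_⟩
      change QuotientGroup.mk (Qh q) = (QuotientGroup.mk (Nh n * Qh q) : PSU 3 F4 2 ⧸ Nh.range)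
      rw [eq_comm, QuotientGroup.mk_mul, (QuotientGroup.eq_one_iff (Nh n)).2 (show Nh n ∈ Nh.range from ⟨n, rfl⟩), one_mul]

theorem transfer {G H : Type*} [Group G] [Group H] (e : G ≃* H)
    (h : ∃ (N : Subgroup H) (_ : N.Normal), Nat.card N = 9 ∧
    (∀ x ∈ N, x ^ 3 = 1) ∧ Nonempty (H ⧸ N ≃* QuaternionGroup 2)) :
    ∃ (N : Subgroup G) (_ : N.Normal), Nat.card N = 9 ∧
    (∀ x ∈ N, x ^ 3 = 1) ∧ Nonempty (G ⧸ N ≃* QuaternionGroup 2) := by
  obtain ⟨N, hN, h1, h2, ⟨f⟩⟩ := h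
  have : (N.comap e.toMonoidHom).Normal := hN.comap _
  refine ⟨N.comap e.toMonoidHom, inferInstance, ?_, ?_, ⟨(QuotientGroup.congr _ _ e ?_).trans f⟩⟩
  · rw [← h1]
    exact Nat.card_congr (e.toEquiv.subtypeEquiv (fun a => Iff.rfl))
  · intro x hx
    apply e.injective
    rw [map_pow, map_one]
    exact h2 _ hx
  · exact Subgroup.map_comap_eq_self_of_surjective e.surjective N

theorem main {F : Type*} [Field F] [Fintype F] (hF : Fintype.card F = 4) :
    ∃ (N : Subgroup (PSU 3 F 2)) (_ : N.Normal), Nat.card N = 9 ∧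
    (∀ x ∈ N, x ^ 3 = 1) ∧ Nonempty (PSU 3 F 2 ⧸ N ≃* QuaternionGroup 2) := by
  obtain ⟨e⟩ := exists_ringEquiv hF
  exact transfer (H6.Frame.quotCenterCongr (H64.U34.suCongr hF hK e.symm)) main4

end H17.PSU32
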