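import Cfsg.Agent.Lib.H17.PSU42a
import Cfsg.Agent.Lib.H17.SmallOrth
import Cfsg.Agent.Lib.H17.OrthTrans

set_option autoImplicit false
set_option linter.unusedSectionVars false

/-! `PΩ₆⁻(2) ≅ PΩ₅(3)`. -/

namespace H17.PSU42

open QuadraticMap Matrix H17.SmallOrth

/-- A permutation representation from an action on points up to a relation. -/
theorem exists_perm_rep {G V : Type*} [Group G] {n : ℕ} (act : G → V → V) (one : ∀ v, act 1 v = v)
    (mul : ∀ g h v, act (g * h) v = act g (act h v)) (A : Fin n → V) (R : V → V → Prop)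
    (htrans : ∀ x y z, R x y → R y z → R x z)
    (hact : ∀ g x y, R x y → R (act g x) (act g y)) (hex : ∀ g i, ∃ j, R (act g (A i)) (A j))
    (huniq : ∀ i j, R (A i) (A j) → i = j) (hsymm : ∀ x y, R x y → R y x) :
    ∃ π : G →* Equiv.Perm (Fin n), ∀ g i, R (act g (A i)) (A (π g i)) := by
  choose f hf using hex
  obtain ⟨π, hπ⟩ := exists_permHom f
    (fun i => by
      have := hf 1 i
      rw [one] at this
      exact (huniq _ _ this).symm)
    (fun g h i => by
      have h1 := hf (g * h) i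
      rw [mul] at h1
      have h2 := hact g _ _ (hf h i)
      have h3 := hf g (f h i)
      exact huniq _ _ (htrans _ _ _ (hsymm _ _ h1) (htrans _ _ _ h2 h3)))
  exact ⟨π, fun g i => by rw [hπ]; exact hf g i⟩

/-- Central quotients along a homomorphism with central kernel. -/
theorem quot_center_equiv {A B : Type*} [Group A] [Group B] (f : A →* B)
    (hf : Function.Surjective f) (hk : f.ker ≤ Subgroup.center A)
    (hA : Subgroup.center (A ⧸ Subgroup.center A) = ⊥) :
    Nonempty (A ⧸ Subgroup.center A ≃* B ⧸ Subgroup.center B) := by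
  let g : A →* B ⧸ Subgroup.center B := (QuotientGroup.mk' _).comp f
  have hg : Function.Surjective g := (QuotientGroup.mk'_surjective _).comp hf
  have hker : g.ker = Subgroup.center A := by
    ext x
    constructor
    · intro hx
      have h1 : f x ∈ Subgroup.center B := (QuotientGroup.eq_one_iff _).mp hx
      have h2 : (QuotientGroup.mk x : A ⧸ Subgroup.center A) ∈
          Subgroup.center (A ⧸ Subgroup.center A) := by
        rw [Subgroup.mem_center_iff]
        intro y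
        obtain ⟨y, rfl⟩ := QuotientGroup.mk_surjective y
        rw [← QuotientGroup.mk_mul, ← QuotientGroup.mk_mul, QuotientGroup.eq]
        apply hk
        rw [MonoidHom.mem_ker, map_mul, map_inv, map_mul, map_mul]
        have h3 := (Subgroup.mem_center_iff.mp h1) (f y)
        rw [h3]
        group
      rw [hA, Subgroup.mem_bot, QuotientGroup.eq_one_iff] at h2
      exact h2
    · intro hx
      have h1 : f x ∈ Subgroup.center B := by
        rw [Subgroup.mem_center_iff]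
        intro y
        obtain ⟨y, rfl⟩ := hf y
        rw [← map_mul, ← map_mul, (Subgroup.mem_center_iff.mp hx) y]
      exact (QuotientGroup.eq_one_iff _).mpr h1
  exact ⟨(QuotientGroup.quotientMulEquivOfEq hker.symm).trans
    (QuotientGroup.quotientKerEquivOfSurjective g hg)⟩

/-- Commutator subgroups along a homomorphism with central kernel. -/
theorem quot_commutator_equiv {A B : Type*} [Group A] [Group B] (f : A →* B)
    (hf : Function.Surjective f) (hk : f.ker ≤ Subgroup.center A)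
    (hA : Subgroup.center (↥(commutator A) ⧸ Subgroup.center ↥(commutator A)) = ⊥) :
    Nonempty (↥(commutator A) ⧸ Subgroup.center ↥(commutator A) ≃*
      ↥(commutator B) ⧸ Subgroup.center ↥(commutator B)) := by
  have hmap : (commutator A).map f = commutator B := by
    rw [commutator_def, Subgroup.map_commutator, ← MonoidHom.range_eq_map,
      MonoidHom.range_eq_top.mpr hf]
    rfl
  let g : ↥(commutator A) →* ↥(commutator B) :=
    (f.comp (commutator A).subtype).codRestrict (commutator B) (fun x => by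
      rw [← hmap]; exact ⟨x.1, x.2, rfl⟩)
  refine quot_center_equiv g ?_ ?_ hA
  · rintro ⟨y, hy⟩
    rw [← hmap] at hy
    obtain ⟨x, hx, rfl⟩ := hy
    exact ⟨⟨x, hx⟩, rfl⟩
  · intro x hx
    have h1 : f x.1 = 1 := congrArg Subtype.val hx
    rw [Subgroup.mem_center_iff]
    intro y
    apply Subtype.ext
    exact (Subgroup.mem_center_iff.mp (hk h1)) y.1

abbrev G2 := ↥(Cfsg.isometryGroup (ZMod 2) Q2)
abbrev G3 := ↥(Cfsg.isometryGroup (ZMod 3) Q3)

theorem pres2 (g : G2) (v : V2) : Q2 (g.1.1 *ᵥ v) = Q2 v :=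
  (H17.OrthDet.mem_isometryGroup_iff _ _).mp g.2 v

theorem pres3 (g : G3) (v : V3) : Q3 (g.1.1 *ᵥ v) = Q3 v :=
  (H17.OrthDet.mem_isometryGroup_iff _ _).mp g.2 v

theorem exists_pi2 : ∃ π : G2 →* Equiv.Perm (Fin 36), ∀ g i, g.1.1 *ᵥ A2 i = A2 (π g i) := by
  refine exists_perm_rep (fun (g : G2) (v : V2) => g.1.1 *ᵥ v) (fun v => one_mulVec v)
    (fun g h v => ?_) A2 (· = ·)
    (fun x y z h1 h2 => h1.trans h2) (fun g x y h => by rw [h]) (fun g i => ?_) inj2 (fun x y h => h.symm)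
  · change (g.1.1 * h.1.1) *ᵥ v = _
    rw [mulVec_mulVec]
  · obtain ⟨j, hj⟩ := mem2 (g.1.1 *ᵥ A2 i) (by rw [pres2]; exact Q2A i)
    exact ⟨j, hj.symm⟩

theorem exists_pi3 : ∃ π : G3 →* Equiv.Perm (Fin 36), ∀ g i,
    g.1.1 *ᵥ A3 i = A3 (π g i) ∨ g.1.1 *ᵥ A3 i = - A3 (π g i) := by
  refine exists_perm_rep (fun (g : G3) (v : V3) => g.1.1 *ᵥ v) (fun v => one_mulVec v)
    (fun g h v => ?_) A3
    (fun x y => x = y ∨ x = -y)
    (fun x y z h1 h2 => ?_) (fun g x y h => ?_) (fun g i => ?_) inj3 (fun x y h => ?_)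
  · change (g.1.1 * h.1.1) *ᵥ v = _
    rw [mulVec_mulVec]
  · rcases h1 with rfl | rfl
    · exact h2
    · rcases h2 with rfl | rfl
      · exact Or.inr rfl
      · left; rw [neg_neg]
  · rcases h with rfl | rfl
    · left; rfl
    · right; exact mulVec_neg _ _
  · exact mem3 (g.1.1 *ᵥ A3 i) (by rw [pres3]; exact Q3A i)
  · rcases h with rfl | rfl
    · left; rfl
    · right; rw [neg_neg]

theorem pi2_injective (π : G2 →* Equiv.Perm (Fin 36)) (hπ : ∀ g i, g.1.1 *ᵥ A2 i = A2 (π g i)) :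
    Function.Injective π := by
  rw [injective_iff_map_eq_one]
  intro g hg
  have hfix : ∀ i, g.1.1 *ᵥ A2 i = A2 i := by
    intro i
    rw [hπ, hg]; rfl
  apply Subtype.ext
  apply Units.ext
  refine Matrix.ext_of_mulVec_single (fun i => ?_)
  generalize (Pi.single i 1 : V2) = v
  obtain ⟨i, hi⟩ := span2 v
  obtain ⟨j, hj⟩ := mem2 _ hi
  have h1 : v = A2 j + A2 i := by rw [hj, sub_add_cancel]
  rw [h1, mulVec_add, hfix, hfix]
  exact (one_mulVec _).symm

theorem pi3_ker (π : G3 →* Equiv.Perm (Fin 36))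
    (hπ : ∀ g i, g.1.1 *ᵥ A3 i = A3 (π g i) ∨ g.1.1 *ᵥ A3 i = - A3 (π g i)) (g : G3) (hg : π g = 1) :
    g.1.1 = 1 ∨ g.1.1 = -1 := by
  have hfix : ∀ i, ∃ e : ZMod 3, e ≠ 0 ∧ g.1.1 *ᵥ A3 i = e • A3 i := by
    intro i
    rcases hπ g i with h | h
    · refine ⟨1, by decide, ?_⟩
      rw [h, hg, one_smul]; rfl
    · refine ⟨-1, by decide, ?_⟩
      rw [h, hg, neg_smul, one_smul]; rfl
  choose e he0 he using hfix
  have hpol : ∀ x y : V3, polar Q3 (g.1.1 *ᵥ x) (g.1.1 *ᵥ y) = polar Q3 x y := by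
    intro x y
    unfold polar
    rw [← mulVec_add, pres3, pres3, pres3]
  have hcoe : Q3 = ⇑(H48.QuadStd.qOdd 2 (ZMod 3) 1) := (H48.QuadStd.coe_qOdd 2).symm
  have hmul : ∀ a b c : ZMod 3, c ≠ 0 → a * (b * c) = c → a = b := by decide
  have hstep : ∀ i j, polar Q3 (A3 i) (A3 j) ≠ 0 → e i = e j := by
    intro i j h
    have h1 := hpol (A3 i) (A3 j)
    rw [he, he, hcoe, QuadraticMap.polar_smul_left, QuadraticMap.polar_smul_right, ← hcoe,
      smul_eq_mul, smul_eq_mul] at h1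
    exact hmul _ _ _ h h1
  have hconst : ∀ i, e i = e 0 := by
    intro i
    obtain ⟨j, h1, h2⟩ := conn3 i
    rw [← hstep _ _ h2, ← hstep _ _ h1]
  have hscal : ∀ v : V3, g.1.1 *ᵥ v = e 0 • v := by
    intro v
    have hQ : ∀ w : V3, Q3 w = 2 → g.1.1 *ᵥ w = e 0 • w := by
      intro w hw
      obtain ⟨j, hj | hj⟩ := mem3 w hw
      · rw [hj, he, hconst]
      · rw [hj, mulVec_neg, he, hconst, smul_neg]
    have hA : ∀ i, g.1.1 *ᵥ A3 i = e 0 • A3 i := fun i => by rw [he, hconst]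
    obtain ⟨i, hi | hi⟩ := span3 v
    · have h1 : v = (v - A3 i) + A3 i := by rw [sub_add_cancel]
      rw [h1, mulVec_add, hQ _ hi, hA, smul_add]
    · have h1 : v = (v + A3 i) - A3 i := by rw [add_sub_cancel_right]
      rw [h1, mulVec_sub, hQ _ hi, hA, smul_sub]
  have hmat : g.1.1 = e 0 • (1 : Matrix _ _ (ZMod 3)) := by
    refine Matrix.ext_of_mulVec_single (fun i => ?_)
    rw [hscal, smul_mulVec, one_mulVec]
  have he1 : ∀ a : ZMod 3, a ≠ 0 → a = 1 ∨ a = -1 := by decide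
  rcases he1 _ (he0 0) with h | h
  · left; rw [hmat, h, one_smul]
  · right; rw [hmat, h, neg_smul, one_smul]

/-- Generation by reflections. -/
theorem gen {F : Type*} [Field F] [Fintype F] {ι : Type} [Fintype ι] [DecidableEq ι]
    (Q : (ι → F) → F) (q : QuadraticForm F (ι → F)) (h : ⇑q = Q) (hq : (polarBilin q).Nondegenerate)
    (hc : Fintype.card F ≠ 2 ∨ Fintype.card ι ≠ 4) (K : Subgroup ↥(Cfsg.isometryGroup F Q))
    (hK : ∀ (g : ↥(Cfsg.isometryGroup F Q)) (v : ι → F), Q v ≠ 0 →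
      g.1.1 = Cfsg.reflectionMatrix Q v → g ∈ K) : K = ⊤ := by
  subst h
  rw [eq_top_iff, ← H17.OrthTrans.closure_refl_eq_top q hq hc, Subgroup.closure_le]
  rintro g ⟨v, hv, hg⟩
  exact hK g v hv hg

theorem gen2 (K : Subgroup G2) (hK : ∀ (g : G2) (r : Fin 36),
    (∀ s, g.1.1 *ᵥ A2 s = A2 s + polar Q2 (A2 r) (A2 s) • A2 r) → g ∈ K) : K = ⊤ := by
  refine gen Q2 (H48.QuadStd.qMinus 2 (ZMod 2) 1 1) (H48.QuadStd.coe_qMinus 2 1 1) ?_
    (Or.inr (by decide)) K ?_
  · refine H48.QuadSplit.nd_iff.mp (H7.MinusOrd.nd_minus 2 ?_)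
    unfold H7.AnisoPlane.Aniso
    decide
  · intro g v hv hg
    have h1 : ∀ a : ZMod 2, a ≠ 0 → a = 1 := by decide
    obtain ⟨r, rfl⟩ := mem2 v (h1 _ hv)
    refine hK g r (fun s => ?_)
    rw [hg, show Q2 = ⇑(H48.QuadStd.qMinus 2 (ZMod 2) 1 1) from (H48.QuadStd.coe_qMinus 2 1 1).symm,
      H17.OrthMat.reflectionMatrix_mulVec, H48.QuadStd.coe_qMinus 2 1 1]
    have h2 : Cfsg.quadFormMinus 2 (ZMod 2) 1 1 (A2 r) = 1 := Q2A r
    rw [h2]
    have h3 : ∀ (a : ZMod 2) (x y : V2), x - (1⁻¹ * a) • y = x + a • y := by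
      intro a x y
      rw [inv_one, one_mul, sub_eq_add_neg, ← neg_smul, CharTwo.neg_eq]
    exact h3 _ _ _

theorem exists_refl3 (r : Fin 36) : ∃ g : G3, ∀ x, g.1.1 *ᵥ x = x + polar Q3 (A3 r) x • A3 r := by
  have hcoe : ⇑(H48.QuadStd.qOdd 2 (ZMod 3) 1) = Q3 := H48.QuadStd.coe_qOdd 2
  have key : ∀ Q : V3 → ZMod 3, ⇑(H48.QuadStd.qOdd 2 (ZMod 3) 1) = Q → ∀ v : V3, Q v = 2 →
      ∃ g : ↥(Cfsg.isometryGroup (ZMod 3) Q), ∀ x, g.1.1 *ᵥ x = x + polar Q v x • v := by
    rintro Q rfl v hv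
    have hv0 : (H48.QuadStd.qOdd 2 (ZMod 3) 1) v ≠ 0 := by rw [hv]; decide
    refine ⟨H17.OrthDet.refl _ v hv0, fun x => ?_⟩
    rw [H17.OrthDet.refl_coe, H17.OrthMat.reflectionMatrix_mulVec, hv]
    have h3 : ∀ (a : ZMod 3) (x y : V3), x - ((2 : ZMod 3)⁻¹ * a) • y = x + a • y := by
      intro a x y
      have h5 : (2 : ZMod 3)⁻¹ = 2 := inv_eq_of_mul_eq_one_left (by decide)
      have h4 : ∀ a : ZMod 3, -((2 : ZMod 3)⁻¹ * a) = a := by rw [h5]; decide
      rw [sub_eq_add_neg, ← neg_smul, h4]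
    exact h3 _ _ _
  exact key Q3 hcoe (A3 r) (Q3A r)

theorem card_G2 : Nat.card G2 = 51840 := by
  have h2 := H7.MinusOrd.card_O_minus (F := ZMod 2) 2 (a := 1) (b := 1)
    (by unfold H7.AnisoPlane.Aniso; decide)
  rw [H48.QuadStd.coe_qMinus] at h2
  rw [H7.HypOrd.card_isometryGroup, h2, Nat.card_zmod]
  decide +kernel

theorem card_G3 : Nat.card G3 = 103680 := by
  have h2 := H7.HypOrd.card_O_odd (F := ZMod 3) 2 (by decide) (c := 1) one_ne_zero
  rw [H48.QuadStd.coe_qOdd] at h2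
  rw [H7.HypOrd.card_isometryGroup, h2, Nat.card_zmod]
  decide +kernel

theorem finite_G2 : Finite G2 := Nat.finite_of_card_ne_zero (by rw [card_G2]; norm_num)
theorem finite_G3 : Finite G3 := Nat.finite_of_card_ne_zero (by rw [card_G3]; norm_num)

/-- `O₅(3) → O₆⁻(2)`. -/
theorem exists_f : ∃ f : G3 →* G2, Function.Surjective f ∧ f.ker ≤ Subgroup.center G3 := by
  have := finite_G2
  have := finite_G3
  obtain ⟨π2, h2⟩ := exists_pi2
  obtain ⟨π3, h3⟩ := exists_pi3
  have hinj := pi2_injective π2 h2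
  have hle : π2.range ≤ π3.range := by
    have htop : π3.range.comap π2 = ⊤ := by
      apply gen2
      intro g r hg
      rw [Subgroup.mem_comap]
      obtain ⟨h, hh⟩ := exists_refl3 r
      refine ⟨h, ?_⟩
      ext s
      congr 1
      obtain ⟨u, hu2, hu3⟩ := tab r s
      have e2 : u = π2 g s := inj2 _ _ (by rw [← hu2, ← h2, hg])
      have e3 : π3 h s = u := by
        apply inj3
        have h4 := h3 h s
        rw [hh] at h4
        rcases hu3 with h5 | h5 <;> rcases h4 with h6 | h6 <;> rw [h5] at h6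
        · left; exact h6.symm
        · right; rw [h6, neg_neg]
        · right; exact h6.symm
        · left; exact (neg_injective h6).symm
      rw [e3, e2]
    rintro _ ⟨g, rfl⟩
    have : g ∈ π3.range.comap π2 := by rw [htop]; trivial
    exact this
  have hc2 : Nat.card π2.range = 51840 := by
    rw [← card_G2]
    exact (Nat.card_congr (MonoidHom.ofInjective hinj).toEquiv).symm
  -- the kernel of `π3`
  let a : G3 := ⟨-1, by
    rw [H17.OrthDet.mem_isometryGroup_iff]
    intro x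
    change Q3 ((-1 : Matrix _ _ (ZMod 3)) *ᵥ x) = Q3 x
    rw [neg_mulVec, one_mulVec]
    have hcoe : Q3 = ⇑(H48.QuadStd.qOdd 2 (ZMod 3) 1) := (H48.QuadStd.coe_qOdd 2).symm
    rw [hcoe, QuadraticMap.map_neg]⟩
  have ha : π3 a = 1 := by
    ext s
    congr 1
    apply inj3
    have h4 := h3 a s
    have h5 : a.1.1 *ᵥ A3 s = -A3 s := by
      change (-1 : Matrix _ _ (ZMod 3)) *ᵥ A3 s = -A3 s
      rw [neg_mulVec, one_mulVec]
    rw [h5] at h4
    rcases h4 with h4 | h4
    · right; exact h4.symm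
    · left; exact (neg_injective h4).symm
  have ha1 : a ≠ 1 := by
    intro h
    have h4 : (-1 : Matrix (Unit ⊕ (Fin 2 ⊕ Fin 2)) (Unit ⊕ (Fin 2 ⊕ Fin 2)) (ZMod 3)) = 1 :=
      congrArg (fun g : G3 => g.1.1) h
    have h5 := congrFun (congrFun h4 (.inl ())) (.inl ())
    simp at h5
    revert h5
    decide
  have hc3 : 2 ≤ Nat.card π3.ker := by
    have : Nontrivial π3.ker := ⟨⟨⟨a, ha⟩, 1, fun h => ha1 (congrArg Subtype.val h)⟩⟩
    exact Finite.one_lt_card
  have hc : Nat.card π3.range ≤ 51840 := by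
    have h4 : Nat.card π3.ker * Nat.card π3.range = 103680 := by
      rw [← card_G3, ← Subgroup.index_ker, Subgroup.card_mul_index]
    have h5 : 2 * Nat.card π3.range ≤ 103680 := by
      rw [← h4]; exact Nat.mul_le_mul_right _ hc3
    omega
  have heq : π2.range = π3.range := Subgroup.eq_of_le_of_card_ge hle (by rw [hc2]; exact hc)
  let e2 : G2 ≃* π2.range := MonoidHom.ofInjective hinj
  let f3 : G3 →* π2.range := π3.codRestrict π2.range (fun x => by rw [heq]; exact ⟨x, rfl⟩)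
  refine ⟨e2.symm.toMonoidHom.comp f3, ?_, ?_⟩
  · have hs : Function.Surjective f3 := by
      rintro ⟨y, hy⟩
      rw [heq] at hy
      obtain ⟨x, rfl⟩ := hy
      exact ⟨x, rfl⟩
    exact e2.symm.surjective.comp hs
  · intro x hx
    have h4 : f3 x = 1 := by
      have : e2.symm (f3 x) = 1 := hx
      rwa [map_eq_one_iff _ e2.symm.injective] at this
    have h5 : π3 x = 1 := congrArg Subtype.val h4
    rw [Subgroup.mem_center_iff]
    intro y
    apply Subtype.ext
    apply Units.ext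
    change y.1.1 * x.1.1 = x.1.1 * y.1.1
    rcases pi3_ker π3 h3 x h5 with h6 | h6
    · rw [h6, mul_one, one_mul]
    · rw [h6, mul_neg, neg_mul, mul_one, one_mul]

end H17.PSU42
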