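import Mathlib
import Cfsg.Prelude.Def_Classical

set_option autoImplicit false
set_option linter.unusedSectionVars false

/-! Data for the isomorphism `PΩ₆⁻(2) ≅ PΩ₅(3)`: the 36 positive roots of `E₆` modulo 2 and modulo 3. -/

namespace H17.PSU42

open QuadraticMap

abbrev V2 : Type := (Fin 2 ⊕ Fin 2) ⊕ Fin 2 → ZMod 2
abbrev V3 : Type := Unit ⊕ (Fin 2 ⊕ Fin 2) → ZMod 3
abbrev Q2 : V2 → ZMod 2 := Cfsg.quadFormMinus 2 (ZMod 2) 1 1
abbrev Q3 : V3 → ZMod 3 := Cfsg.quadFormOdd 2 (ZMod 3)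

def code2 : Fin 36 → ℕ := ![14, 13, 10, 40, 16, 32, 7, 38, 34, 56, 48, 44, 47, 54, 50, 24, 33, 60, 63, 22, 18, 49, 20, 28, 31, 25, 17, 52, 19, 57, 36, 51, 41, 35, 11, 5]

def code3 : Fin 36 → ℕ := ![208, 91, 118, 57, 198, 171, 209, 184, 94, 174, 126, 32, 185, 112, 49, 102, 120, 230, 113, 40, 193, 75, 206, 158, 41, 51, 219, 134, 142, 195, 62, 70, 150, 187, 235, 92]

def vec2 (n : ℕ) : V2 :=
  Sum.elim (Sum.elim (fun i => ((n / 2 ^ i.val : ℕ) : ZMod 2)) (fun i => ((n / 2 ^ (i.val + 2) : ℕ) : ZMod 2)))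
    (fun i => ((n / 2 ^ (i.val + 4) : ℕ) : ZMod 2))

def vec3 (n : ℕ) : V3 :=
  Sum.elim (fun _ => ((n : ℕ) : ZMod 3)) (Sum.elim (fun i => ((n / 3 ^ (i.val + 1) : ℕ) : ZMod 3))
    (fun i => ((n / 3 ^ (i.val + 3) : ℕ) : ZMod 3)))

def A2 (i : Fin 36) : V2 := vec2 (code2 i)

def A3 (i : Fin 36) : V3 := vec3 (code3 i)

theorem Q2A : ∀ i, Q2 (A2 i) = 1 := by decide +kernel
theorem Q3A : ∀ i, Q3 (A3 i) = 2 := by decide +kernel
theorem inj2 : ∀ i j, A2 i = A2 j → i = j := by decide +kernel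
theorem inj3 : ∀ i j, (A3 i = A3 j ∨ A3 i = -A3 j) → i = j := by decide +kernel
theorem mem2 : ∀ v : V2, Q2 v = 1 → ∃ i, A2 i = v := by decide +kernel
theorem mem3 : ∀ v : V3, Q3 v = 2 → ∃ i, v = A3 i ∨ v = -A3 i := by decide +kernel
theorem span2 : ∀ v : V2, ∃ i, Q2 (v - A2 i) = 1 := by decide +kernel

/-- The reflections act in the same way on the 36 roots modulo 2 and modulo 3. -/
theorem tab : ∀ r s : Fin 36, ∃ u, A2 s + polar Q2 (A2 r) (A2 s) • A2 r = A2 u ∧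
    (A3 s + polar Q3 (A3 r) (A3 s) • A3 r = A3 u ∨ A3 s + polar Q3 (A3 r) (A3 s) • A3 r = - A3 u) := by
  decide +kernel

/-- Six roots spanning modulo 3, and a connected graph. -/
theorem conn3 : ∀ i : Fin 36, ∃ j : Fin 36, polar Q3 (A3 0) (A3 j) ≠ 0 ∧ polar Q3 (A3 j) (A3 i) ≠ 0 := by
  decide +kernel

theorem span3 : ∀ v : V3, ∃ i : Fin 36, Q3 (v - A3 i) = 2 ∨ Q3 (v + A3 i) = 2 := by
  decide +kernel

end H17.PSU42
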