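import Cfsg.Agent.Lib.H35.NSuz.Net
import Cfsg.Agent.Lib.H17.G24JChk

/-!
# Kernel checks on the 1782 points of `Suz` for the rank three characterisation
-/

set_option autoImplicit false
set_option maxRecDepth 100000
set_option linter.all false

namespace H17.RS

open H35.TC H35.Net
open H35.TCSuzA (Lt)
open H17.G24J (mU mQ0 mQ1 mA1 w5 w6 wA)

/-- moved points of a list of words -/
noncomputable def movedF (net : Lt → ℕ → ℕ) (w : List Lt) : ℕ → ℕ :=
  Nat.rec (motive := fun _ => ℕ) 0 (fun r ih => Nat.lor ih (Nat.xor (appF net w (ipl r 11)) (ipl r 11)))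

/-- moved points of a list of words -/
noncomputable def movedL (net : Lt → ℕ → ℕ) (ws : List (List Lt)) : ℕ :=
  List.rec (motive := fun _ => ℕ) 0 (fun w _ ih => Nat.lor (movedF net w 11) ih) ws

/-- word -/
def tW : List Lt := [.f, .b, .c, .d, .c, .b, .f, .g, .b, .c, .d, .c, .b, .g]
/-- word -/
def hW : List Lt := [.f, .b, .c, .d, .c, .b, .f]
/-- word -/
def kW : List Lt := [.f, .e, .b, .c, .d, .c, .b, .f, .e]
/-- words -/
def wU1 : List (List Lt) := [[.c, .b], [.d, .c, .b, .a]]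
/-- words -/
def wU2 : List (List Lt) := [[.b, .c, .d, .a, .b, .c, .d, .a, .b, .c, .a], [.e, .c, .d, .c, .b, .a, .b, .c, .d, .e, .c]]
/-- words -/
def wU3 : List (List Lt) := [[.e, .d, .a, .b, .a, .b, .c, .d, .e, .d, .c, .d, .c, .b, .a, .b, .a], [.c, .d, .e, .c, .d, .c, .b, .a, .b, .c, .d, .e, .c, .d, .c, .b, .d, .c, .d, .e, .c, .d, .c, .b, .a]]
/-- words -/
def wT : List (List Lt) := [[.a], [.b], [.c], [.d], [.e], [.f], [.f, .b, .c, .d, .c, .b, .f, .g, .b, .c, .d, .c, .b, .g]]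
theorem t_0 : Nat.beq (appF H35.NSuz.net [.f, .b, .c, .d, .c, .b, .f, .g, .b, .c, .d, .c, .b, .g] (Nat.shiftLeft 1 1781)) (Nat.shiftLeft 1 0) = true := by decide +kernel
theorem t_1 : Nat.beq (appF H35.NSuz.net [.f, .b, .c, .d, .c, .b, .f, .g, .b, .c, .d, .c, .b, .g] (Nat.shiftLeft 1 137)) (Nat.shiftLeft 1 1781) = true := by decide +kernel
theorem t_2 : Nat.beq (appF H35.NSuz.net [.f, .b, .c, .d, .c, .b, .f, .g, .b, .c, .d, .c, .b, .g] (Nat.shiftLeft 1 0)) (Nat.shiftLeft 1 137) = true := by decide +kernel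
theorem h_1 : Nat.beq (appF H35.NSuz.net [.f, .b, .c, .d, .c, .b, .f] (Nat.shiftLeft 1 137)) (Nat.shiftLeft 1 1781) = true := by decide +kernel
theorem h_2 : Nat.beq (appF H35.NSuz.net [.f, .b, .c, .d, .c, .b, .f] (Nat.shiftLeft 1 1781)) (Nat.shiftLeft 1 137) = true := by decide +kernel
theorem h_3 : Nat.beq (appF H35.NSuz.net [.f, .b, .c, .d, .c, .b, .f] (Nat.shiftLeft 1 199)) (Nat.shiftLeft 1 199) = true := by decide +kernel
theorem h_4 : Nat.beq (appF H35.NSuz.net [.f, .b, .c, .d, .c, .b, .f] (Nat.shiftLeft 1 321)) (Nat.shiftLeft 1 321) = true := by decide +kernel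
theorem h_5 : Nat.beq (appF H35.NSuz.net [.f, .b, .c, .d, .c, .b, .f] (Nat.shiftLeft 1 214)) (Nat.shiftLeft 1 214) = true := by decide +kernel
theorem h_6 : Nat.beq (appF H35.NSuz.net [.f, .b, .c, .d, .c, .b, .f] (Nat.shiftLeft 1 1449)) (Nat.shiftLeft 1 1263) = true := by decide +kernel
theorem k_0 : Nat.beq (appF H35.NSuz.net [.f, .e, .b, .c, .d, .c, .b, .f, .e] (Nat.shiftLeft 1 137)) (Nat.shiftLeft 1 137) = true := by decide +kernel
theorem f_1 : chkFixF H35.NSuz.net wU1 [137, 1781, 0] = true := by decide +kernel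
theorem f_2 : chkFixF H35.NSuz.net wU2 [199, 137, 1781, 0] = true := by decide +kernel
theorem f_3 : chkFixF H35.NSuz.net wU3 [321, 199, 137, 1781, 0] = true := by decide +kernel
theorem o_0 : chkOrb H35.NSuz.net 11 w5 5 137 100 = true := by decide +kernel
theorem o_1 : chkOrb H35.NSuz.net 11 wU1 6 199 36 = true := by decide +kernel
theorem o_2 : chkOrb H35.NSuz.net 11 wU2 5 321 21 = true := by decide +kernel
theorem o_3 : chkOrb H35.NSuz.net 11 wU3 2 214 8 = true := by decide +kernel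
theorem c_0 : chkW H35.NSuz.net 11 (tW ++ [.c, .b] ++ tW.reverse ++ List.reverse [.c, .b]) 1 0 11 = true := by decide +kernel
theorem c_1 : chkW H35.NSuz.net 11 (tW ++ [.d, .c, .b, .a] ++ tW.reverse ++ List.reverse [.d, .c, .b, .a]) 1 0 11 = true := by decide +kernel
theorem c_2 : chkW H35.NSuz.net 11 (tW ++ [.b, .c, .d, .a, .b, .c, .d, .a, .b, .c, .a] ++ tW.reverse ++ List.reverse [.b, .c, .d, .a, .b, .c, .d, .a, .b, .c, .a]) 1 0 11 = true := by decide +kernel
theorem c_3 : chkW H35.NSuz.net 11 (tW ++ [.e, .c, .d, .c, .b, .a, .b, .c, .d, .e, .c] ++ tW.reverse ++ List.reverse [.e, .c, .d, .c, .b, .a, .b, .c, .d, .e, .c]) 1 0 11 = true := by decide +kernel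
theorem c_4 : chkW H35.NSuz.net 11 (tW ++ [.e, .d, .a, .b, .a, .b, .c, .d, .e, .d, .c, .d, .c, .b, .a, .b, .a] ++ tW.reverse ++ List.reverse [.e, .d, .a, .b, .a, .b, .c, .d, .e, .d, .c, .d, .c, .b, .a, .b, .a]) 1 0 11 = true := by decide +kernel
theorem c_5 : chkW H35.NSuz.net 11 (tW ++ [.c, .d, .e, .c, .d, .c, .b, .a, .b, .c, .d, .e, .c, .d, .c, .b, .d, .c, .d, .e, .c, .d, .c, .b, .a] ++ tW.reverse ++ List.reverse [.c, .d, .e, .c, .d, .c, .b, .a, .b, .c, .d, .e, .c, .d, .c, .b, .d, .c, .d, .e, .c, .d, .c, .b, .a]) 1 0 11 = true := by decide +kernel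
theorem d_0 : chkW H35.NSuz.net 11 (tW ++ [.b] ++ tW.reverse ++ List.reverse [.b]) 1 0 11 = true := by decide +kernel
theorem db_0 : Nat.beq (appF H35.NSuz.net [.b] (Nat.shiftLeft 1 137)) (Nat.shiftLeft 1 137) = true := by decide +kernel
theorem dc_0 : Nat.beq (appF H35.NSuz.net [.b] (Nat.shiftLeft 1 1781)) (Nat.shiftLeft 1 1781) = true := by decide +kernel
theorem d_1 : chkW H35.NSuz.net 11 (tW ++ [.c] ++ tW.reverse ++ List.reverse [.c]) 1 0 11 = true := by decide +kernel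
theorem db_1 : Nat.beq (appF H35.NSuz.net [.c] (Nat.shiftLeft 1 137)) (Nat.shiftLeft 1 137) = true := by decide +kernel
theorem dc_1 : Nat.beq (appF H35.NSuz.net [.c] (Nat.shiftLeft 1 1781)) (Nat.shiftLeft 1 1781) = true := by decide +kernel
theorem d_2 : chkW H35.NSuz.net 11 (tW ++ [.d, .c, .b, .a] ++ tW.reverse ++ List.reverse [.d, .c, .b, .a]) 1 0 11 = true := by decide +kernel
theorem db_2 : Nat.beq (appF H35.NSuz.net [.d, .c, .b, .a] (Nat.shiftLeft 1 137)) (Nat.shiftLeft 1 137) = true := by decide +kernel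
theorem dc_2 : Nat.beq (appF H35.NSuz.net [.d, .c, .b, .a] (Nat.shiftLeft 1 1781)) (Nat.shiftLeft 1 1781) = true := by decide +kernel
theorem c_e : chkW H35.NSuz.net 11 (tW ++ kW ++ tW.reverse ++ [.e]) 1 0 11 = true := by decide +kernel
theorem c_t3 : chkW H35.NSuz.net 11 tW 3 0 11 = true := by decide +kernel
theorem c_h2 : chkW H35.NSuz.net 11 hW 2 0 11 = true := by decide +kernel
theorem c_ht : chkW H35.NSuz.net 11 (hW ++ tW) 2 0 11 = true := by decide +kernel
/-- mask -/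
noncomputable def p1 : ℕ := (Nat.lor (Nat.shiftLeft 1 137) (Nat.shiftLeft 1 1781))
/-- mask -/
noncomputable def p2 : ℕ := (Nat.lor (Nat.lor (Nat.shiftLeft 1 137) (Nat.shiftLeft 1 199)) (Nat.shiftLeft 1 1781))
theorem v_1 : Nat.beq (Nat.lor mU (Nat.lor p1 (movedL H35.NSuz.net wU1))) (Nat.lor p1 (movedL H35.NSuz.net wU1)) = true := by decide +kernel
theorem v_2 : Nat.beq (Nat.lor mU (Nat.lor p2 (movedL H35.NSuz.net wU2))) (Nat.lor p2 (movedL H35.NSuz.net wU2)) = true := by decide +kernel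
theorem T_chk : chkTrans H35.NSuz.net wT 5 1782 0 = true := by decide +kernel
theorem a_1 : Nat.beq (Nat.land mA1 (Nat.shiftLeft 1 321)) (Nat.shiftLeft 1 321) = true := by decide +kernel
theorem a_2 : Nat.beq (Nat.land mA1 (Nat.shiftLeft 1 214)) (Nat.shiftLeft 1 214) = true := by decide +kernel
theorem a_3 : Nat.beq (Nat.land mA1 (Nat.shiftLeft 1 1263)) (Nat.shiftLeft 1 1263) = true := by decide +kernel
theorem r_A1 : Nat.beq (reachF H35.NSuz.net wU1 6 (Nat.shiftLeft 1 199)) mA1 = true := by decide +kernel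
theorem u_137 : mU.testBit 137 = true := by decide +kernel
theorem u_199 : mU.testBit 199 = true := by decide +kernel
theorem u_1781 : mU.testBit 1781 = true := by decide +kernel
theorem u_138 : mU.testBit 138 = true := by decide +kernel
theorem q_1781_0 : mQ0.testBit 1781 = false := by decide +kernel
theorem q_1781_1 : mQ1.testBit 1781 = false := by decide +kernel

end H17.RS
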