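import Cfsg.Agent.Lib.H17.RSChk
import Cfsg.Agent.Lib.H17.G16b
import Cfsg.Agent.Lib.H63.J2Aut2

/-!
# Facts on `Suz` for its rank three characterisation
-/

set_option autoImplicit false
set_option maxRecDepth 100000
set_option linter.all false

namespace H17.RS

open H35.TC H35.Net Cfsg.Spor
open H35.TCSuzA (Lt)
open H35.SuzMain (φ gP hφ H0 H1 H2 i1 i2 card_inj hpP)
open H17.G24J (mU mQ0 mQ1 mA1 w5 w6 wA H2_le_H1 card_H1 card_H2)

attribute [local instance] H17.G24J.actS

/-- value of a word -/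
noncomputable def wd (w : List Lt) : Suz := (w.map gP).prod

theorem φ_wd (w : List Lt) : φ (wd w) = (w.map H35.NSuz.π).prod := map_word hφ w

theorem wd_append (v w : List Lt) : wd (v ++ w) = wd v * wd w := by
  unfold wd; rw [List.map_append, List.prod_append]

theorem wd_nil : wd [] = 1 := rfl

theorem wd_cons (x : Lt) (w : List Lt) : wd (x :: w) = gP x * wd w := by
  unfold wd; rw [List.map_cons, List.prod_cons]

theorem gP_sq (x : Lt) : gP x * gP x = 1 := by
  have h := hpP x x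
  cases x <;> simpa [H35.TCSuzA.mm] using h

theorem wd_reverse (w : List Lt) : wd w.reverse = (wd w)⁻¹ := by
  induction w with
  | nil => rw [List.reverse_nil, wd_nil, inv_one]
  | cons x w ih =>
    rw [List.reverse_cons, wd_append, ih, wd_cons x w, mul_inv_rev]
    congr 1
    rw [wd_cons, wd_nil, mul_one]
    exact eq_inv_of_mul_eq_one_left (gP_sq x)

theorem wd_one {w : List Lt} {n : ℕ} (h : chkW H35.NSuz.net 11 w n 0 11 = true) : wd w ^ n = 1 := by
  apply card_inj.2
  rw [map_pow, φ_wd, pow_eq_one_of_chk H35.NSuz.hbp h, map_one]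

theorem smulw {w : List Lt} {a b : ℕ}
    (h : Nat.beq (appF H35.NSuz.net w (Nat.shiftLeft 1 b)) (Nat.shiftLeft 1 a) = true) : φ (wd w) a = b := by
  rw [φ_wd]
  have e := eqOfBeq h
  rw [appF_eq] at e
  have h1 := (app_BP H35.NSuz.hbp w).bit (Nat.shiftLeft 1 b) a
  rw [e] at h1
  have h2 : (Nat.shiftLeft 1 a).testBit a = true := H17.G24J.bit_shift.2 rfl
  rw [h2] at h1
  exact (H17.G24J.bit_shift.1 h1.symm)

theorem comm_of_chk {v w : List Lt} (h : chkW H35.NSuz.net 11 (v ++ w ++ v.reverse ++ w.reverse) 1 0 11 = true) :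
    wd v * wd w = wd w * wd v := by
  have h1 := wd_one h
  rw [pow_one, wd_append, wd_append, wd_append, wd_reverse, wd_reverse] at h1
  have h2 : wd v * wd w * (wd w * wd v)⁻¹ = 1 := by
    rw [mul_inv_rev, ← h1]; group
  exact mul_inv_eq_one.1 h2

theorem pres (g : Suz) (b : ℕ) : φ g b < 1782 ↔ b < 1782 :=
  pres_all hφ H35.SuzMain.genP H35.NSuz.pres g b

theorem orbit_0 : MulAction.orbit Suz (0 : ℕ) = (Finset.range 1782 : Finset ℕ) := by
  ext q
  rw [Finset.coe_range, Set.mem_Iio]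
  constructor
  · rintro ⟨g, rfl⟩
    exact (pres g 0).2 (by norm_num)
  · intro hq
    obtain ⟨g, hg⟩ := H35.SuzMain.htr q hq
    exact ⟨g, hg⟩

theorem mem_H1_iff {g : Suz} : g ∈ H1 ↔ φ g 0 = 0 := by
  have hfin := H35.SuzMain.fin
  have h1 : H1 ≤ MulAction.stabilizer Suz (0 : ℕ) := fun g hg => H34.G24.H1_fix g hg
  have h2 : (MulAction.stabilizer Suz (0 : ℕ)).index = 1782 := by
    rw [MulAction.index_stabilizer, orbit_0, Set.ncard_coe_finset, Finset.card_range]
  have h3 := Subgroup.card_mul_index (MulAction.stabilizer Suz (0 : ℕ))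
  rw [h2, card_inj.1] at h3
  have h4 : H1 = MulAction.stabilizer Suz (0 : ℕ) := Subgroup.eq_of_le_of_card_ge h1 (by rw [card_H1]; omega)
  rw [h4]; rfl

theorem mem_H2_iff {g : Suz} : g ∈ H2 ↔ φ g 0 = 0 ∧ φ g 1781 = 1781 := by
  constructor
  · intro h
    exact ⟨(H17.G24J.H2_fix g h).2, (H17.G24J.H2_fix g h).1⟩
  · rintro ⟨h1, h2⟩
    exact H17.G24J.mem_H2_of_S2 ⟨⟨g, mem_H1_iff.2 h1⟩, h2⟩

theorem φ_mul (g h : Suz) (b : ℕ) : φ (g * h) b = φ g (φ h b) := by
  rw [map_mul, Equiv.Perm.mul_apply]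

theorem φ_inv (g : Suz) {a b : ℕ} (h : φ g a = b) : φ g⁻¹ b = a := by
  rw [map_inv, ← h]
  exact (φ g).symm_apply_apply a

theorem φ_inj (g : Suz) {a b : ℕ} (h : φ g a = φ g b) : a = b := (φ g).injective h

/-! ### the subgroup `U` -/

/-- the stabiliser of three points -/
def U : Subgroup Suz where
  carrier := {g | φ g 0 = 0 ∧ φ g 1781 = 1781 ∧ φ g 137 = 137}
  one_mem' := by
    refine ⟨?_, ?_, ?_⟩ <;> · rw [map_one]; rfl
  mul_mem' := by
    rintro g h ⟨a1, a2, a3⟩ ⟨b1, b2, b3⟩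
    exact ⟨by rw [φ_mul, b1, a1], by rw [φ_mul, b2, a2], by rw [φ_mul, b3, a3]⟩
  inv_mem' := by
    rintro g ⟨a1, a2, a3⟩
    exact ⟨φ_inv g a1, φ_inv g a2, φ_inv g a3⟩

theorem mem_U {g : Suz} : g ∈ U ↔ φ g 0 = 0 ∧ φ g 1781 = 1781 ∧ φ g 137 = 137 := Iff.rfl

theorem chain_up {m : ℕ} {bs : List ℕ} (h : 100 * m ≤ Nat.card (stabs φ.range [1781, 0])) : m ≤ 6048 := by
  have := H35.SuzMain.fin
  have : Finite φ.range := Finite.of_surjective _ φ.rangeRestrict_surjective
  obtain ⟨hcard, hinj⟩ := card_inj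
  have hr : Nat.card φ.range = 448345497600 := by
    rw [← hcard]
    exact (Nat.card_congr (MonoidHom.ofInjective hinj).toEquiv).symm
  have hΓ := H35.SuzMain.mem_range
  have h2 : 416 * (100 * m) ≤ Nat.card (stabs φ.range [0]) :=
    chain_stepF H35.NSuz.hbp hΓ H35.NSuz.fx_1 H35.NSuz.nb_1 h
  have h1 : 1782 * (416 * (100 * m)) ≤ Nat.card φ.range :=
    chain_stepT H35.NSuz.hbp hΓ H35.NSuz.nb_0 h2
  rw [hr] at h1
  omega

theorem card_U_le : Nat.card U ≤ 6048 := by
  have := H35.SuzMain.fin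
  have : Finite φ.range := Finite.of_surjective _ φ.rangeRestrict_surjective
  have hΓ := H35.SuzMain.mem_range
  refine chain_up (bs := []) (chain_stepF H35.NSuz.hbp hΓ H17.G24J.f_5 o_0 ?_)
  have h1 : Nat.card (U.map φ) = Nat.card U :=
    (Nat.card_congr (U.equivMapOfInjective φ card_inj.2).toEquiv).symm
  rw [← h1]
  apply Subgroup.card_le_of_le
  rintro _ ⟨g, hg, rfl⟩
  obtain ⟨h1, h2, h3⟩ := mem_U.1 hg
  refine mem_stabs (MonoidHom.mem_range.2 ⟨g, rfl⟩) ?_
  intro b hb
  simp only [List.mem_cons, List.not_mem_nil, or_false] at hb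
  rcases hb with rfl | rfl | rfl
  · exact h3
  · exact h2
  · exact h1

theorem stabs_one : Nat.card (stabs φ.range [214, 321, 199, 137, 1781, 0]) ≤ 1 := by
  have := H35.SuzMain.fin
  have : Finite φ.range := Finite.of_surjective _ φ.rangeRestrict_surjective
  have hΓ := H35.SuzMain.mem_range
  have h3 : 8 * Nat.card (stabs φ.range [214, 321, 199, 137, 1781, 0]) ≤
      Nat.card (stabs φ.range [321, 199, 137, 1781, 0]) :=
    chain_stepF H35.NSuz.hbp hΓ f_3 o_3 le_rfl
  have h2 := chain_stepF H35.NSuz.hbp hΓ f_2 o_2 h3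
  have h1 := chain_stepF H35.NSuz.hbp hΓ f_1 o_1 h2
  have h0 := chain_up (bs := []) (chain_stepF H35.NSuz.hbp hΓ H17.G24J.f_5 o_0 h1)
  omega

theorem triv {g : Suz} (h0 : φ g 0 = 0) (h1 : φ g 1781 = 1781) (h2 : φ g 137 = 137) (h3 : φ g 199 = 199)
    (h4 : φ g 321 = 321) (h5 : φ g 214 = 214) : g = 1 := by
  have hm : φ g ∈ stabs φ.range [214, 321, 199, 137, 1781, 0] := by
    refine mem_stabs (MonoidHom.mem_range.2 ⟨g, rfl⟩) ?_
    intro b hb
    simp only [List.mem_cons, List.not_mem_nil, or_false] at hb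
    rcases hb with rfl | rfl | rfl | rfl | rfl | rfl
    · exact h5
    · exact h4
    · exact h3
    · exact h2
    · exact h1
    · exact h0
  have := H35.SuzMain.fin
  have : Finite φ.range := Finite.of_surjective _ φ.rangeRestrict_surjective
  have hbot : stabs φ.range [214, 321, 199, 137, 1781, 0] = ⊥ := Subgroup.card_le_one_iff_eq_bot _ |>.1 stabs_one
  rw [hbot, Subgroup.mem_bot] at hm
  exact card_inj.2 (hm.trans (map_one φ).symm)

/-- generated part -/
noncomputable def C : Subgroup Suz := Subgroup.closure {g | ∃ w ∈ wU1 ++ wU2 ++ wU3, g = wd w}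

theorem C_mem {w : List Lt} (hw : w ∈ wU1 ++ wU2 ++ wU3) : wd w ∈ C := Subgroup.subset_closure ⟨w, hw, rfl⟩

theorem C_mem' {w : List Lt} (hw : w ∈ wU1 ++ wU2 ++ wU3) : (w.map H35.NSuz.π).prod ∈ C.map φ :=
  ⟨wd w, C_mem hw, φ_wd w⟩

theorem fix_all_w : ∀ w ∈ wU1 ++ wU2 ++ wU3, wd w ∈ U := by
  intro w hw
  have key : ∀ b ∈ ([137, 1781, 0] : List ℕ), φ (wd w) b = b := by
    intro b hb
    rw [φ_wd]
    rcases List.mem_append.1 hw with hw | hw
    · rcases List.mem_append.1 hw with hw | hw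
      · exact prod_fix H35.NSuz.hbp f_1 w hw b hb
      · exact prod_fix H35.NSuz.hbp f_2 w hw b (by
          simp only [List.mem_cons, List.not_mem_nil, or_false] at hb ⊢; tauto)
    · exact prod_fix H35.NSuz.hbp f_3 w hw b (by
          simp only [List.mem_cons, List.not_mem_nil, or_false] at hb ⊢; tauto)
  exact ⟨key 0 (by simp), key 1781 (by simp), key 137 (by simp)⟩

theorem C_le_U : C ≤ U := by
  unfold C
  rw [Subgroup.closure_le]
  rintro _ ⟨w, hw, rfl⟩
  exact fix_all_w w hw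

theorem stepC {bs : List ℕ} {ws : List (List Lt)} {b rounds n : ℕ}
    (hws : ∀ w ∈ ws, w ∈ wU1 ++ wU2 ++ wU3)
    (hfix : chkFixF H35.NSuz.net ws bs = true)
    (hn : chkOrb H35.NSuz.net 11 ws rounds b n = true) {m : ℕ}
    (hm : m ≤ Nat.card (stabs (C.map φ) (b :: bs))) : n * m ≤ Nat.card (stabs (C.map φ) bs) := by
  have := H35.SuzMain.fin
  have : Finite (C.map φ) := Finite.of_surjective _ (φ.subgroupMap_surjective C)
  refine (Nat.mul_le_mul_left n hm).trans (card_step ?_)
  refine (Nat.le_of_ble_eq_true hn).trans (orbit_ncard_ge ?_)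
  intro c hc
  refine reachF_orbit H35.NSuz.hbp (Γ := stabs (C.map φ) bs) (ws := ws) ?_ c hc
  intro w hw
  exact mem_stabs (C_mem' (hws w hw)) (fun b hb => prod_fix H35.NSuz.hbp hfix w hw b hb)

theorem card_C : 6048 ≤ Nat.card C := by
  have := H35.SuzMain.fin
  have : Finite (C.map φ) := Finite.of_surjective _ (φ.subgroupMap_surjective C)
  have h3 := stepC (fun w hw => by simp [hw]) f_3 o_3
    (m := 1) (Nat.one_le_iff_ne_zero.2 Nat.card_pos.ne')
  have h2 := stepC (fun w hw => by simp [hw]) f_2 o_2 h3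
  have h1 := stepC (fun w hw => by simp [hw]) f_1 o_1 h2
  have hC : ∀ g ∈ C.map φ, ∀ b ∈ ([137, 1781, 0] : List ℕ), g b = b := by
    rintro _ ⟨g, hg, rfl⟩ b hb
    obtain ⟨h1, h2, h3⟩ := mem_U.1 (C_le_U hg)
    simp only [List.mem_cons, List.not_mem_nil, or_false] at hb
    rcases hb with rfl | rfl | rfl
    · exact h3
    · exact h2
    · exact h1
  have h4 : Nat.card (stabs (C.map φ) [137, 1781, 0]) ≤ Nat.card (C.map φ) := by
    apply Subgroup.card_le_of_le
    intro g hg
    exact hg.1.1.1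
  have h5 : Nat.card (C.map φ) ≤ Nat.card C := Nat.card_le_card_of_surjective _ (φ.subgroupMap_surjective C)
  omega

theorem C_eq : C = U := by
  have := H35.SuzMain.fin
  exact Subgroup.eq_of_le_of_card_ge C_le_U (card_U_le.trans card_C)

/-! ### the elements `t` and `h` -/

/-- the element of order three -/
noncomputable def tS : Suz := wd tW

/-- the involution -/
noncomputable def hS : Suz := wd hW

theorem tS_0 : φ tS 0 = 1781 := smulw t_0
theorem tS_1 : φ tS 1781 = 137 := smulw t_1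
theorem tS_2 : φ tS 137 = 0 := smulw t_2
theorem hS_1 : φ hS 1781 = 137 := smulw h_1
theorem hS_2 : φ hS 137 = 1781 := smulw h_2
theorem hS_3 : φ hS 199 = 199 := smulw h_3
theorem hS_4 : φ hS 321 = 321 := smulw h_4
theorem hS_5 : φ hS 214 = 214 := smulw h_5
theorem hS_6 : φ hS 1263 = 1449 := smulw h_6

theorem hS_mem : hS ∈ H1 := by
  apply H17.G24J.word_H1
  simp [hW]

theorem hS_0 : φ hS 0 = 0 := mem_H1_iff.1 hS_mem

theorem hS_sq : hS * hS = 1 := by
  have := wd_one c_h2
  rwa [pow_two] at this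

theorem hS_inv : hS⁻¹ = hS := inv_eq_of_mul_eq_one_left hS_sq

theorem tS_cube : tS ^ 3 = 1 := wd_one c_t3

theorem ht_sq : (hS * tS) ^ 2 = 1 := by
  have := wd_one c_ht
  rwa [wd_append] at this

theorem tS_comm : ∀ g ∈ U, tS * g = g * tS := by
  intro g hg
  rw [← C_eq] at hg
  unfold C at hg
  induction hg using Subgroup.closure_induction with
  | mem g hg =>
    obtain ⟨w, hw, rfl⟩ := hg
    simp only [wU1, wU2, wU3, List.cons_append, List.nil_append, List.mem_cons, List.not_mem_nil, or_false] at hw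
    rcases hw with rfl | rfl | rfl | rfl | rfl | rfl
    · exact comm_of_chk c_0
    · exact comm_of_chk c_1
    · exact comm_of_chk c_2
    · exact comm_of_chk c_3
    · exact comm_of_chk c_4
    · exact comm_of_chk c_5
  | one => rw [mul_one, one_mul]
  | mul a b _ _ ha hb => rw [← mul_assoc, ha, mul_assoc, hb, mul_assoc]
  | inv a _ ha =>
    have h : Commute tS a := ha
    exact h.inv_right.eq

/-- the word `k` -/
noncomputable def kS : Suz := wd kW

theorem kS_mem : kS ∈ H1 := by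
  apply H17.G24J.word_H1
  simp [kW]

theorem kS_137 : φ kS 137 = 137 := smulw k_0

theorem tk : tS * kS * tS⁻¹ = gP .e := by
  have h1 := wd_one c_e
  rw [pow_one, wd_append, wd_append, wd_append, wd_reverse] at h1
  change tS * kS * tS⁻¹ * wd [.e] = 1 at h1
  rw [wd_cons, wd_nil, mul_one] at h1
  rw [mul_eq_one_iff_eq_inv.1 h1]
  exact inv_eq_of_mul_eq_one_left (gP_sq .e)

/-! ### fixed points -/

theorem moved_spec {net : Lt → ℕ → ℕ} {ws : List (List Lt)} {b : ℕ} {π : Lt → Equiv.Perm ℕ}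
    (hbp : ∀ x, BP (2 ^ 11) (net x) (π x)) (h : ∀ w ∈ ws, (w.map π).prod b = b) :
    (movedL net ws).testBit b = false := by
  have h1 : ∀ w ∈ ws, ∀ n, (movedF net w n).testBit b = false := by
    intro w hw n
    induction n with
    | zero => exact Nat.zero_testBit b
    | succ n ih =>
      change ((movedF net w n) ||| ((appF net w (ipl n 11)) ^^^ (ipl n 11))).testBit b = false
      rw [Nat.testBit_or, ih, Nat.testBit_xor, appF_eq, (app_BP hbp w).bit, h w hw]
      simp
  induction ws with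
  | nil => exact Nat.zero_testBit b
  | cons w ws ih =>
    change ((movedF net w 11) ||| (movedL net ws)).testBit b = false
    rw [Nat.testBit_or, h1 w (by simp), ih (fun w hw => h w (by simp [hw])) (fun w hw => h1 w (by simp [hw]))]
    rfl

theorem fix_U {b : ℕ} (hb : mU.testBit b = true) (h : ∀ g ∈ U, φ g b = b) : b = 137 ∨ b = 1781 := by
  have h1 : (movedL H35.NSuz.net wU1).testBit b = false := by
    apply moved_spec H35.NSuz.hbp
    intro w hw
    rw [← φ_wd]
    exact h _ (fix_all_w w (by simp [hw]))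
  have h2 : (Nat.lor mU (Nat.lor p1 (movedL H35.NSuz.net wU1))).testBit b = true := by
    rw [H17.G24J.bit_or]; exact Or.inl hb
  rw [eqOfBeq v_1, H17.G24J.bit_or, h1] at h2
  unfold p1 at h2
  rw [H17.G24J.bit_or, H17.G24J.bit_shift, H17.G24J.bit_shift] at h2
  simpa using h2

theorem fix_U1 {b : ℕ} (hb : mU.testBit b = true) (h : ∀ g ∈ U, φ g 199 = 199 → φ g b = b) :
    b = 137 ∨ b = 199 ∨ b = 1781 := by
  have h1 : (movedL H35.NSuz.net wU2).testBit b = false := by
    apply moved_spec H35.NSuz.hbp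
    intro w hw
    rw [← φ_wd]
    refine h _ (fix_all_w w (by simp [hw])) ?_
    rw [φ_wd]
    exact prod_fix H35.NSuz.hbp f_2 w hw 199 (by simp)
  have h2 : (Nat.lor mU (Nat.lor p2 (movedL H35.NSuz.net wU2))).testBit b = true := by
    rw [H17.G24J.bit_or]; exact Or.inl hb
  rw [eqOfBeq v_2, H17.G24J.bit_or, h1] at h2
  unfold p2 at h2
  rw [H17.G24J.bit_or, H17.G24J.bit_or, H17.G24J.bit_shift, H17.G24J.bit_shift, H17.G24J.bit_shift] at h2
  simpa [or_assoc] using h2

theorem A1_orb {b : ℕ} (hb : mA1.testBit b = true) : ∃ g ∈ U, φ g 199 = b := by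
  rw [← eqOfBeq r_A1] at hb
  obtain ⟨_, ⟨g, hg, rfl⟩, hgb⟩ := reachF_orbit H35.NSuz.hbp (Γ := U.map φ)
    (fun w hw => ⟨_, fix_all_w w (by simp [hw]), φ_wd w⟩) b hb
  exact ⟨g, hg, hgb⟩

theorem bit_of_land {x b : ℕ} (h : Nat.beq (Nat.land x (Nat.shiftLeft 1 b)) (Nat.shiftLeft 1 b) = true) :
    x.testBit b = true := by
  have e := eqOfBeq h
  have h1 : (x &&& (Nat.shiftLeft 1 b)).testBit b = true := by
    rw [show x &&& (Nat.shiftLeft 1 b) = Nat.shiftLeft 1 b from e]
    exact H17.G24J.bit_shift.2 rfl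
  rw [Nat.testBit_and, Bool.and_eq_true] at h1
  exact h1.1

theorem mU_pres {g : Suz} (hg : φ g 0 = 0) (b : ℕ) : mU.testBit (φ g b) = mU.testBit b :=
  H17.G24J.closed1 H17.G24J.c_U g (mem_H1_iff.2 hg) b

/-- **E3** the centraliser of `U` in `H1` -/
theorem cent_U {m : Suz} (h0 : φ m 0 = 0) (hm : ∀ g ∈ U, m * g = g * m) : m = 1 := by
  have hmv : ∀ g ∈ U, ∀ b, φ g b = b → φ g (φ m b) = φ m b := by
    intro g hg b hb
    rw [← φ_mul, ← hm g hg, φ_mul, hb]
  -- `m` permutes `{137, 1781}`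
  have ha : φ m 137 = 137 ∨ φ m 137 = 1781 :=
    fix_U (by rw [mU_pres h0]; exact u_137) (fun g hg => hmv g hg 137 hg.2.2)
  have hb : φ m 1781 = 137 ∨ φ m 1781 = 1781 :=
    fix_U (by rw [mU_pres h0]; exact u_1781) (fun g hg => hmv g hg 1781 hg.2.1)
  have hc : φ m 199 = 199 := by
    have h1 : φ m 199 = 137 ∨ φ m 199 = 199 ∨ φ m 199 = 1781 :=
      fix_U1 (by rw [mU_pres h0]; exact u_199) (fun g hg hg2 => hmv g hg 199 hg2)
    rcases h1 with h1 | h1 | h1
    · exfalso
      rcases ha with h2 | h2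
      · have := φ_inj m (h1.trans h2.symm); omega
      · rcases hb with h3 | h3
        · have := φ_inj m (h1.trans h3.symm); omega
        · have := φ_inj m (h2.trans h3.symm); omega
    · exact h1
    · exfalso
      rcases ha with h2 | h2
      · rcases hb with h3 | h3
        · have := φ_inj m (h2.trans h3.symm); omega
        · have := φ_inj m (h1.trans h3.symm); omega
      · have := φ_inj m (h1.trans h2.symm); omega
  have hA : ∀ b, mA1.testBit b = true → φ m b = b := by
    intro b hb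
    obtain ⟨g, hg, rfl⟩ := A1_orb hb
    rw [← φ_mul, hm g hg, φ_mul, hc]
  have h321 := hA 321 (bit_of_land a_1)
  have h214 := hA 214 (bit_of_land a_2)
  have h1263 := hA 1263 (bit_of_land a_3)
  rcases ha with h2 | h2
  · rcases hb with h3 | h3
    · have := φ_inj m (h2.trans h3.symm); omega
    · exact triv h0 h3 h2 hc h321 h214
  · rcases hb with h3 | h3
    · exfalso
      have h4 : hS * m = 1 := by
        apply triv
        · rw [φ_mul, h0, hS_0]
        · rw [φ_mul, h3, hS_2]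
        · rw [φ_mul, h2, hS_1]
        · rw [φ_mul, hc, hS_3]
        · rw [φ_mul, h321, hS_4]
        · rw [φ_mul, h214, hS_5]
      have h5 : m = hS := by
        rw [← hS_inv]
        exact eq_inv_of_mul_eq_one_right h4
      rw [h5, hS_6] at h1263
      omega
    · have := φ_inj m (h2.trans h3.symm); omega

/-- normaliser of `U` in `H2` -/
theorem norm_U {j : Suz} (h0 : φ j 0 = 0) (h1 : φ j 1781 = 1781) (h : ∀ g ∈ U, ∃ g' ∈ U, j * g' = g * j) :
    φ j 137 = 137 := by
  have h2 : φ j 137 = 137 ∨ φ j 137 = 1781 := by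
    apply fix_U (by rw [mU_pres h0]; exact u_137)
    intro g hg
    obtain ⟨g', hg', e⟩ := h g hg
    rw [← φ_mul, ← e, φ_mul, hg'.2.2]
  rcases h2 with h2 | h2
  · exact h2
  · have := φ_inj j (h2.trans h1.symm)
    omega

/-- a subgroup containing `H1` and `t` is everything -/
theorem top_of_t {T : Subgroup Suz} (h1 : H1 ≤ T) (ht : tS ∈ T) : T = ⊤ := by
  rw [eq_top_iff]
  intro s _
  have hs : φ s 0 < 1782 := (pres s 0).2 (by norm_num)
  have hw : ∀ w ∈ wT, wd w ∈ T := by
    intro w hw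
    simp only [wT, List.mem_cons, List.not_mem_nil, or_false] at hw
    rcases hw with rfl | rfl | rfl | rfl | rfl | rfl | rfl
    · exact h1 (H17.G24J.word_H1 _ (by simp))
    · exact h1 (H17.G24J.word_H1 _ (by simp))
    · exact h1 (H17.G24J.word_H1 _ (by simp))
    · exact h1 (H17.G24J.word_H1 _ (by simp))
    · exact h1 (H17.G24J.word_H1 _ (by simp))
    · exact h1 (H17.G24J.word_H1 _ (by simp))
    · exact ht
  have hb : (Nat.sub (Nat.pow 2 1782) 1).testBit (φ s 0) = true := by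
    change (2 ^ 1782 - 1).testBit (φ s 0) = true
    rw [Nat.testBit_two_pow_sub_one]
    simpa using hs
  obtain ⟨g, hg, hgb⟩ := H17.G24J.orb hw T_chk _ hb
  have h2 : g⁻¹ * s ∈ H1 := by
    rw [mem_H1_iff, φ_mul]
    exact φ_inv g hgb
  have h3 := mul_mem hg (h1 h2)
  rwa [mul_inv_cancel_left] at h3

end H17.RS
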