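import Cfsg.Agent.Lib.H17.RSE

/-!
# Subgroups of index 416 of `G2(4)`, automorphisms of `J2`
-/

set_option autoImplicit false
set_option linter.all false

namespace H17.RS

open Cfsg.Spor
open H35.SuzMain (φ gP hφ H0 H1 H2 i1 i2 card_inj hpP)
open H17.G24J (H2_le_H1 card_H1 card_H2 S2)

attribute [local instance] H17.G24J.actS

/-- **E1** subgroups of index 416 -/
theorem conj416 (D : Subgroup H1) (hD : D.index = 416) :
    ∃ x : H1, ∀ h : H1, h ∈ D ↔ φ ((x⁻¹ * h * x : H1) : Suz) 1781 = 1781 := by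
  haveI : Fact (Nat.Prime 5) := ⟨by norm_num⟩
  haveI hfin : Finite H1 := Nat.finite_of_card_ne_zero (by rw [card_H1]; norm_num)
  have hcD : Nat.card D = 604800 := by
    have h := Subgroup.card_mul_index D
    rw [hD, card_H1] at h
    omega
  let ι : H2 →* H1 := Subgroup.inclusion H2_le_H1
  have hι : Function.Injective ι := Subgroup.inclusion_injective H2_le_H1
  have f1 : (Nat.card H1).factorization 5 = 2 := by
    rw [card_H1]
    exact H17.G16.fact_two (m := 10063872) (by norm_num) (by norm_num) (by norm_num) (by norm_num)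
  have f2 : (Nat.card D).factorization 5 = 2 := by
    rw [hcD]
    exact H17.G16.fact_two (m := 24192) (by norm_num) (by norm_num) (by norm_num) (by norm_num)
  have c1 : Nat.card (H17.G16.P.map ι) = 5 ^ (Nat.card H1).factorization 5 := by
    rw [f1, Nat.card_congr (H17.G16.P.equivMapOfInjective ι hι).toEquiv.symm, H17.G16.card_P]
    norm_num
  let SP : Sylow 5 H1 := Sylow.ofCard (H17.G16.P.map ι) c1
  let TD : Sylow 5 D := default
  have hTD : Nat.card TD = 25 := by
    rw [Sylow.card_eq_multiplicity TD, f2]; norm_num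
  have c2 : Nat.card ((TD : Subgroup D).map D.subtype) = 5 ^ (Nat.card H1).factorization 5 := by
    rw [f1, Nat.card_congr ((TD : Subgroup D).equivMapOfInjective D.subtype D.subtype_injective).toEquiv.symm]
    exact hTD.trans (by norm_num)
  let SD : Sylow 5 H1 := Sylow.ofCard ((TD : Subgroup D).map D.subtype) c2
  obtain ⟨x, hx⟩ := MulAction.exists_smul_eq H1 SP SD
  have hP : ∀ p ∈ H17.G16.P.map ι, x * p * x⁻¹ ∈ D := by
    intro p hp
    have h1 : x * p * x⁻¹ ∈ (SD : Subgroup H1) := by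
      rw [← hx]
      exact ⟨p, hp, rfl⟩
    obtain ⟨d, _, hd⟩ := h1
    rw [← hd]
    exact d.2
  let D' : Subgroup H1 := D.comap (MulAut.conj x).toMonoidHom
  have hD'i : D'.index = 416 := by
    rw [← hD]
    exact Subgroup.index_comap_of_surjective D (MulAut.conj x).surjective
  have hE : (D'.comap ι) = ⊤ := by
    apply H17.G16.overgroup
    · intro p hp
      exact hP (ι p) ⟨p, hp, rfl⟩
    · have h1 : (D'.comap ι).index ≤ 416 := by
        rw [Subgroup.index_comap, ← hD'i, ← Subgroup.relIndex_top_right D']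
        exact Subgroup.relIndex_le_of_le_right le_top (by
          rw [Subgroup.relIndex_top_right, hD'i]; norm_num)
      have h2 := Subgroup.card_mul_index (D'.comap ι)
      rw [card_H2] at h2
      by_contra hlt
      push Not at hlt
      have h3 : Nat.card (D'.comap ι) * (D'.comap ι).index ≤ 1453 * 416 := Nat.mul_le_mul (by omega) h1
      omega
  have hle : S2 ≤ D' := by
    intro s hs
    have h1 : (s : Suz) ∈ H2 := H17.G24J.mem_H2_of_S2 ⟨s, hs⟩
    have h2 : (⟨s, h1⟩ : H2) ∈ D'.comap ι := by rw [hE]; trivial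
    exact h2
  have heq : S2 = D' := by
    apply Subgroup.eq_of_le_of_card_ge hle
    have h := Subgroup.card_mul_index D'
    rw [hD'i, card_H1] at h
    rw [H17.G24J.card_S2]
    omega
  refine ⟨x, fun h => ?_⟩
  have h1 : φ ((x⁻¹ * h * x : H1) : Suz) 1781 = 1781 ↔ x⁻¹ * h * x ∈ S2 := Iff.rfl
  rw [h1, heq]
  have h2 : x⁻¹ * h * x ∈ D' ↔ x * (x⁻¹ * h * x) * x⁻¹ ∈ D := Iff.rfl
  rw [h2]
  have h3 : x * (x⁻¹ * h * x) * x⁻¹ = h := by group
  rw [h3]

/-- **E4** the outer automorphism group of `J2` has order two -/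
theorem out_dich (α β : MulAut H2) (hβ : ∀ j : H2, β ≠ MulAut.conj j) :
    (∃ j : H2, α = MulAut.conj j) ∨ ∃ j : H2, α = MulAut.conj j * β := by
  obtain ⟨e⟩ := H17.G24J.iso_P0
  have h1 : Nat.card (Cfsg.Out H2) = 2 := by
    rw [H63.J2.card_out_congr e, H63.J2.out_P0]
  rw [Cfsg.Out, ← Subgroup.index_eq_card] at h1
  by_cases ha : α ∈ Cfsg.Inn H2
  · obtain ⟨j, hj⟩ := ha
    exact Or.inl ⟨j, hj.symm⟩
  · right
    have hb : β⁻¹ ∉ Cfsg.Inn H2 := by
      intro hb
      have hb' := inv_mem hb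
      rw [inv_inv] at hb'
      obtain ⟨j, hj⟩ := hb'
      exact hβ j hj.symm
    have h2 : α * β⁻¹ ∈ Cfsg.Inn H2 := by
      rw [Subgroup.mul_mem_iff_of_index_two h1]
      exact ⟨fun h => absurd h ha, fun h => absurd h hb⟩
    obtain ⟨j, hj⟩ := h2
    refine ⟨j, ?_⟩
    have h3 : MulAut.conj j = α * β⁻¹ := hj
    rw [h3, inv_mul_cancel_right]

end H17.RS
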