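import Mathlib
import Cfsg.Agent.Lib.H17.G24JGen

/-!
# Rank three groups with subdegrees 1, 416, 1365
-/

set_option autoImplicit false
set_option linter.all false

namespace H17.RS3

variable {Gt Ω : Type*} [Group Gt] [Finite Gt] [Finite Ω] [MulAction Gt Ω]

/-- suborbit -/
def O (Gt : Type*) {Ω : Type*} [Group Gt] [MulAction Gt Ω] (a x : Ω) : Set Ω := {y | ∃ g : Gt, g • a = a ∧ g • x = y}

/-- suborbit of the stabiliser of two points -/
def O2 (Gt : Type*) {Ω : Type*} [Group Gt] [MulAction Gt Ω] (a b x : Ω) : Set Ω :=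
  {y | ∃ g : Gt, g • a = a ∧ g • b = b ∧ g • x = y}

/-- neighbours -/
def N (Gt : Type*) {Ω : Type*} [Group Gt] [MulAction Gt Ω] (a b x : Ω) : Set Ω := {y | ∃ g : Gt, g • a = x ∧ g • b = y}

/-- the hypotheses -/
structure Dat (Gt : Type*) {Ω : Type*} [Group Gt] [MulAction Gt Ω] (a b c d f : Ω) : Prop where
  card : Nat.card Ω = 1782
  tr : ∀ x y : Ω, ∃ g : Gt, g • x = y
  n416 : (O Gt a b).ncard = 416
  n1365 : (O Gt a c).ncard = 1365
  n100 : (O2 Gt a b d).ncard = 100
  n315 : (O2 Gt a b f).ncard = 315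
  hd : d ∈ O Gt a b
  hf : f ∈ O Gt a b

theorem O_self (a x : Ω) : x ∈ O Gt a x := ⟨1, one_smul _ _, one_smul _ _⟩

theorem O_sub {a x y : Ω} (h : y ∈ O Gt a x) : O Gt a y ⊆ O Gt a x := by
  obtain ⟨g, hg, rfl⟩ := h
  rintro _ ⟨k, hk, rfl⟩
  exact ⟨k * g, by rw [mul_smul, hg, hk], mul_smul _ _ _⟩

theorem O_symm {a x y : Ω} (h : y ∈ O Gt a x) : x ∈ O Gt a y := by
  obtain ⟨g, hg, rfl⟩ := h
  exact ⟨g⁻¹, inv_smul_eq_iff.2 hg.symm, inv_smul_smul _ _⟩

theorem O_eq {a x y : Ω} (h : y ∈ O Gt a x) : O Gt a y = O Gt a x :=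
  Set.Subset.antisymm (O_sub h) (O_sub (O_symm h))

theorem O_a (a : Ω) : O Gt a a = {a} := by
  ext y
  constructor
  · rintro ⟨g, h1, h2⟩
    exact h2.symm.trans h1
  · rintro rfl
    exact O_self _ _

theorem O2_self (a b x : Ω) : x ∈ O2 Gt a b x := ⟨1, one_smul _ _, one_smul _ _, one_smul _ _⟩

theorem O2_sub {a b x y : Ω} (h : y ∈ O2 Gt a b x) : O2 Gt a b y ⊆ O2 Gt a b x := by
  obtain ⟨g, hg, hg2, rfl⟩ := h
  rintro _ ⟨k, hk, hk2, rfl⟩
  exact ⟨k * g, by rw [mul_smul, hg, hk], by rw [mul_smul, hg2, hk2], mul_smul _ _ _⟩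

theorem O2_symm {a b x y : Ω} (h : y ∈ O2 Gt a b x) : x ∈ O2 Gt a b y := by
  obtain ⟨g, hg, hg2, rfl⟩ := h
  exact ⟨g⁻¹, inv_smul_eq_iff.2 hg.symm, inv_smul_eq_iff.2 hg2.symm, inv_smul_smul _ _⟩

theorem O2_eq {a b x y : Ω} (h : y ∈ O2 Gt a b x) : O2 Gt a b y = O2 Gt a b x :=
  Set.Subset.antisymm (O2_sub h) (O2_sub (O2_symm h))

theorem O2_le {a b x : Ω} : O2 Gt a b x ⊆ O Gt a x := by
  rintro _ ⟨g, h1, _, h2⟩
  exact ⟨g, h1, h2⟩

theorem N_smul {a b x y : Ω} (g : Gt) (h : y ∈ N Gt a b x) : g • y ∈ N Gt a b (g • x) := by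
  obtain ⟨k, rfl, rfl⟩ := h
  exact ⟨g * k, mul_smul _ _ _, mul_smul _ _ _⟩

theorem N_smul_iff {a b x y : Ω} (g : Gt) : g • y ∈ N Gt a b (g • x) ↔ y ∈ N Gt a b x := by
  constructor
  · intro h
    have := N_smul g⁻¹ h
    rwa [inv_smul_smul, inv_smul_smul] at this
  · exact N_smul g

theorem O_smul_iff {a x y : Ω} {g : Gt} (hg : g • a = a) : g • y ∈ O Gt a x ↔ y ∈ O Gt a x := by
  constructor
  · intro h
    exact O_sub h ⟨g⁻¹, inv_smul_eq_iff.2 hg.symm, inv_smul_smul _ _⟩
  · intro h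
    exact O_sub h ⟨g, hg, rfl⟩

theorem N_a (a b : Ω) : N Gt a b a = O Gt a b := rfl

theorem ncard_smul (g : Gt) (X : Set Ω) : ((fun x => g • x) '' X).ncard = X.ncard :=
  Set.ncard_image_of_injective X (MulAction.injective g)

theorem N_image {a b x : Ω} (g : Gt) : N Gt a b (g • x) = (fun y => g • y) '' N Gt a b x := by
  ext y
  constructor
  · intro h
    refine ⟨g⁻¹ • y, ?_, smul_inv_smul _ _⟩
    rw [← N_smul_iff g, smul_inv_smul]
    exact h
  · rintro ⟨z, hz, rfl⟩
    exact N_smul g hz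

theorem orbit_count (a x : Ω) : (O Gt a x).ncard * Nat.card {g : Gt // g • a = a ∧ g • x = x} =
    Nat.card {g : Gt // g • a = a} := by
  have h1 : O Gt a x = MulAction.orbit (MulAction.stabilizer Gt a) x := by
    ext y
    constructor
    · rintro ⟨g, hg, rfl⟩
      exact ⟨⟨g, hg⟩, rfl⟩
    · rintro ⟨g, rfl⟩
      exact ⟨g, g.2, rfl⟩
  have h2 := Subgroup.card_mul_index (MulAction.stabilizer (MulAction.stabilizer Gt a) x)
  rw [MulAction.index_stabilizer, ← h1] at h2
  have h3 : Nat.card (MulAction.stabilizer (MulAction.stabilizer Gt a) x) =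
      Nat.card {g : Gt // g • a = a ∧ g • x = x} :=
    Nat.card_congr ⟨fun g => ⟨g.1.1, g.1.2, g.2⟩, fun g => ⟨⟨g.1, g.2.1⟩, g.2.2⟩, fun g => rfl, fun g => rfl⟩
  rw [h3, Nat.mul_comm] at h2
  exact h2

section main

variable {a b c d f : Ω} (D : Dat Gt a b c d f)
include D

theorem b_ne : b ≠ a := by
  intro h
  have h1 := D.n416
  rw [h, O_a, Set.ncard_singleton] at h1
  omega

theorem c_ne : c ≠ a := by
  intro h
  have h1 := D.n1365
  rw [h, O_a, Set.ncard_singleton] at h1
  omega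

theorem a_not_b : a ∉ O Gt a b := by
  intro h
  have h1 := O_eq h
  rw [O_a] at h1
  have h2 := D.n416
  rw [← h1, Set.ncard_singleton] at h2
  omega

theorem a_not_c : a ∉ O Gt a c := by
  intro h
  have h1 := O_eq h
  rw [O_a] at h1
  have h2 := D.n1365
  rw [← h1, Set.ncard_singleton] at h2
  omega

theorem disj_bc {x : Ω} (h1 : x ∈ O Gt a b) (h2 : x ∈ O Gt a c) : False := by
  have h3 := (O_eq h1).symm.trans (O_eq h2)
  have h4 := D.n416
  rw [h3, D.n1365] at h4
  omega

theorem cover (z : Ω) : z = a ∨ z ∈ O Gt a b ∨ z ∈ O Gt a c := by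
  have h1 : (O Gt a b ∪ O Gt a c).ncard = 1781 := by
    rw [Set.ncard_union_eq, D.n416, D.n1365]
    rw [Set.disjoint_left]
    exact fun x h1 h2 => disj_bc D h1 h2
  have h2 : ({a} ∪ (O Gt a b ∪ O Gt a c)).ncard = Nat.card Ω := by
    rw [Set.ncard_union_eq, h1, Set.ncard_singleton, D.card]
    rw [Set.disjoint_singleton_left]
    rintro (h | h)
    · exact a_not_b D h
    · exact a_not_c D h
  have h3 := Set.eq_univ_iff_ncard _ |>.2 h2
  have h4 : z ∈ ({a} ∪ (O Gt a b ∪ O Gt a c) : Set Ω) := by rw [h3]; trivial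
  rcases h4 with h | h | h
  · exact Or.inl h
  · exact Or.inr (Or.inl h)
  · exact Or.inr (Or.inr h)

theorem swap : ∃ s : Gt, s • a = b ∧ s • b = a := by
  obtain ⟨g0, h0⟩ := D.tr b a
  have h1 : Nat.card {g : Gt // g • a = a ∧ g • b = b} = Nat.card {g : Gt // g • a = a ∧ g • (g0 • a) = g0 • a} := by
    apply Nat.card_congr
    refine ⟨fun g => ⟨g0 * g.1 * g0⁻¹, ?_, ?_⟩, fun g => ⟨g0⁻¹ * g.1 * g0, ?_, ?_⟩, fun g => ?_, fun g => ?_⟩
    · rw [mul_smul, mul_smul, inv_smul_eq_iff.2 h0.symm, g.2.2, h0]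
    · rw [mul_smul, mul_smul, inv_smul_smul, g.2.1]
    · rw [mul_smul, mul_smul, g.2.2, inv_smul_smul]
    · rw [mul_smul, mul_smul, h0, g.2.1, inv_smul_eq_iff.2 h0.symm]
    · apply Subtype.ext; simp [mul_assoc]
    · apply Subtype.ext; simp [mul_assoc]
  have h2 := orbit_count (Gt := Gt) a b
  have h3 := orbit_count (Gt := Gt) a (g0 • a)
  rw [h1, D.n416, ← h3] at h2
  have hpos : 0 < Nat.card {g : Gt // g • a = a ∧ g • (g0 • a) = g0 • a} := by
    have : Nonempty {g : Gt // g • a = a ∧ g • (g0 • a) = g0 • a} := ⟨⟨1, one_smul _ _, one_smul _ _⟩⟩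
    exact Nat.card_pos
  have h4 := Nat.eq_of_mul_eq_mul_right hpos h2
  rcases cover D (g0 • a) with h | h | h
  · rw [h, O_a, Set.ncard_singleton] at h4
    omega
  · obtain ⟨u, hu, hu2⟩ := h
    refine ⟨u⁻¹ * g0, ?_, ?_⟩
    · rw [mul_smul, ← hu2, inv_smul_smul]
    · rw [mul_smul, h0, inv_smul_eq_iff.2 hu.symm]
  · rw [O_eq h, D.n1365] at h4
    omega

theorem N_symm {x y : Ω} (h : y ∈ N Gt a b x) : x ∈ N Gt a b y := by
  obtain ⟨g, rfl, rfl⟩ := h
  obtain ⟨s, h1, h2⟩ := swap D
  exact ⟨g * s, by rw [mul_smul, h1], by rw [mul_smul, h2]⟩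

theorem N_card (x : Ω) : (N Gt a b x).ncard = 416 := by
  obtain ⟨g, rfl⟩ := D.tr a x
  rw [N_image, ncard_smul, N_a, D.n416]

theorem N_irr (x : Ω) : x ∉ N Gt a b x := by
  rintro ⟨g, h1, h2⟩
  have h3 : g • a = g • b := h1.trans h2.symm
  exact b_ne D (MulAction.injective g h3).symm

theorem coatom : IsCoatom (MulAction.stabilizer Gt a) := by
  have hu : MulAction.orbit Gt a = Set.univ := by
    rw [Set.eq_univ_iff_forall]
    intro x
    obtain ⟨g, hg⟩ := D.tr a x
    exact ⟨g, hg⟩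
  refine H17.G24J.isCoatom_of_suborbits a (![O Gt a b, O Gt a c]) (![416, 1365]) 1782 ?_ (by norm_num) ?_ ?_ ?_ ?_ ?_ ?_
  · rw [hu, Set.ncard_univ, D.card]
  · have key : ∀ z : Ω, ∀ x ∈ O Gt a z, ∀ y ∈ O Gt a z, ∃ g ∈ MulAction.stabilizer Gt a, g • x = y := by
      rintro z x ⟨g, hg, rfl⟩ y ⟨k, hk, rfl⟩
      refine ⟨k * g⁻¹, ?_, ?_⟩
      · rw [MulAction.mem_stabilizer_iff, mul_smul, inv_smul_eq_iff.2 hg.symm, hk]
      · rw [mul_smul, inv_smul_smul]
    intro i
    fin_cases i
    · exact key b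
    · exact key c
  · intro i
    fin_cases i
    · exact D.n416
    · exact D.n1365
  · intro i
    fin_cases i
    · exact a_not_b D
    · exact a_not_c D
  · intro i j hij
    fin_cases i <;> fin_cases j
    · exact absurd rfl hij
    · exact Set.disjoint_left.2 fun x h1 h2 => disj_bc D h1 h2
    · exact Set.disjoint_left.2 fun x h1 h2 => disj_bc D h2 h1
    · exact absurd rfl hij
  · rw [hu]
    symm
    rw [Set.eq_univ_iff_forall]
    intro x
    rcases cover D x with h | h | h
    · exact Or.inl h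
    · exact Or.inr (Set.mem_iUnion.2 ⟨0, h⟩)
    · exact Or.inr (Set.mem_iUnion.2 ⟨1, h⟩)
  · decide

/-- double counting -/
theorem count : ∃ n, 416 * (415 - (O Gt a b ∩ N Gt a b b).ncard) = 1365 * n := by
  classical
  have : Fintype Ω := Fintype.ofFinite Ω
  let s : Finset Ω := (O Gt a b).toFinite.toFinset
  let t : Finset Ω := (O Gt a c).toFinite.toFinset
  have hs : s.card = 416 := by
    rw [← D.n416, Set.ncard_eq_toFinset_card _ (O Gt a b).toFinite]
  have ht : t.card = 1365 := by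
    rw [← D.n1365, Set.ncard_eq_toFinset_card _ (O Gt a c).toFinite]
  have hNb : (O Gt a c ∩ N Gt a b b).ncard = 415 - (O Gt a b ∩ N Gt a b b).ncard := by
    have h1 : N Gt a b b = {a} ∪ ((O Gt a b ∩ N Gt a b b) ∪ (O Gt a c ∩ N Gt a b b)) := by
      ext x
      constructor
      · intro h
        rcases cover D x with h1 | h1 | h1
        · exact Or.inl h1
        · exact Or.inr (Or.inl ⟨h1, h⟩)
        · exact Or.inr (Or.inr ⟨h1, h⟩)
      · rintro (h | h | h)
        · rw [Set.mem_singleton_iff] at h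
          rw [h]
          exact N_symm D (show b ∈ N Gt a b a from O_self a b)
        · exact h.2
        · exact h.2
    have h2 := N_card D b
    rw [h1, Set.ncard_union_eq, Set.ncard_union_eq, Set.ncard_singleton] at h2
    · omega
    · rw [Set.disjoint_left]
      exact fun x h1 h2 => disj_bc D h1.1 h2.1
    · rw [Set.disjoint_singleton_left]
      rintro (h | h)
      · exact a_not_b D h.1
      · exact a_not_c D h.1
  refine ⟨{y | y ∈ O Gt a b ∧ c ∈ N Gt a b y}.ncard, ?_⟩
  have key := Finset.card_mul_eq_card_mul (s := s) (t := t) (fun y z => z ∈ N Gt a b y)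
    (m := 415 - (O Gt a b ∩ N Gt a b b).ncard) (n := {y | y ∈ O Gt a b ∧ c ∈ N Gt a b y}.ncard) ?_ ?_
  · rw [hs, ht] at key
    exact key
  · intro y hy
    rw [← hNb, ← Set.ncard_coe_finset]
    have hy' : y ∈ O Gt a b := by simpa [s] using hy
    obtain ⟨g, hg, rfl⟩ := hy'
    rw [← ncard_smul g (O Gt a c ∩ N Gt a b b)]
    congr 1
    ext z
    simp only [Finset.bipartiteAbove, Finset.coe_filter, Set.mem_setOf_eq, t, Set.Finite.mem_toFinset, Set.mem_image,
      Set.mem_inter_iff]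
    constructor
    · rintro ⟨h1, h2⟩
      refine ⟨g⁻¹ • z, ⟨?_, ?_⟩, smul_inv_smul _ _⟩
      · rw [← O_smul_iff hg, smul_inv_smul]; exact h1
      · rw [← N_smul_iff g, smul_inv_smul]; exact h2
    · rintro ⟨w, ⟨h1, h2⟩, rfl⟩
      exact ⟨(O_smul_iff hg).2 h1, (N_smul_iff g).2 h2⟩
  · intro z hz
    rw [← Set.ncard_coe_finset]
    have hz' : z ∈ O Gt a c := by simpa [t] using hz
    obtain ⟨g, hg, rfl⟩ := hz'
    rw [← ncard_smul g {y | y ∈ O Gt a b ∧ c ∈ N Gt a b y}]
    congr 1
    ext y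
    simp only [Finset.bipartiteBelow, Finset.coe_filter, Set.mem_setOf_eq, s, Set.Finite.mem_toFinset, Set.mem_image]
    constructor
    · rintro ⟨h1, h2⟩
      refine ⟨g⁻¹ • y, ⟨?_, ?_⟩, smul_inv_smul _ _⟩
      · rw [← O_smul_iff hg, smul_inv_smul]; exact h1
      · rw [← N_smul_iff g, smul_inv_smul]; exact h2
    · rintro ⟨w, ⟨h1, h2⟩, rfl⟩
      exact ⟨(O_smul_iff hg).2 h1, (N_smul_iff g).2 h2⟩

theorem cover2 {z : Ω} (hz : z ∈ O Gt a b) : z = b ∨ z ∈ O2 Gt a b d ∨ z ∈ O2 Gt a b f := by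
  have hb2 : O2 Gt a b b = {b} := by
    ext y
    constructor
    · rintro ⟨g, _, h1, h2⟩
      exact h2.symm.trans h1
    · rintro rfl
      exact O2_self _ _ _
  have hbd : b ∉ O2 Gt a b d := by
    intro h
    have h1 := O2_eq h
    have h2 := D.n100
    rw [← h1, hb2, Set.ncard_singleton] at h2
    omega
  have hbf : b ∉ O2 Gt a b f := by
    intro h
    have h1 := O2_eq h
    have h2 := D.n315
    rw [← h1, hb2, Set.ncard_singleton] at h2
    omega
  have hdf : Disjoint (O2 Gt a b d) (O2 Gt a b f) := by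
    rw [Set.disjoint_left]
    intro x h1 h2
    have h3 := (O2_eq h1).symm.trans (O2_eq h2)
    have h4 := D.n100
    rw [h3, D.n315] at h4
    omega
  have h1 : (O2 Gt a b d ∪ O2 Gt a b f).ncard = 415 := by
    rw [Set.ncard_union_eq hdf, D.n100, D.n315]
  have h2 : ({b} ∪ (O2 Gt a b d ∪ O2 Gt a b f)).ncard = 416 := by
    rw [Set.ncard_union_eq, h1, Set.ncard_singleton]
    rw [Set.disjoint_singleton_left]
    rintro (h | h)
    · exact hbd h
    · exact hbf h
  have h3 : ({b} ∪ (O2 Gt a b d ∪ O2 Gt a b f)) = O Gt a b := by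
    apply Set.eq_of_subset_of_ncard_le
    · rintro x (h | h | h)
      · rw [Set.mem_singleton_iff] at h; rw [h]; exact O_self _ _
      · exact O_sub D.hd (O2_le h)
      · exact O_sub D.hf (O2_le h)
    · rw [h2, D.n416]
    · exact Set.toFinite _
  rw [← h3] at hz
  rcases hz with h | h | h
  · exact Or.inl h
  · exact Or.inr (Or.inl h)
  · exact Or.inr (Or.inr h)

theorem O2_N {x y : Ω} (h : y ∈ O2 Gt a b x) (hx : x ∈ N Gt a b b) : y ∈ N Gt a b b := by
  obtain ⟨g, _, h2, rfl⟩ := h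
  have h3 := N_smul g hx
  rwa [h2] at h3

/-- the common neighbours of `a` and `b` -/
theorem common : O Gt a b ∩ N Gt a b b = O2 Gt a b d := by
  obtain ⟨n, hn⟩ := count D
  by_cases hd : d ∈ N Gt a b b
  · by_cases hf : f ∈ N Gt a b b
    · exfalso
      -- imprimitive case
      have h1 : ∀ x ∈ O Gt a b, x ≠ b → x ∈ N Gt a b b := by
        intro x hx hne
        rcases cover2 D hx with h | h | h
        · exact absurd h hne
        · exact O2_N D h hd
        · exact O2_N D h hf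
      have h2 : ∀ x ∈ N Gt a b b, x = a ∨ x ∈ O Gt a b := by
        have h3 : (O Gt a b \ {b}).ncard = 415 := by
          have := Set.ncard_diff_singleton_of_mem (O_self (Gt := Gt) a b)
          rw [D.n416] at this
          exact this
        have h4 : ({a} ∪ (O Gt a b \ {b})).ncard = 416 := by
          rw [Set.ncard_union_eq, h3, Set.ncard_singleton]
          rw [Set.disjoint_singleton_left]
          exact fun h => a_not_b D h.1
        have h5 : ({a} ∪ (O Gt a b \ {b})) = N Gt a b b := by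
          apply Set.eq_of_subset_of_ncard_le
          · rintro x (h | h)
            · rw [Set.mem_singleton_iff] at h
              rw [h]
              exact N_symm D (show b ∈ N Gt a b a from O_self a b)
            · exact h1 x h.1 h.2
          · rw [h4, N_card D]
          · exact Set.toFinite _
        intro x hx
        rw [← h5] at hx
        rcases hx with h | h
        · exact Or.inl h
        · exact Or.inr h.1
      have h3 : ∀ s : Gt, s • a = b → s • b = a → ∀ x, (x = a ∨ x ∈ O Gt a b) → (s • x = a ∨ s • x ∈ O Gt a b) := by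
        rintro s hs1 hs2 x (rfl | hx)
        · rw [hs1]; exact Or.inr (O_self _ _)
        · have h4 := N_smul s (show x ∈ N Gt a b a from hx)
          rw [hs1] at h4
          exact h2 _ h4
      obtain ⟨s, hs1, hs2⟩ := swap D
      have h4 : ∀ g : Gt, g • a = a → ∀ x, (x = a ∨ x ∈ O Gt a b) → (g • x = a ∨ g • x ∈ O Gt a b) := by
        rintro g hg x (rfl | hx)
        · exact Or.inl hg
        · exact Or.inr ((O_smul_iff hg).2 hx)
      let W : Subgroup Gt :=
        { carrier := {g | ∀ x, (x = a ∨ x ∈ O Gt a b) ↔ (g • x = a ∨ g • x ∈ O Gt a b)}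
          one_mem' := by intro x; rw [one_smul]
          mul_mem' := by
            intro g k hg hk x
            rw [mul_smul]
            exact (hk x).trans (hg _)
          inv_mem' := by
            intro g hg x
            have := hg (g⁻¹ • x)
            rw [smul_inv_smul] at this
            exact this.symm }
      have hAW : MulAction.stabilizer Gt a ≤ W := by
        intro g hg x
        refine ⟨h4 g hg x, fun h => ?_⟩
        have := h4 g⁻¹ (inv_smul_eq_iff.2 (MulAction.mem_stabilizer_iff.1 hg).symm) _ h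
        rwa [inv_smul_smul] at this
      have hsW : s ∈ W := by
        intro x
        refine ⟨h3 s hs1 hs2 x, fun h => ?_⟩
        have := h3 s⁻¹ (inv_smul_eq_iff.2 hs2.symm) (inv_smul_eq_iff.2 hs1.symm) _ h
        rwa [inv_smul_smul] at this
      have hW : W = ⊤ := by
        apply (coatom D).2
        refine lt_of_le_of_ne hAW ?_
        intro h
        rw [← h] at hsW
        exact b_ne D (hs1.symm.trans hsW)
      obtain ⟨g, hg⟩ := D.tr a c
      have hgW : g ∈ W := by rw [hW]; trivial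
      have h5 := (hgW a).1 (Or.inl rfl)
      rw [hg] at h5
      rcases h5 with h5 | h5
      · exact c_ne D h5
      · exact disj_bc D h5 (O_self _ _)
    · ext x
      constructor
      · rintro ⟨h1, h2⟩
        rcases cover2 D h1 with h | h | h
        · rw [h] at h2; exact absurd h2 (N_irr D b)
        · exact h
        · exact absurd (O2_N D (O2_symm h) h2) hf
      · intro h
        exact ⟨O_sub D.hd (O2_le h), O2_N D h hd⟩
  · exfalso
    by_cases hf : f ∈ N Gt a b b
    · have h1 : O Gt a b ∩ N Gt a b b = O2 Gt a b f := by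
        ext x
        constructor
        · rintro ⟨h1, h2⟩
          rcases cover2 D h1 with h | h | h
          · rw [h] at h2; exact absurd h2 (N_irr D b)
          · exact absurd (O2_N D (O2_symm h) h2) hd
          · exact h
        · intro h
          exact ⟨O_sub D.hf (O2_le h), O2_N D h hf⟩
      rw [h1, D.n315] at hn
      omega
    · have h1 : O Gt a b ∩ N Gt a b b = ∅ := by
        rw [Set.eq_empty_iff_forall_notMem]
        rintro x ⟨h1, h2⟩
        rcases cover2 D h1 with h | h | h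
        · rw [h] at h2; exact absurd h2 (N_irr D b)
        · exact absurd (O2_N D (O2_symm h) h2) hd
        · exact absurd (O2_N D (O2_symm h) h2) hf
      rw [h1, Set.ncard_empty] at hn
      omega

/-- **the element of order three** -/
theorem exists_t : ∃ t : Gt, t • a = b ∧ t • b = d ∧ t • d = a := by
  have hc := common D
  have hd : d ∈ N Gt a b b := by
    have h : d ∈ O2 Gt a b d := O2_self _ _ _
    rw [← hc] at h
    exact h.2
  have hab : a ∈ N Gt a b b := N_symm D (show b ∈ N Gt a b a from O_self a b)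
  have had : a ∈ N Gt a b d := N_symm D (show d ∈ N Gt a b a from D.hd)
  obtain ⟨g1, h1, h2⟩ := hd
  have h3 : g1⁻¹ • a ∈ O Gt a b ∩ N Gt a b b := by
    constructor
    · rw [← N_a, ← N_smul_iff g1, smul_inv_smul, h1]; exact hab
    · rw [← N_smul_iff g1, smul_inv_smul, h2]; exact had
  rw [hc] at h3
  obtain ⟨u, hu1, hu2, hu3⟩ := h3
  refine ⟨g1 * u, ?_, ?_, ?_⟩
  · rw [mul_smul, hu1, h1]
  · rw [mul_smul, hu2, h2]
  · rw [mul_smul, hu3, smul_inv_smul]

end main

end H17.RS3
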