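import Cfsg.Agent.Lib.H17.RSF
import Cfsg.Agent.Lib.H17.RSG
import Cfsg.Agent.Lib.H17.TCSV

/-!
# The relations in the amalgam
-/

set_option autoImplicit false
set_option linter.all false

namespace H17.RS

open H35.TC H35.Net Cfsg.Spor
open H35.SuzMain (φ gP hφ H0 H1 H2 i1 i2 card_inj hpP heP)
open H17.G24J (H2_le_H1 card_H1 card_H2 S2)

/-! ### generated group of a compatible pair -/

/-- the involution as element of `H1` -/
noncomputable def hH : H1 := ⟨hS, hS_mem⟩

theorem hH_sq : hH * hH = 1 := Subtype.ext hS_sq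

/-- the letters of `H1` -/
noncomputable def gH (x : H35.TCSuzB.Lt) : H1 := ⟨gP (i1 x), Subgroup.subset_closure ⟨x, rfl⟩⟩

theorem gH_word (w : List H35.TCSuzB.Lt) : (((w.map gH).prod : H1) : Suz) = (w.map fun x => gP (i1 x)).prod := by
  induction w with
  | nil => rfl
  | cons x w ih => rw [List.map_cons, List.prod_cons, Subgroup.coe_mul, ih]; rfl

theorem gH_hp : ∀ x y, (gH x * gH y) ^ H35.TCSuzB.mm x y = 1 := by
  intro x y
  apply Subtype.ext
  exact transfer_hp hpP i1 (by intro x y; cases x <;> cases y <;> decide) x y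

theorem gH_he : ∀ p ∈ H35.TCSuzB.extra, ((p.1.map gH).prod) ^ p.2 = 1 := by
  intro p hp
  apply Subtype.ext
  rw [Subgroup.coe_pow, gH_word]
  exact transfer_he heP i1 (by decide) p hp

theorem hH_eq : hH = gH .f * (gH .b * (gH .c * (gH .d * (gH .c * (gH .b * gH .f))))) := by
  apply Subtype.ext
  change (hW.map gP).prod = _
  simp only [hW, List.map_cons, List.map_nil, List.prod_cons, List.prod_nil, mul_one]
  rfl

/-- the letters -/
noncomputable def gV {X : Type} [Group X] (D : H1 →* X) (T : X) : H17.TCSV.Lt → X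
  | .a => D (gH .a)
  | .b => D (gH .b)
  | .c => D (gH .c)
  | .d => D (gH .d)
  | .e => D (gH .e)
  | .f => D (gH .f)
  | .v => D hH * T

/-- letters -/
def κ : H35.TCSuzB.Lt → H17.TCSV.Lt
  | .a => .a
  | .b => .b
  | .c => .c
  | .d => .d
  | .e => .e
  | .f => .f

theorem gV_κ {X : Type} [Group X] (D : H1 →* X) (T : X) (x : H35.TCSuzB.Lt) : gV D T (κ x) = D (gH x) := by
  cases x <;> rfl

theorem kH_mem (w : List H35.TCSuzA.Lt) (hw : ∀ x ∈ w, x ≠ .g) : wd w ∈ H1 := H17.G24J.word_H1 w hw

/-- **bound** for the group generated by a copy of `H1` and a compatible element `T` -/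
theorem bound {X : Type} [Group X] (D : H1 →* X) (T : X)
    (hT : T ^ 3 = 1) (hh : (D hH * T) ^ 2 = 1)
    (hc : ∀ x y : H1, φ (x : Suz) 137 = 137 → (y : Suz) = tS * x * tS⁻¹ → T * D x * T⁻¹ = D y) :
    Nat.card (Subgroup.closure (Set.range (gV D T))) ≤ 5346 * 251596800 ∧
      Nat.card (Subgroup.closure (Set.range (gV D T))) ≠ 0 ∧
      D.range ≤ Subgroup.closure (Set.range (gV D T)) ∧ D hH * T ∈ Subgroup.closure (Set.range (gV D T)) := by
  have hB : ∀ x y, (D (gH x) * D (gH y)) ^ H35.TCSuzB.mm x y = 1 := by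
    intro x y
    rw [← map_mul, ← map_pow, gH_hp, map_one]
  have hE : ∀ p ∈ H35.TCSuzB.extra, ((p.1.map fun x => D (gH x)).prod) ^ p.2 = 1 := by
    intro p hp
    have e : (p.1.map fun x => D (gH x)).prod = D ((p.1.map gH).prod) := by
      rw [map_list_prod, List.map_map]; rfl
    rw [e, ← map_pow, gH_he p hp, map_one]
  have hsq : ∀ x, D (gH x) * D (gH x) = 1 := by
    intro x
    have h := hB x x
    cases x <;> simpa [H35.TCSuzB.mm] using h
  have hVV : (D hH * T) * (D hH * T) = 1 := by rw [← pow_two]; exact hh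
  have hDh : D hH * D hH = 1 := by rw [← map_mul, hH_sq, map_one]
  have hinv : ∀ x, gV D T (H17.TCSV.inv x) = (gV D T x)⁻¹ := by
    intro x
    cases x
    · exact (inv_eq_of_mul_eq_one_left (hsq .a)).symm
    · exact (inv_eq_of_mul_eq_one_left (hsq .b)).symm
    · exact (inv_eq_of_mul_eq_one_left (hsq .c)).symm
    · exact (inv_eq_of_mul_eq_one_left (hsq .d)).symm
    · exact (inv_eq_of_mul_eq_one_left (hsq .e)).symm
    · exact (inv_eq_of_mul_eq_one_left (hsq .f)).symm
    · exact (inv_eq_of_mul_eq_one_left hVV).symm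
  have hp : ∀ x y, (gV D T x * gV D T y) ^ H17.TCSV.mm x y = 1 := by
    intro x y
    cases x <;> cases y <;> first
      | exact pow_zero _
      | exact hB _ _
      | exact (pow_one _).trans hVV
  have hDf : D hH = D (gH .f) * (D (gH .b) * (D (gH .c) * (D (gH .d) * (D (gH .c) * (D (gH .b) * D (gH .f)))))) := by
    rw [hH_eq]; simp only [map_mul]
  -- conjugation relations
  have rel : ∀ x y : H1, φ (x : Suz) 137 = 137 → (y : Suz) = tS * x * tS⁻¹ →
      (D hH * T) * (D x * ((D hH * T) * (D hH * ((D y)⁻¹ * D hH)))) = 1 := by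
    intro x y hx hy
    have h1 := hc x y hx hy
    have h2 : D hH * T = T⁻¹ * D hH := by
      have : D hH * T = (D hH * T)⁻¹ := eq_inv_of_mul_eq_one_left hVV
      rw [mul_inv_rev, inv_eq_of_mul_eq_one_left hDh] at this
      exact this
    calc (D hH * T) * (D x * ((D hH * T) * (D hH * ((D y)⁻¹ * D hH))))
        = D hH * (T * D x * T⁻¹) * (D hH * D hH) * (D y)⁻¹ * D hH := by
          conv_lhs => rw [show D x * ((D hH * T) * (D hH * ((D y)⁻¹ * D hH))) =
            D x * ((T⁻¹ * D hH) * (D hH * ((D y)⁻¹ * D hH))) by rw [← h2]]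
          simp only [mul_assoc]
      _ = 1 := by rw [h1, hDh, mul_one, mul_assoc (D hH), mul_inv_cancel, mul_one, hDh]
  have ty : ∀ w : List H35.TCSuzA.Lt, tS * wd w = wd w * tS → wd w = tS * wd w * tS⁻¹ := by
    intro w h
    rw [h, mul_inv_cancel_right]
  have tc : ∀ w : List H35.TCSuzA.Lt, ∀ x : H1, (x : Suz) = wd w → wd w ∈ U → (x : Suz) = tS * x * tS⁻¹ := by
    intro w x hx hu
    rw [hx, tS_comm _ hu, mul_inv_cancel_right]
  have hbU : wd [.b] ∈ U := by
    refine ⟨?_, smulw dc_0, smulw db_0⟩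
    exact mem_H1_iff.1 (kH_mem _ (by simp))
  have hcU : wd [.c] ∈ U := by
    refine ⟨?_, smulw dc_1, smulw db_1⟩
    exact mem_H1_iff.1 (kH_mem _ (by simp))
  have hdU : wd [.d, .c, .b, .a] ∈ U := by
    refine ⟨?_, smulw dc_2, smulw db_2⟩
    exact mem_H1_iff.1 (kH_mem _ (by simp))
  have eb : ((gH .b : H1) : Suz) = wd [.b] := by rw [wd_cons, wd_nil, mul_one]; rfl
  have ec : ((gH .c : H1) : Suz) = wd [.c] := by rw [wd_cons, wd_nil, mul_one]; rfl
  have ed : (((gH .d * (gH .c * (gH .b * gH .a)) : H1)) : Suz) = wd [.d, .c, .b, .a] := by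
    simp only [wd, List.map_cons, List.map_nil, List.prod_cons, List.prod_nil, mul_one]; rfl
  have ek : (((gH .f * (gH .e * (gH .b * (gH .c * (gH .d * (gH .c * (gH .b * (gH .f * gH .e))))))) : H1)) : Suz) =
      kS := by
    simp only [kS, kW, wd, List.map_cons, List.map_nil, List.prod_cons, List.prod_nil, mul_one]; rfl
  have r1 := rel (gH .b) (gH .b) (by rw [eb]; exact hbU.2.2) (tc _ _ eb hbU)
  have r2 := rel (gH .c) (gH .c) (by rw [ec]; exact hcU.2.2) (tc _ _ ec hcU)
  have r3 := rel _ _ (by rw [ed]; exact hdU.2.2) (tc _ _ ed hdU)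
  have r4 := rel (gH .f * (gH .e * (gH .b * (gH .c * (gH .d * (gH .c * (gH .b * (gH .f * gH .e)))))))) (gH .e)
    (by rw [ek]; exact kS_137) (by rw [ek, tk]; rfl)
  have iv : ∀ x, (D (gH x))⁻¹ = D (gH x) := fun x => inv_eq_of_mul_eq_one_left (hsq x)
  have he : ∀ p ∈ H17.TCSV.extra, ((p.1.map (gV D T)).prod) ^ p.2 = 1 := by
    intro p hp
    simp only [H17.TCSV.extra, List.mem_cons, List.mem_nil_iff, or_false] at hp
    rcases hp with rfl | rfl | rfl | rfl | rfl | rfl | rfl | rfl
    · exact hE ([.a, .d, .c, .d, .c, .d, .c, .d, .c], 1) (by simp [H35.TCSuzB.extra])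
    · rw [iv, hDf] at r1
      simp only [List.map_cons, List.map_nil, List.prod_cons, List.prod_nil, mul_one, pow_one, gV, hDf]
      simp only [mul_assoc] at r1 ⊢
      exact r1
    · rw [iv, hDf] at r2
      simp only [List.map_cons, List.map_nil, List.prod_cons, List.prod_nil, mul_one, pow_one, gV, hDf]
      simp only [mul_assoc] at r2 ⊢
      exact r2
    · exact hE ([.a, .b, .c, .f], 5) (by simp [H35.TCSuzB.extra])
    · have e : ((([.f, .b, .c, .d, .c, .b, .f, .v] : List H17.TCSV.Lt).map (gV D T)).prod) = T := by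
        simp only [List.map_cons, List.map_nil, List.prod_cons, List.prod_nil, mul_one, gV]
        have h := hDh
        have h2 : D hH * (D hH * T) = T := by rw [← mul_assoc, hDh, one_mul]
        conv_rhs => rw [← h2]
        conv_rhs => rw [hDf]
        conv_lhs => rw [hDf]
        simp only [mul_assoc]
      exact (congrArg (fun z => z ^ 3) e).trans hT
    · rw [hDf] at r3
      simp only [map_mul, mul_inv_rev, iv] at r3
      simp only [List.map_cons, List.map_nil, List.prod_cons, List.prod_nil, mul_one, pow_one, gV, hDf]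
      simp only [mul_assoc] at r3 ⊢
      exact r3
    · rw [hDf, iv] at r4
      simp only [map_mul] at r4
      simp only [List.map_cons, List.map_nil, List.prod_cons, List.prod_nil, mul_one, pow_one, gV, hDf]
      simp only [mul_assoc] at r4 ⊢
      exact r4
    · exact hE ([.b, .c, .d, .c, .d, .b, .c, .d, .c, .d, .b, .c, .d, .c, .d, .b, .c, .d, .c, .d, .b, .c, .d, .c, .d, .e], 3)
        (by simp [H35.TCSuzB.extra])
  have hmain := H17.TCSV.main (g := gV D T) (H := D.range) hinv hp he (by
    intro r hr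
    simp only [H17.TCSV.subs, List.mem_cons, List.mem_nil_iff, or_false] at hr
    rcases hr with rfl | rfl | rfl | rfl | rfl | rfl
    · simp only [List.map_cons, List.map_nil, List.prod_cons, List.prod_nil, mul_one]
      exact ⟨_, rfl⟩
    · simp only [List.map_cons, List.map_nil, List.prod_cons, List.prod_nil, mul_one]
      exact ⟨_, rfl⟩
    · simp only [List.map_cons, List.map_nil, List.prod_cons, List.prod_nil, mul_one]
      exact ⟨_, rfl⟩
    · simp only [List.map_cons, List.map_nil, List.prod_cons, List.prod_nil, mul_one]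
      exact ⟨_, rfl⟩
    · simp only [List.map_cons, List.map_nil, List.prod_cons, List.prod_nil, mul_one]
      exact ⟨_, rfl⟩
    · simp only [List.map_cons, List.map_nil, List.prod_cons, List.prod_nil, mul_one]
      exact ⟨_, rfl⟩)
  have hle : D.range ≤ Subgroup.closure (Set.range (gV D T)) := by
    have h1 : H1 ≤ ((Subgroup.closure (Set.range (gV D T))).comap D).map H1.subtype := by
      conv_lhs => unfold H35.SuzMain.H1
      rw [Subgroup.closure_le]
      rintro _ ⟨x, rfl⟩
      refine ⟨gH x, ?_, rfl⟩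
      change D (gH x) ∈ Subgroup.closure (Set.range (gV D T))
      exact Subgroup.subset_closure ⟨κ x, gV_κ D T x⟩
    rintro _ ⟨h, rfl⟩
    obtain ⟨h', hh', e⟩ := h1 h.2
    have e2 : h' = h := Subtype.ext e
    rw [← e2]
    exact hh'
  have hfin : Finite H1 := Nat.finite_of_card_ne_zero (by rw [card_H1]; norm_num)
  have hcard : Nat.card D.range ≤ 251596800 ∧ Nat.card D.range ≠ 0 := by
    have : Finite D.range := Finite.of_surjective _ D.rangeRestrict_surjective
    refine ⟨?_, Nat.card_pos.ne'⟩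
    rw [← card_H1]
    exact Nat.card_le_card_of_surjective _ D.rangeRestrict_surjective
  have h2 := card_le_step hle hmain hcard
  exact ⟨h2.1, h2.2, hle, Subgroup.subset_closure ⟨.v, rfl⟩⟩

end H17.RS
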