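import Cfsg.Agent.Lib.H17.RSH

/-!
# The rank three characterisation of `Suz`
-/

set_option autoImplicit false
set_option linter.all false

namespace H17.RS

open H35.TC H35.Net Cfsg.Spor
open H35.SuzMain (φ gP hφ H0 H1 H2 i1 i2 card_inj hpP heP)
open H17.G24J (H2_le_H1 card_H1 card_H2 S2 mU mQ0 mQ1 w5_mem w6_mem)

theorem auto_of {H X : Type*} [Group H] [Finite H] [Group X] (F G : H →* X) (hF : Function.Injective F)
    (hG : Function.Injective G) (h : ∀ y, ∃ z, F z = G y) : ∃ α : MulAut H, ∀ y, F (α y) = G y := by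
  choose f hf using h
  let α : H →* H := MonoidHom.mk' f (by intro x y; apply hF; rw [hf, map_mul, map_mul, hf, hf])
  have hα : Function.Injective α := by
    intro x y hxy
    apply hG
    rw [← hf, ← hf]
    exact congrArg F hxy
  exact ⟨MulEquiv.ofBijective α (Finite.injective_iff_bijective.1 hα), hf⟩

section

variable {Gt : Type} [Group Gt] {Ω : Type*} [MulAction Gt Ω]

/-- `H1` as a point stabiliser -/
structure Emb (Ψ : H1 →* Gt) (a b : Ω) : Prop where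
  inj : Function.Injective Ψ
  fix : ∀ h, Ψ h • a = a
  ran : ∀ g : Gt, g • a = a → ∃ h : H1, Ψ h = g
  hb : ∀ h : H1, Ψ h • b = b ↔ φ (h : Suz) 1781 = 1781

variable {Ψ : H1 →* Gt} {a b : Ω}

theorem fix_k (E : Emb Ψ a b) (k h : H1) :
    Ψ h • (Ψ k • b) = Ψ k • b ↔ φ (h : Suz) (φ (k : Suz) 1781) = φ (k : Suz) 1781 := by
  have h1 := E.hb (k⁻¹ * h * k)
  rw [map_mul, map_mul, map_inv, mul_smul, mul_smul, inv_smul_eq_iff] at h1
  rw [h1, Subgroup.coe_mul, Subgroup.coe_mul, Subgroup.coe_inv, φ_mul, φ_mul]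
  constructor
  · intro h2
    have h3 := congrArg (φ (k : Suz)) h2
    rwa [← φ_mul, mul_inv_cancel, map_one] at h3
  · intro h2
    rw [h2, ← φ_mul, inv_mul_cancel, map_one]
    rfl

theorem link {z : Ω} {p : ℕ} (hz : ∀ h : H1, Ψ h • z = z ↔ φ (h : Suz) p = p) (h h' : H1) :
    Ψ h • z = Ψ h' • z ↔ φ (h : Suz) p = φ (h' : Suz) p := by
  have h1 := hz (h'⁻¹ * h)
  rw [map_mul, map_inv, mul_smul, inv_smul_eq_iff] at h1
  rw [h1, Subgroup.coe_mul, Subgroup.coe_inv, φ_mul]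
  constructor
  · intro h2
    have h3 := congrArg (φ (h' : Suz)) h2
    rwa [← φ_mul, mul_inv_cancel, map_one] at h3
  · intro h2
    rw [h2, ← φ_mul, inv_mul_cancel, map_one]
    rfl

theorem ncard_O2 (E : Emb Ψ a b) {z : Ω} {p : ℕ} (hz : ∀ h : H1, Ψ h • z = z ↔ φ (h : Suz) p = p) :
    (H17.RS3.O2 Gt a b z).ncard = {q : ℕ | ∃ h : H1, φ (h : Suz) 1781 = 1781 ∧ φ (h : Suz) p = q}.ncard := by
  have e : H17.RS3.O2 Gt a b z = {y | ∃ h : H1, φ (h : Suz) 1781 = 1781 ∧ Ψ h • z = y} := by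
    ext y
    constructor
    · rintro ⟨g, h1, h2, rfl⟩
      obtain ⟨h, rfl⟩ := E.ran g h1
      exact ⟨h, (E.hb h).1 h2, rfl⟩
    · rintro ⟨h, h1, rfl⟩
      exact ⟨Ψ h, E.fix h, (E.hb h).2 h1, rfl⟩
  rw [e]
  refine Set.ncard_congr (fun y hy => φ ((hy.choose : H1) : Suz) p) ?_ ?_ ?_
  · intro y hy
    exact ⟨hy.choose, hy.choose_spec.1, rfl⟩
  · intro y y' hy hy' h
    rw [← hy.choose_spec.2, ← hy'.choose_spec.2]
    exact (link hz _ _).2 h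
  · rintro q ⟨h, h1, rfl⟩
    have hy : Ψ h • z ∈ {y | ∃ h : H1, φ (h : Suz) 1781 = 1781 ∧ Ψ h • z = y} := ⟨h, h1, rfl⟩
    exact ⟨Ψ h • z, hy, (link hz _ _).1 hy.choose_spec.2⟩

theorem set_Q0 : {q : ℕ | ∃ h : H1, φ (h : Suz) 1781 = 1781 ∧ φ (h : Suz) 137 = q}.ncard = 100 := by
  have e : {q : ℕ | ∃ h : H1, φ (h : Suz) 1781 = 1781 ∧ φ (h : Suz) 137 = q} = {q : ℕ | mQ0.testBit q = true} := by
    ext q
    constructor
    · rintro ⟨h, h1, rfl⟩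
      have h2 : (h : Suz) ∈ H2 := mem_H2_iff.2 ⟨mem_H1_iff.1 h.2, h1⟩
      change mQ0.testBit (φ (h : Suz) 137) = true
      rw [H17.G24J.closed2 H17.G24J.c_Q0 _ h2]
      exact (H17.G24J.mQ0_iff _).2 (Or.inl rfl)
    · intro hq
      obtain ⟨g, hg, hgq⟩ := H17.G24J.orb w5_mem H17.G24J.r_Q0 q hq
      exact ⟨⟨g, H2_le_H1 hg⟩, (H17.G24J.H2_fix g hg).1, hgq⟩
  rw [e, H17.G24J.ncard_mask (H17.G24J.lt_of_chk H17.G24J.l_Q0), H17.G24J.p_Q0]

theorem set_Q1 : {q : ℕ | ∃ h : H1, φ (h : Suz) 1781 = 1781 ∧ φ (h : Suz) 138 = q}.ncard = 315 := by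
  have e : {q : ℕ | ∃ h : H1, φ (h : Suz) 1781 = 1781 ∧ φ (h : Suz) 138 = q} = {q : ℕ | mQ1.testBit q = true} := by
    ext q
    constructor
    · rintro ⟨h, h1, rfl⟩
      have h2 : (h : Suz) ∈ H2 := mem_H2_iff.2 ⟨mem_H1_iff.1 h.2, h1⟩
      change mQ1.testBit (φ (h : Suz) 138) = true
      rw [H17.G24J.closed2 H17.G24J.c_Q1 _ h2]
      exact (H17.G24J.mQ1_iff _).2 (Or.inl rfl)
    · intro hq
      obtain ⟨g, hg, hgq⟩ := H17.G24J.orb w5_mem H17.G24J.r_Q1 q hq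
      exact ⟨⟨g, H2_le_H1 hg⟩, (H17.G24J.H2_fix g hg).1, hgq⟩
  rw [e, H17.G24J.ncard_mask (H17.G24J.lt_of_chk H17.G24J.l_Q1), H17.G24J.p_Q1]

theorem hH_1 : φ (hH : Suz) 1781 = 137 := hS_1
theorem hH_2 : φ (hH : Suz) 137 = 1781 := hS_2

theorem fix_d (E : Emb Ψ a b) (h : H1) : Ψ h • (Ψ hH • b) = Ψ hH • b ↔ φ (h : Suz) 137 = 137 := by
  have := fix_k E hH h
  rwa [hH_1] at this

/-- elements fixing the triangle -/
theorem fix3 (E : Emb Ψ a b) {g : Gt} (h1 : g • a = a) (h2 : g • b = b) (h3 : g • (Ψ hH • b) = Ψ hH • b) :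
    ∃ u : H1, (u : Suz) ∈ U ∧ Ψ u = g := by
  obtain ⟨u, rfl⟩ := E.ran g h1
  exact ⟨u, ⟨mem_H1_iff.1 u.2, (E.hb u).1 h2, (fix_d E u).1 h3⟩, rfl⟩

theorem cent_one {u : H1} (h : ∀ x : H1, (x : Suz) ∈ U → u * x = x * u) : u = 1 := by
  apply Subtype.ext
  apply cent_U (mem_H1_iff.1 u.2)
  intro g hg
  exact congrArg Subtype.val (h ⟨g, mem_H1_iff.2 hg.1⟩ hg)

theorem hU {x : H1} (hx : (x : Suz) ∈ U) : ((hH * x * hH : H1) : Suz) ∈ U := by
  have h0 : φ (hH : Suz) 0 = 0 := hS_0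
  refine ⟨?_, ?_, ?_⟩
  · rw [Subgroup.coe_mul, Subgroup.coe_mul, φ_mul, φ_mul, h0, hx.1, h0]
  · rw [Subgroup.coe_mul, Subgroup.coe_mul, φ_mul, φ_mul, hH_1, hx.2.2, hH_2]
  · rw [Subgroup.coe_mul, Subgroup.coe_mul, φ_mul, φ_mul, hH_2, hx.2.1, hH_1]

theorem exists_t' (E : Emb Ψ a b) {t : Gt} (h1 : t • a = b) (h2 : t • b = Ψ hH • b) (h3 : t • (Ψ hH • b) = a) :
    ∃ t' : Gt, t' ^ 3 = 1 ∧ (Ψ hH * t') ^ 2 = 1 ∧ t' • a = b ∧
      ∀ x y : H1, φ (x : Suz) 137 = 137 → (y : Suz) = tS * x * tS⁻¹ → t' * Ψ x * t'⁻¹ = Ψ y := by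
  have hfinS := H35.SuzMain.fin
  have i1 : t⁻¹ • b = a := inv_smul_eq_iff.2 h1.symm
  have i2 : t⁻¹ • (Ψ hH • b) = b := inv_smul_eq_iff.2 h2.symm
  have i3 : t⁻¹ • a = Ψ hH • b := inv_smul_eq_iff.2 h3.symm
  have hhb : Ψ hH • (Ψ hH • b) = b := by
    rw [← mul_smul, ← map_mul, hH_sq, map_one, one_smul]
  -- the conjugation map of `H2`
  let cj : H2 →* H1 := ((MulAut.conj tS⁻¹).toMonoidHom.comp H2.subtype).codRestrict H1 (by
    intro y
    rw [mem_H1_iff]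
    change φ (tS⁻¹ * (y : Suz) * tS⁻¹⁻¹) 0 = 0
    rw [inv_inv, φ_mul, φ_mul, tS_0, (mem_H2_iff.1 y.2).2]
    exact φ_inv tS tS_0)
  have hcj : ∀ y : H2, ((cj y : H1) : Suz) = tS⁻¹ * y * tS := by
    intro y
    change tS⁻¹ * (y : Suz) * tS⁻¹⁻¹ = _
    rw [inv_inv]
  have hcji : Function.Injective cj := by
    intro y y' h
    have h' := congrArg (fun z : H1 => (z : Suz)) h
    simp only [hcj] at h'
    exact Subtype.ext (mul_left_cancel (mul_right_cancel h'))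
  have hcj137 : ∀ y : H2, φ ((cj y : H1) : Suz) 137 = 137 := by
    intro y
    rw [hcj, φ_mul, φ_mul, tS_2, (mem_H2_iff.1 y.2).1]
    exact φ_inv tS tS_2
  let F1 : H2 →* Gt := Ψ.comp (Subgroup.inclusion H2_le_H1)
  let G1 : H2 →* Gt := (MulAut.conj t).toMonoidHom.comp (Ψ.comp cj)
  have hG1 : ∀ y, G1 y = t * Ψ (cj y) * t⁻¹ := fun y => rfl
  obtain ⟨α, hα⟩ := auto_of F1 G1 (E.inj.comp (Subgroup.inclusion_injective H2_le_H1))
    ((MulAut.conj t).injective.comp (E.inj.comp hcji)) (by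
      intro y
      have e1 : G1 y • a = a := by
        rw [hG1, mul_smul, mul_smul, i3, (fix_d E _).2 (hcj137 y), h3]
      have e2 : G1 y • b = b := by
        rw [hG1, mul_smul, mul_smul, i1, E.fix, h1]
      obtain ⟨h, hh⟩ := E.ran _ e1
      rw [← hh] at e2
      exact ⟨⟨h, mem_H2_iff.2 ⟨mem_H1_iff.1 h.2, (E.hb h).1 e2⟩⟩, hh⟩)
  let G2 : H2 →* Suz := (MulAut.conj (hS * tS⁻¹)).toMonoidHom.comp H2.subtype
  have hG2 : ∀ y : H2, G2 y = hS * tS⁻¹ * y * (hS * tS⁻¹)⁻¹ := fun y => rfl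
  have hhi : φ hS⁻¹ 0 = 0 := φ_inv hS hS_0
  have hhi1 : φ hS⁻¹ 1781 = 137 := φ_inv hS hS_2
  obtain ⟨β, hβ⟩ := auto_of H2.subtype G2 H2.subtype_injective
    ((MulAut.conj (hS * tS⁻¹)).injective.comp H2.subtype_injective) (by
      intro y
      refine ⟨⟨G2 y, mem_H2_iff.2 ⟨?_, ?_⟩⟩, rfl⟩
      · rw [hG2, mul_inv_rev, inv_inv, φ_mul, φ_mul, φ_mul, φ_mul, hhi, tS_0, (mem_H2_iff.1 y.2).2,
          φ_inv tS tS_0, hS_0]
      · rw [hG2, mul_inv_rev, inv_inv, φ_mul, φ_mul, φ_mul, φ_mul, hhi1, tS_2, (mem_H2_iff.1 y.2).1,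
          φ_inv tS tS_2, hS_2])
  have hU2 : ∀ g ∈ U, g ∈ H2 := fun g hg => mem_H2_iff.2 ⟨hg.1, hg.2.1⟩
  have hβn : ∀ j : H2, β ≠ MulAut.conj j := by
    intro j hj
    have h4 : ((j : Suz)⁻¹ * hS) = 1 := by
      apply cent_U
      · rw [φ_mul, hS_0]
        exact φ_inv _ (mem_H2_iff.1 j.2).1
      · intro g hg
        have h5 := hβ ⟨g, hU2 g hg⟩
        rw [hj, hG2] at h5
        change (j : Suz) * g * (j : Suz)⁻¹ = hS * tS⁻¹ * g * (hS * tS⁻¹)⁻¹ at h5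
        have h6 : tS⁻¹ * g * tS = g := by
          rw [mul_assoc, ← tS_comm g hg, inv_mul_cancel_left]
        have h7 : hS * tS⁻¹ * g * (hS * tS⁻¹)⁻¹ = hS * g * hS⁻¹ := by
          calc hS * tS⁻¹ * g * (hS * tS⁻¹)⁻¹ = hS * (tS⁻¹ * g * tS) * hS⁻¹ := by group
            _ = _ := by rw [h6]
        rw [h7] at h5
        calc (j : Suz)⁻¹ * hS * g = (j : Suz)⁻¹ * (hS * g * hS⁻¹) * hS := by group
          _ = (j : Suz)⁻¹ * ((j : Suz) * g * (j : Suz)⁻¹) * hS := by rw [h5]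
          _ = g * ((j : Suz)⁻¹ * hS) := by group
    have h5 : (j : Suz) = hS := (inv_mul_eq_one.1 h4)
    have h6 := (mem_H2_iff.1 j.2).2
    rw [h5, hS_1] at h6
    omega
  -- `t` permutes the conjugates of elements of `U`
  have hUc : ∀ g : H1, (g : Suz) ∈ U → ∃ g' : H1, (g' : Suz) ∈ U ∧ t * Ψ g' * t⁻¹ = Ψ g := by
    intro g hg
    have e0 : Ψ g • b = b := (E.hb g).2 hg.2.1
    have e1 : Ψ g • (Ψ hH • b) = Ψ hH • b := (fix_d E g).2 hg.2.2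
    obtain ⟨u, hu, hu2⟩ := fix3 E (g := t⁻¹ * Ψ g * t)
      (by rw [mul_smul, mul_smul, h1, e0, i1])
      (by rw [mul_smul, mul_smul, h2, e1, i2])
      (by rw [mul_smul, mul_smul, h3, E.fix, i3])
    refine ⟨u, hu, ?_⟩
    rw [hu2]
    group
  have hUd : ∀ g : H1, (g : Suz) ∈ U → ∃ g' : H1, (g' : Suz) ∈ U ∧ t * Ψ g * t⁻¹ = Ψ g' := by
    intro g hg
    have e0 : Ψ g • b = b := (E.hb g).2 hg.2.1
    have e1 : Ψ g • (Ψ hH • b) = Ψ hH • b := (fix_d E g).2 hg.2.2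
    obtain ⟨u, hu, hu2⟩ := fix3 E (g := t * Ψ g * t⁻¹)
      (by rw [mul_smul, mul_smul, i3, e1, h3])
      (by rw [mul_smul, mul_smul, i1, E.fix, h1])
      (by rw [mul_smul, mul_smul, i2, e0, h2])
    exact ⟨u, hu, hu2.symm⟩
  have fixj : ∀ j : H1, φ (j : Suz) 1781 = 1781 → (∀ g : H1, (g : Suz) ∈ U → ∃ g' : H1, (g' : Suz) ∈ U ∧ j * g' = g * j) →
      φ (j : Suz) 137 = 137 := by
    intro j hj1 hj
    apply norm_U (mem_H1_iff.1 j.2) hj1
    intro g hg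
    obtain ⟨g', hg', e⟩ := hj ⟨g, mem_H1_iff.2 hg.1⟩ hg
    exact ⟨g', hg', congrArg Subtype.val e⟩
  -- relation for `x` fixing 137
  have pull : ∀ x y : H1, φ (x : Suz) 137 = 137 → (y : Suz) = tS * x * tS⁻¹ → ∃ hy : (y : Suz) ∈ H2, cj ⟨y, hy⟩ = x := by
    intro x y hx hy
    have hy2 : (y : Suz) ∈ H2 := by
      rw [hy, mem_H2_iff]
      constructor
      · rw [φ_mul, φ_mul, φ_inv tS tS_2, hx, tS_2]
      · rw [φ_mul, φ_mul, φ_inv tS tS_0, mem_H1_iff.1 x.2, tS_0]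
    refine ⟨hy2, Subtype.ext ?_⟩
    rw [hcj]
    change tS⁻¹ * (y : Suz) * tS = x
    rw [hy]
    group
  rcases out_dich α β hβn with ⟨j, hj⟩ | ⟨j, hj⟩
  · -- case A
    let jH : H1 := ⟨j, H2_le_H1 j.2⟩
    have hjH : φ (jH : Suz) 1781 = 1781 := (mem_H2_iff.1 j.2).2
    have key : ∀ x y : H1, φ (x : Suz) 137 = 137 → (y : Suz) = tS * x * tS⁻¹ → Ψ (jH * y * jH⁻¹) = t * Ψ x * t⁻¹ := by
      intro x y hx hy
      obtain ⟨hy2, e⟩ := pull x y hx hy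
      have h4 := hα ⟨y, hy2⟩
      rw [hj, hG1, e] at h4
      exact h4
    have keyU : ∀ x : H1, (x : Suz) ∈ U → Ψ (jH * x * jH⁻¹) = t * Ψ x * t⁻¹ := by
      intro x hx
      apply key x x hx.2.2
      rw [tS_comm _ hx, mul_inv_cancel_right]
    have hj137 : φ (jH : Suz) 137 = 137 := by
      apply fixj jH hjH
      intro g hg
      obtain ⟨g', hg', e⟩ := hUc g hg
      refine ⟨g', hg', ?_⟩
      rw [← keyU g' hg'] at e
      have e2 := E.inj e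
      rw [← e2, inv_mul_cancel_right]
    have hjb : Ψ jH • b = b := (E.hb jH).2 hjH
    have hjd : Ψ jH • (Ψ hH • b) = Ψ hH • b := (fix_d E jH).2 hj137
    have rel : ∀ x y : H1, φ (x : Suz) 137 = 137 → (y : Suz) = tS * x * tS⁻¹ →
        ((Ψ jH)⁻¹ * t) * Ψ x * ((Ψ jH)⁻¹ * t)⁻¹ = Ψ y := by
      intro x y hx hy
      have h4 := key x y hx hy
      rw [map_mul, map_mul, map_inv] at h4
      calc ((Ψ jH)⁻¹ * t) * Ψ x * ((Ψ jH)⁻¹ * t)⁻¹ = (Ψ jH)⁻¹ * (t * Ψ x * t⁻¹) * Ψ jH := by group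
        _ = (Ψ jH)⁻¹ * (Ψ jH * Ψ y * (Ψ jH)⁻¹) * Ψ jH := by rw [h4]
        _ = Ψ y := by group
    have relU : ∀ x : H1, (x : Suz) ∈ U → ((Ψ jH)⁻¹ * t) * Ψ x * ((Ψ jH)⁻¹ * t)⁻¹ = Ψ x := by
      intro x hx
      apply rel x x hx.2.2
      rw [tS_comm _ hx, mul_inv_cancel_right]
    set t' : Gt := (Ψ jH)⁻¹ * t with ht'
    have a1 : t' • a = b := by rw [ht', mul_smul, h1]; exact inv_smul_eq_iff.2 hjb.symm
    have a2 : t' • b = Ψ hH • b := by rw [ht', mul_smul, h2]; exact inv_smul_eq_iff.2 hjd.symm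
    have a3 : t' • (Ψ hH • b) = a := by rw [ht', mul_smul, h3]; exact inv_smul_eq_iff.2 (E.fix jH).symm
    refine ⟨t', ?_, ?_, a1, rel⟩
    · obtain ⟨u, hu, hu2⟩ := fix3 E (g := t' ^ 3)
        (by rw [pow_succ, pow_two, mul_smul, mul_smul, a1, a2, a3])
        (by rw [pow_succ, pow_two, mul_smul, mul_smul, a2, a3, a1])
        (by rw [pow_succ, pow_two, mul_smul, mul_smul, a3, a1, a2])
      have hu1 : u = 1 := by
        apply cent_one
        intro x hx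
        apply E.inj
        rw [map_mul, map_mul, hu2]
        have hc : Commute t' (Ψ x) := mul_inv_eq_iff_eq_mul.1 (relU x hx)
        exact (hc.pow_left 3).eq
      rw [← hu2, hu1, map_one]
    · have b1 : (Ψ hH * t') • a = Ψ hH • b := by rw [mul_smul, a1]
      have b2 : (Ψ hH * t') • b = b := by rw [mul_smul, a2, hhb]
      have b3 : (Ψ hH * t') • (Ψ hH • b) = a := by rw [mul_smul, a3, E.fix]
      obtain ⟨u, hu, hu2⟩ := fix3 E (g := (Ψ hH * t') ^ 2)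
        (by rw [pow_two, mul_smul, b1, b3])
        (by rw [pow_two, mul_smul, b2, b2])
        (by rw [pow_two, mul_smul, b3, b1])
      have hq : ∀ x : H1, (x : Suz) ∈ U → (Ψ hH * t') * Ψ x = Ψ (hH * x * hH) * (Ψ hH * t') := by
        intro x hx
        have hc : t' * Ψ x = Ψ x * t' := mul_inv_eq_iff_eq_mul.1 (relU x hx)
        have hhh : Ψ hH * Ψ hH = 1 := by rw [← map_mul, hH_sq, map_one]
        calc (Ψ hH * t') * Ψ x = Ψ hH * (t' * Ψ x) := mul_assoc _ _ _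
          _ = Ψ hH * (Ψ x * t') := by rw [hc]
          _ = Ψ hH * Ψ x * (Ψ hH * Ψ hH) * t' := by rw [hhh, mul_one, mul_assoc]
          _ = _ := by rw [map_mul, map_mul]; simp only [mul_assoc]
      have hu1 : u = 1 := by
        apply cent_one
        intro x hx
        apply E.inj
        rw [map_mul, map_mul, hu2, pow_two, mul_assoc, hq x hx, ← mul_assoc, hq _ (hU hx), mul_assoc]
        congr 2
        have e : hH * (hH * x * hH) * hH = (hH * hH) * x * (hH * hH) := by group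
        rw [e, hH_sq, one_mul, mul_one]
      rw [← hu2, hu1, map_one]
  · -- case B
    exfalso
    let jH : H1 := ⟨j, H2_le_H1 j.2⟩
    have hjH : φ (jH : Suz) 1781 = 1781 := (mem_H2_iff.1 j.2).2
    have keyU : ∀ x : H1, (x : Suz) ∈ U → Ψ (jH * (hH * x * hH) * jH⁻¹) = t * Ψ x * t⁻¹ := by
      intro x hx
      have hy : (x : Suz) = tS * x * tS⁻¹ := by rw [tS_comm _ hx, mul_inv_cancel_right]
      obtain ⟨hy2, e⟩ := pull x x hx.2.2 hy
      have h4 := hα ⟨x, hy2⟩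
      rw [hj, hG1, e] at h4
      rw [← h4]
      change Ψ (jH * (hH * x * hH) * jH⁻¹) = Ψ _
      congr 1
      apply Subtype.ext
      change (j : Suz) * (hS * x * hS) * (j : Suz)⁻¹ = (j : Suz) * ((β ⟨x, hy2⟩ : H2) : Suz) * (j : Suz)⁻¹
      have h5 : ((β ⟨x, hy2⟩ : H2) : Suz) = hS * tS⁻¹ * x * (hS * tS⁻¹)⁻¹ := hβ ⟨x, hy2⟩
      have h6 : tS⁻¹ * (x : Suz) * tS = x := by
        rw [mul_assoc, ← tS_comm _ hx, inv_mul_cancel_left]
      have h7 : hS * tS⁻¹ * x * (hS * tS⁻¹)⁻¹ = hS * x * hS := by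
        calc hS * tS⁻¹ * x * (hS * tS⁻¹)⁻¹ = hS * (tS⁻¹ * x * tS) * hS⁻¹ := by group
          _ = _ := by rw [h6, hS_inv]
      rw [h5, h7]
    have hj137 : φ (jH : Suz) 137 = 137 := by
      apply fixj jH hjH
      intro g hg
      obtain ⟨g', hg', e⟩ := hUc g hg
      refine ⟨hH * g' * hH, hU hg', ?_⟩
      rw [← keyU g' hg'] at e
      have e2 := E.inj e
      rw [← e2, inv_mul_cancel_right]
    let w : H1 := jH * hH
    have hwx : ∀ x : H1, (x : Suz) ∈ U → t * Ψ x = Ψ (w * x * w⁻¹) * t := by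
      intro x hx
      have h4 := keyU x hx
      have e : jH * (hH * x * hH) * jH⁻¹ = w * x * w⁻¹ := by
        have : hH = hH⁻¹ := eq_inv_of_mul_eq_one_left hH_sq
        calc jH * (hH * x * hH) * jH⁻¹ = jH * (hH * x * hH⁻¹) * jH⁻¹ := by rw [← this]
          _ = (jH * hH) * x * (jH * hH)⁻¹ := by group
      rw [e] at h4
      rw [h4]
      group
    have w1 : φ (w : Suz) 1781 = 137 := by
      change φ ((jH : Suz) * hS) 1781 = 137
      rw [φ_mul, hS_1, hj137]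
    have w2 : φ (w : Suz) 137 = 1781 := by
      change φ ((jH : Suz) * hS) 137 = 1781
      rw [φ_mul, hS_2, hjH]
    have w0 : φ (w : Suz) 0 = 0 := mem_H1_iff.1 w.2
    have hwU : ∀ x : H1, (x : Suz) ∈ U → ((w * x * w⁻¹ : H1) : Suz) ∈ U := by
      intro x hx
      refine ⟨mem_H1_iff.1 (w * x * w⁻¹).2, ?_, ?_⟩
      · rw [Subgroup.coe_mul, Subgroup.coe_mul, Subgroup.coe_inv, φ_mul, φ_mul, φ_inv _ w2, hx.2.2, w2]
      · rw [Subgroup.coe_mul, Subgroup.coe_mul, Subgroup.coe_inv, φ_mul, φ_mul, φ_inv _ w1, hx.2.1, w1]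
    obtain ⟨u, hu, hu2⟩ := fix3 E (g := t ^ 3)
      (by rw [pow_succ, pow_two, mul_smul, mul_smul, h1, h2, h3])
      (by rw [pow_succ, pow_two, mul_smul, mul_smul, h2, h3, h1])
      (by rw [pow_succ, pow_two, mul_smul, mul_smul, h3, h1, h2])
    have h4 : u⁻¹ * w ^ 3 = 1 := by
      apply cent_one
      intro x hx
      apply E.inj
      have e1 : t ^ 3 * Ψ x = Ψ (w ^ 3 * x * (w ^ 3)⁻¹) * t ^ 3 := by
        have q1 := hwx x hx
        have q2 := hwx _ (hwU x hx)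
        have q3 := hwx _ (hwU _ (hwU x hx))
        have e : w * (w * (w * x * w⁻¹) * w⁻¹) * w⁻¹ = w ^ 3 * x * (w ^ 3)⁻¹ := by
          rw [pow_succ, pow_two]; group
        rw [e] at q3
        calc t ^ 3 * Ψ x = t * (t * (t * Ψ x)) := by rw [pow_succ, pow_two]; simp only [mul_assoc]
          _ = t * (t * (Ψ (w * x * w⁻¹) * t)) := by rw [q1]
          _ = t * ((t * Ψ (w * x * w⁻¹)) * t) := by simp only [mul_assoc]
          _ = t * ((Ψ (w * (w * x * w⁻¹) * w⁻¹) * t) * t) := by rw [q2]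
          _ = (t * Ψ (w * (w * x * w⁻¹) * w⁻¹)) * (t * t) := by simp only [mul_assoc]
          _ = (Ψ (w ^ 3 * x * (w ^ 3)⁻¹) * t) * (t * t) := by rw [q3]
          _ = _ := by rw [pow_succ t 2, pow_two t]; simp only [mul_assoc]
      rw [← hu2, ← map_mul, ← map_mul] at e1
      have e2 := E.inj e1
      rw [show u⁻¹ * w ^ 3 * x = x * (u⁻¹ * w ^ 3) from ?_]
      calc u⁻¹ * w ^ 3 * x = u⁻¹ * (w ^ 3 * x * (w ^ 3)⁻¹ * u) * u⁻¹ * w ^ 3 := by group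
        _ = u⁻¹ * (u * x) * u⁻¹ * w ^ 3 := by rw [e2]
        _ = x * (u⁻¹ * w ^ 3) := by group
    have h5 : u = w ^ 3 := inv_mul_eq_one.1 h4
    have h6 := hu.2.1
    rw [h5, pow_succ, pow_two, Subgroup.coe_mul, Subgroup.coe_mul, φ_mul, φ_mul, w1, w2, w1] at h6
    omega

end

end H17.RS
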