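import Cfsg.Agent.Lib.H17.RSI

/-!
# The rank three characterisation of `Suz`: conclusion
-/

set_option autoImplicit false
set_option linter.all false

namespace H17.RS

open H35.TC H35.Net Cfsg.Spor
open H35.SuzMain (φ gP hφ H0 H1 H2 i1 i2 card_inj hpP heP)
open H17.G24J (H2_le_H1 card_H1 card_H2 S2 mU mQ0 mQ1 w5_mem w6_mem)

theorem main0 {Gt : Type} [Group Gt] [Finite Gt] {Ω : Type*} [Finite Ω] [MulAction Gt Ω] {Ψ : H1 →* Gt}
    {a b c f : Ω} (E : Emb Ψ a b) (Dd : H17.RS3.Dat Gt a b c (Ψ hH • b) f) : Nonempty (Gt ≃* Suz) := by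
  have hfinS := H35.SuzMain.fin
  obtain ⟨t, h1, h2, h3⟩ := H17.RS3.exists_t Dd
  obtain ⟨t', q1, q2, q3, q4⟩ := exists_t' E h1 h2 h3
  let D : H1 →* Gt × Suz := Ψ.prod H1.subtype
  let T : Gt × Suz := (t', tS)
  have hD1 : ∀ h, (D h).1 = Ψ h := fun h => rfl
  have hD2 : ∀ h, (D h).2 = (h : Suz) := fun h => rfl
  obtain ⟨c1, c2, c3, c4⟩ := bound D T
    (Prod.ext q1 tS_cube) (Prod.ext q2 ht_sq) (by
      intro x y hx hy
      exact Prod.ext (q4 x y hx hy) hy.symm)
  generalize hK : Subgroup.closure (Set.range (gV D T)) = K at c1 c2 c3 c4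
  have hfinK : Finite K := Nat.finite_of_card_ne_zero c2
  -- order of `Gt`
  have hst : Nat.card (MulAction.stabilizer Gt a) = 251596800 := by
    rw [← card_H1]
    symm
    refine Nat.card_congr (Equiv.ofBijective (fun h : H1 => (⟨Ψ h, E.fix h⟩ : MulAction.stabilizer Gt a)) ⟨?_, ?_⟩)
    · intro x y h
      exact E.inj (congrArg Subtype.val h)
    · rintro ⟨g, hg⟩
      obtain ⟨h, rfl⟩ := E.ran g hg
      exact ⟨h, rfl⟩
  have hGt : Nat.card Gt = 448345497600 := by
    have e1 := Subgroup.card_mul_index (MulAction.stabilizer Gt a)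
    have e2 : MulAction.orbit Gt a = Set.univ := by
      rw [Set.eq_univ_iff_forall]
      intro x
      obtain ⟨g, hg⟩ := Dd.tr a x
      exact ⟨g, hg⟩
    rw [MulAction.index_stabilizer, e2, Set.ncard_univ, Dd.card, hst] at e1
    omega
  let p1 : K →* Gt := (MonoidHom.fst Gt Suz).comp K.subtype
  let p2 : K →* Suz := (MonoidHom.snd Gt Suz).comp K.subtype
  have s1 : K.map (MonoidHom.fst Gt Suz) = ⊤ := by
    apply (H17.RS3.coatom Dd).2
    refine lt_of_le_of_ne ?_ ?_
    · intro g hg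
      obtain ⟨h, rfl⟩ := E.ran g hg
      exact ⟨D h, c3 ⟨h, rfl⟩, rfl⟩
    · intro he
      have hV : (D hH * T).1 ∈ MulAction.stabilizer Gt a := by
        rw [he]
        exact ⟨D hH * T, c4, rfl⟩
      have hV2 : (Ψ hH * t') • a = a := hV
      rw [mul_smul, q3] at hV2
      have h5 : b = a := by
        have := congrArg (fun z => Ψ hH • z) hV2
        simp only [E.fix] at this
        rw [← mul_smul, ← map_mul, hH_sq, map_one, one_smul] at this
        exact this
      exact H17.RS3.b_ne Dd h5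
  have s2 : K.map (MonoidHom.snd Gt Suz) = ⊤ := by
    apply top_of_t
    · intro h hh
      exact ⟨D ⟨h, hh⟩, c3 ⟨⟨h, hh⟩, rfl⟩, rfl⟩
    · refine ⟨(D hH)⁻¹ * (D hH * T), mul_mem (inv_mem (c3 ⟨hH, rfl⟩)) c4, ?_⟩
      rw [inv_mul_cancel_left]
      rfl
  have p1s : Function.Surjective p1 := by
    intro g
    have hg : g ∈ K.map (MonoidHom.fst Gt Suz) := by rw [s1]; trivial
    obtain ⟨k, hk, rfl⟩ := hg
    exact ⟨⟨k, hk⟩, rfl⟩
  have p2s : Function.Surjective p2 := by
    intro g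
    have hg : g ∈ K.map (MonoidHom.snd Gt Suz) := by rw [s2]; trivial
    obtain ⟨k, hk, rfl⟩ := hg
    exact ⟨⟨k, hk⟩, rfl⟩
  have hker : Nat.card p1.ker * 448345497600 = Nat.card K := by
    have e1 := Subgroup.card_mul_index p1.ker
    rw [Subgroup.index_ker, MonoidHom.range_eq_top.2 p1s, Subgroup.card_top, hGt] at e1
    exact e1
  have hker3 : Nat.card p1.ker ≤ 3 := by
    by_contra hlt
    push Not at hlt
    have : 4 * 448345497600 ≤ Nat.card p1.ker * 448345497600 := Nat.mul_le_mul_right _ hlt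
    omega
  have hN : (p1.ker.map p2).Normal := Subgroup.Normal.map inferInstance p2 p2s
  have hsimple := H35.SuzMain.simple
  have hbot : p1.ker.map p2 = ⊥ := by
    rcases hN.eq_bot_or_eq_top with h | h
    · exact h
    · exfalso
      have e1 : Nat.card (p1.ker.map p2) ≤ Nat.card p1.ker :=
        Nat.card_le_card_of_surjective _ (p2.subgroupMap_surjective p1.ker)
      rw [h, Subgroup.card_top, card_inj.1] at e1
      omega
  have p1i : Function.Injective p1 := by
    rw [injective_iff_map_eq_one]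
    intro k hk
    have h5 : p2 k ∈ p1.ker.map p2 := ⟨k, hk, rfl⟩
    rw [hbot, Subgroup.mem_bot] at h5
    exact Subtype.ext (Prod.ext hk h5)
  have b1 : Function.Bijective p1 := ⟨p1i, p1s⟩
  have cK : Nat.card K = 448345497600 := by rw [Nat.card_eq_of_bijective p1 b1, hGt]
  have b2 : Function.Bijective p2 := by
    have : Fintype K := Fintype.ofFinite _
    have : Fintype Suz := Fintype.ofFinite _
    refine (Fintype.bijective_iff_surjective_and_card p2).2 ⟨p2s, ?_⟩
    rw [← Nat.card_eq_fintype_card, ← Nat.card_eq_fintype_card, cK, card_inj.1]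
  exact ⟨(MulEquiv.ofBijective p1 b1).symm.trans (MulEquiv.ofBijective p2 b2)⟩

theorem main1 {Gt : Type} [Group Gt] [Finite Gt] {Ω : Type*} [Finite Ω] [MulAction Gt Ω]
    (hΩ : Nat.card Ω = 1782) (tr : ∀ x y : Ω, ∃ g : Gt, g • x = y) (a b c : Ω) (e : MulAction.stabilizer Gt a ≃* H1)
    (hb : (MulAction.orbit (MulAction.stabilizer Gt a) b).ncard = 416)
    (hc : (MulAction.orbit (MulAction.stabilizer Gt a) c).ncard = 1365) : Nonempty (Gt ≃* Suz) := by
  let Ψ : H1 →* Gt := (MulAction.stabilizer Gt a).subtype.comp e.symm.toMonoidHom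
  have hinj : Function.Injective Ψ := (MulAction.stabilizer Gt a).subtype_injective.comp e.symm.injective
  have hfix : ∀ h, Ψ h • a = a := fun h => (e.symm h).2
  have hran : ∀ g : Gt, g • a = a → ∃ h : H1, Ψ h = g := by
    intro g hg
    refine ⟨e ⟨g, hg⟩, ?_⟩
    change ((e.symm (e ⟨g, hg⟩) : MulAction.stabilizer Gt a) : Gt) = g
    rw [e.symm_apply_apply]
  have hO : ∀ x : Ω, MulAction.orbit (MulAction.stabilizer Gt a) x = H17.RS3.O Gt a x := by
    intro x
    ext y
    constructor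
    · rintro ⟨g, rfl⟩
      exact ⟨g, g.2, rfl⟩
    · rintro ⟨g, hg, rfl⟩
      exact ⟨⟨g, hg⟩, rfl⟩
  -- the stabiliser of `b`
  have hidx : ((MulAction.stabilizer (MulAction.stabilizer Gt a) b).comap e.symm.toMonoidHom).index = 416 := by
    rw [Subgroup.index_comap_of_surjective _ e.symm.surjective, MulAction.index_stabilizer, hb]
  obtain ⟨x, hx⟩ := conj416 _ hidx
  have hx' : ∀ h : H1, Ψ h • b = b ↔ φ ((x⁻¹ * h * x : H1) : Suz) 1781 = 1781 := by
    intro h
    rw [← hx h]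
    exact Iff.rfl
  have E : Emb Ψ a (Ψ x⁻¹ • b) := by
    refine ⟨hinj, hfix, hran, ?_⟩
    intro h
    have h1 := hx' (x * h * x⁻¹)
    have e1 : x⁻¹ * (x * h * x⁻¹) * x = h := by group
    rw [e1, map_mul, map_mul, mul_smul, mul_smul] at h1
    rw [← h1, map_inv]
    constructor
    · intro h2
      rw [h2, smul_inv_smul]
    · intro h2
      exact (eq_inv_smul_iff.2 h2)
  have hbO : Ψ x⁻¹ • b ∈ H17.RS3.O Gt a b := ⟨Ψ x⁻¹, hfix _, rfl⟩
  obtain ⟨k, hk, hk2⟩ := H17.G24J.orb w6_mem H17.G24J.r_U 138 u_138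
  let kH : H1 := ⟨k, hk⟩
  have n1 := ncard_O2 E (z := Ψ hH • (Ψ x⁻¹ • b)) (p := 137) (fix_d E)
  rw [set_Q0] at n1
  have n2 := ncard_O2 E (z := Ψ kH • (Ψ x⁻¹ • b)) (p := 138) (by
    intro h
    have h1 := fix_k E kH h
    have h2 : φ (kH : Suz) 1781 = 138 := hk2
    rwa [h2] at h1)
  rw [set_Q1] at n2
  have Dd : H17.RS3.Dat Gt a (Ψ x⁻¹ • b) c (Ψ hH • (Ψ x⁻¹ • b)) (Ψ kH • (Ψ x⁻¹ • b)) :=
    { card := hΩ
      tr := tr
      n416 := by rw [H17.RS3.O_eq hbO, ← hO, hb]
      n1365 := by rw [← hO, hc]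
      n100 := n1
      n315 := n2
      hd := ⟨Ψ hH, hfix _, rfl⟩
      hf := ⟨Ψ kH, hfix _, rfl⟩ }
  exact main0 E Dd

/-- **the rank three characterisation of `Suz`** -/
theorem main {G : Type*} [Group G] [Finite G] {Ω : Type*} [Finite Ω] [MulAction G Ω]
    (hΩ : Nat.card Ω = 1782) (tr : ∀ x y : Ω, ∃ g : G, g • x = y) (a b c : Ω) (e : MulAction.stabilizer G a ≃* H1)
    (hb : (MulAction.orbit (MulAction.stabilizer G a) b).ncard = 416)
    (hc : (MulAction.orbit (MulAction.stabilizer G a) c).ncard = 1365) : Nonempty (G ≃* Suz) := by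
  let ε : Shrink.{0} G ≃* G := Shrink.mulEquiv
  letI : MulAction (Shrink.{0} G) Ω := MulAction.compHom Ω ε.toMonoidHom
  have hsm : ∀ (g : Shrink.{0} G) (x : Ω), g • x = ε g • x := fun g x => rfl
  have : Finite (Shrink.{0} G) := Finite.of_equiv G ε.symm.toEquiv
  let e' : MulAction.stabilizer (Shrink.{0} G) a ≃* MulAction.stabilizer G a :=
    { toFun := fun g => ⟨ε g, g.2⟩
      invFun := fun g => ⟨ε.symm g, by
        change ε (ε.symm g) • a = a
        rw [ε.apply_symm_apply]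
        exact g.2⟩
      left_inv := fun g => Subtype.ext (ε.symm_apply_apply _)
      right_inv := fun g => Subtype.ext (ε.apply_symm_apply _)
      map_mul' := fun g h => Subtype.ext (map_mul ε _ _) }
  have horb : ∀ x : Ω, MulAction.orbit (MulAction.stabilizer (Shrink.{0} G) a) x =
      MulAction.orbit (MulAction.stabilizer G a) x := by
    intro x
    ext y
    constructor
    · rintro ⟨g, rfl⟩
      exact ⟨e' g, rfl⟩
    · rintro ⟨g, rfl⟩
      refine ⟨e'.symm g, ?_⟩
      have h1 : e' (e'.symm g) • x = g • x := by rw [e'.apply_symm_apply]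
      exact h1
  obtain ⟨r⟩ := main1 (Gt := Shrink.{0} G) hΩ (by
    intro x y
    obtain ⟨g, hg⟩ := tr x y
    exact ⟨ε.symm g, by rw [hsm, ε.apply_symm_apply, hg]⟩) a b c (e'.trans e) (by rw [horb, hb]) (by rw [horb, hc])
  exact ⟨ε.symm.trans r⟩

end H17.RS
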