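import Mathlib
import Cfsg.Agent.Lib.H17.SpecMain4
import Cfsg.Agent.Lib.H53.Zsig

set_option autoImplicit false
set_option linter.unusedSectionVars false

/-! Tools for comparing the spectra of `PSp(2n,q)` and `PΩ(2n+1,q)`. -/

namespace H17.SpecOrd1

open Module QuadraticMap H17.OrthAbs H46.SForm H46.SForm.SForm H46.ProdUnit H46.ProjOrder
  H17.SpecPO H17.SpecConv H17.SpecUni H17.SpecStr H46.Irr H17.SpecMain H17.SpecMain2 Matrix
  H46.OrdPSp

universe u

/-- Isometries of alternating forms have determinant one. -/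
theorem det_alt {F : Type*} [Field F] {V : Type*} [AddCommGroup V] [Module F V]
    [FiniteDimensional F V] (f : SForm F V (RingHom.id F)) (halt : f.Alt) (hnd : f.ND)
    (u : (Module.End F V)ˣ) (hu : f.Isom u) : LinearMap.det (u : Module.End F V) = 1 := by
  classical
  obtain ⟨n, hn⟩ := even_finrank halt hnd
  have hV : finrank F V = 2 * n := by omega
  obtain ⟨ι, _, _, bs, h1, h2, h3⟩ := H99.Alt.exists_symp_basis V (toBilin f) (fun v => halt v)
    (fun v hv => hnd v hv)
  have hcard : Fintype.card ι = n := by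
    have := Module.finrank_eq_card_basis bs
    rw [hV, Fintype.card_prod, Fintype.card_fin] at this
    omega
  obtain ⟨e⟩ : Nonempty (ι ≃ Fin n) := ⟨Fintype.equivFinOfCardEq hcard⟩
  let r : Fin 2 × ι ≃ Fin n ⊕ Fin n :=
    ((Equiv.prodCongr finTwoEquiv e).trans (Equiv.boolProdEquivSum (Fin n)))
  have hr0 : ∀ i, r (0, i) = Sum.inl (e i) := fun i => rfl
  have hr1 : ∀ i, r (1, i) = Sum.inr (e i) := fun i => rfl
  let b : Basis (Fin n ⊕ Fin n) F V := bs.reindex r
  have hb0 : ∀ i, b (Sum.inl i) = bs (0, e.symm i) := by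
    intro i
    rw [Basis.reindex_apply]
    exact congrArg bs (by rw [Equiv.symm_apply_eq, hr0, Equiv.apply_symm_apply])
  have hb1 : ∀ i, b (Sum.inr i) = bs (1, e.symm i) := by
    intro i
    rw [Basis.reindex_apply]
    exact congrArg bs (by rw [Equiv.symm_apply_eq, hr1, Equiv.apply_symm_apply])
  have hcoord : ∀ x y : Fin n ⊕ Fin n → F,
      f.B (b.equivFun.symm x) (b.equivFun.symm y) = - H6.Symp.bf x y := by
    have hbil : ∀ x y : Fin n ⊕ Fin n → F,
        toBilin f (b.equivFun.symm x) (b.equivFun.symm y) =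
        ∑ i, ∑ j, x i * y j * toBilin f (b i) (b j) := by
      intro x y
      rw [Basis.equivFun_symm_apply, Basis.equivFun_symm_apply, LinearMap.BilinForm.sum_left]
      apply Finset.sum_congr rfl
      intro i _
      rw [LinearMap.BilinForm.sum_right]
      apply Finset.sum_congr rfl
      intro j _
      rw [LinearMap.BilinForm.smul_left, LinearMap.BilinForm.smul_right, mul_assoc]
    intro x y
    rw [← H46.OrdPSp.toBilin_apply, hbil, H6.Symp.bf_eq_sum]
    have h4 : ∀ i j : Fin n, toBilin f (b (Sum.inl i)) (b (Sum.inl j)) = 0 := by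
      intro i j; rw [hb0, hb0]; exact h1 _ _
    have h5 : ∀ i j : Fin n, toBilin f (b (Sum.inr i)) (b (Sum.inr j)) = 0 := by
      intro i j; rw [hb1, hb1]; exact h2 _ _
    have h6 : ∀ i j : Fin n, toBilin f (b (Sum.inl i)) (b (Sum.inr j)) = if i = j then 1 else 0 := by
      intro i j; rw [hb0, hb1, h3]
      simp only [EmbeddingLike.apply_eq_iff_eq]
    have h7 : ∀ i j : Fin n, toBilin f (b (Sum.inr i)) (b (Sum.inl j)) = if i = j then -1 else 0 := by
      intro i j
      rw [H99.Alt.swap (fun v => halt v), h6]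
      by_cases hij : i = j
      · subst hij; simp
      · rw [if_neg hij, if_neg (fun h => hij h.symm), neg_zero]
    simp only [Fintype.sum_sum_type, h4, h5, h6, h7, mul_zero, Finset.sum_const_zero, zero_add,
      add_zero, mul_ite, mul_one, Finset.sum_ite_eq, Finset.mem_univ, if_true, mul_neg]
    rw [← Finset.sum_add_distrib, ← Finset.sum_neg_distrib]
    apply Finset.sum_congr rfl
    intro i _
    ring
  have hφ : ∀ (x : Fin n ⊕ Fin n → F),
      b.equivFun.symm (LinearMap.toMatrix b b (u : Module.End F V) *ᵥ x) =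
        (u : Module.End F V) (b.equivFun.symm x) := by
    intro x
    rw [LinearEquiv.symm_apply_eq]
    have := LinearMap.toMatrix_mulVec_repr b b (u : Module.End F V) (b.equivFun.symm x)
    have h8 : ((b.repr (b.equivFun.symm x) : (Fin n ⊕ Fin n) →₀ F) : Fin n ⊕ Fin n → F) = x :=
      b.equivFun.apply_symm_apply x
    rw [h8] at this
    exact this
  have hmem : LinearMap.toMatrix b b (u : Module.End F V) ∈ symplecticGroup (Fin n) F := by
    rw [H6.Symp.mem_iff_bf]
    intro x y
    have := hu (b.equivFun.symm x) (b.equivFun.symm y)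
    rw [← hφ, ← hφ, hcoord, hcoord, neg_inj] at this
    exact this
  rw [← LinearMap.det_toMatrix b]
  exact SymplecticGroup.det_eq_one hmem

section Three

variable {F : Type*} [Field F] [Finite F] (h2 : (2 : F) ≠ 0) {C : Type*} [AddCommGroup C]
  [Module F C]

include h2 in
/-- A non-trivial unipotent isometry of an orthogonal 3-space fixes a unique line. -/
theorem fix_three (p : ℕ) [Fact p.Prime] [CharP F p] {h : SForm F C (RingHom.id F)} (hs : h.Sym 1)
    (hnd : h.ND) (hd : finrank F C = 3) {y : (Module.End F C)ˣ} (hy : h.Isom y) (hyp : y ^ p = 1)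
    (hy1 : y ≠ 1) : finrank F (fixS y) = 1 := by
  haveI : FiniteDimensional F C := Module.finite_of_finrank_pos (by omega)
  haveI : Nontrivial C := Module.nontrivial_of_finrank_pos (R := F) (by omega)
  have hsum := LinearMap.finrank_range_add_finrank_ker ((y : Module.End F C) - 1)
  change finrank F (comS y) + finrank F (fixS y) = _ at hsum
  have hpos : finrank F (fixS y) ≠ 0 := by
    intro h0
    obtain ⟨v, hv⟩ := exists_ne (0 : C)
    apply hv
    apply exists_fixed p hyp v
    intro w hw
    have : w ∈ fixS y := mem_fixS.mpr hw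
    rw [Submodule.finrank_eq_zero.mp h0, Submodule.mem_bot] at this
    exact this
  have hc0 : finrank F (comS y) ≠ 0 := by
    intro h0
    apply hy1
    apply Units.ext
    apply LinearMap.ext
    intro v
    have : (y : Module.End F C) v - v ∈ comS y := mem_comS.mpr ⟨v, rfl⟩
    rw [Submodule.finrank_eq_zero.mp h0, Submodule.mem_bot, sub_eq_zero] at this
    exact this
  by_contra hne
  have hc1 : finrank F (comS y) = 1 := by omega
  haveI : Nontrivial (comS y) := Module.nontrivial_of_finrank_pos (R := F) (by omega)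
  obtain ⟨⟨z, hz⟩, hz0⟩ := exists_ne (0 : comS y)
  have hz0' : z ≠ 0 := fun h => hz0 (Subtype.ext h)
  have hspan : ∀ v ∈ comS y, ∃ c : F, c • z = v := by
    intro v hv
    obtain ⟨c, hc⟩ := exists_smul_eq_of_finrank_eq_one hc1 hz0 ⟨v, hv⟩
    exact ⟨c, congrArg Subtype.val hc⟩
  -- `z` is fixed
  have hzfix : (y : Module.End F C) z = z := by
    obtain ⟨c, hc⟩ := hspan ((y : Module.End F C) z - z) (mem_comS.mpr ⟨z, rfl⟩)
    have h3 : (y : Module.End F C) z = (1 + c) • z := by
      rw [add_smul, one_smul, hc]; abel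
    have h4 : ∀ k : ℕ, ((y : Module.End F C) ^ k) z = (1 + c) ^ k • z := by
      intro k
      induction k with
      | zero => simp
      | succ k ih => rw [pow_succ, Module.End.mul_apply, h3, map_smul, ih, smul_smul, pow_succ,
          mul_comm]
    have h5 := h4 p
    rw [← Units.val_pow_eq_pow_val, hyp, Units.val_one, Module.End.one_apply] at h5
    have h6 : ((1 + c) ^ p - 1) • z = 0 := by
      rw [sub_smul, one_smul, ← h5, sub_self]
    have h7 := (smul_eq_zero.mp h6).resolve_right hz0'
    have h8 : c ^ p = 0 := by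
      rw [add_pow_char, one_pow] at h7
      linear_combination h7
    have h9 : c = 0 := pow_eq_zero_iff (Fact.out : p.Prime).ne_zero |>.mp h8
    rw [h3, h9, add_zero, one_smul]
  have hzz : h.B z z = 0 := orth hs hy z hz z (mem_fixS.mpr hzfix)
  have hkey : ∀ c, ((y : Module.End F C) c - c = 0) ∨ h.B z c = 0 := by
    intro c
    obtain ⟨a, ha⟩ := hspan ((y : Module.End F C) c - c) (mem_comS.mpr ⟨c, rfl⟩)
    have h3 := hy c c
    have h4 : (y : Module.End F C) c = c + a • z := by rw [ha]; abel
    rw [h4, h.add_left, h.add_right, h.add_right, h.smul_left, h.smul_left, h.smul_right,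
      h.smul_right, hzz, SpecPO.sym_swap hs z c] at h3
    simp only [RingHom.id_apply, mul_zero, add_zero] at h3
    have h5 : 2 * (a * h.B z c) = 0 := by linear_combination h3
    rcases mul_eq_zero.mp ((mul_eq_zero.mp h5).resolve_left h2) with h6 | h6
    · left
      rw [← ha, h6, zero_smul]
    · exact Or.inr h6
  obtain ⟨c0, hc0'⟩ : ∃ c, h.B z c ≠ 0 := by
    by_contra hcon
    push Not at hcon
    exact hz0' (hnd z hcon)
  obtain ⟨c1, hc1'⟩ : ∃ c, (y : Module.End F C) c - c ≠ 0 := by
    by_contra hcon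
    push Not at hcon
    apply hy1
    apply Units.ext
    apply LinearMap.ext
    intro v
    exact sub_eq_zero.mp (hcon v)
  have e1 := (hkey c0).resolve_right hc0'
  have e2 := (hkey c1).resolve_left hc1'
  rcases hkey (c0 + c1) with h3 | h3
  · apply hc1'
    rw [map_add] at h3
    have : (y : Module.End F C) c1 - c1 = ((y : Module.End F C) c0 + (y : Module.End F C) c1 -
      (c0 + c1)) - ((y : Module.End F C) c0 - c0) := by abel
    rw [this, h3, e1, sub_zero]
  · rw [h.add_right, e2, add_zero] at h3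
    exact hc0' h3

include h2 in
theorem three (p : ℕ) [Fact p.Prime] [CharP F p] {h : SForm F C (RingHom.id F)} (hs : h.Sym 1)
    (hnd : h.ND) (hd : finrank F C = 3) {y s : (Module.End F C)ˣ} (hy : h.Isom y)
    (hyp : y ^ p = 1) (hy1 : y ≠ 1) (hsi : h.Isom s) (hc : Commute y s) {M : ℕ}
    (hM : (M : F) ≠ 0) (hsM : s ^ M = 1) :
    ∃ α : F, (α = 1 ∨ α = -1) ∧ ∀ v, (s : Module.End F C) v = α • v := by
  haveI : FiniteDimensional F C := Module.finite_of_finrank_pos (by omega)
  haveI : Nontrivial C := Module.nontrivial_of_finrank_pos (R := F) (by omega)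
  have h1 := fix_three h2 p hs hnd hd hy hyp hy1
  haveI : Nontrivial (fixS y) := Module.nontrivial_of_finrank_pos (R := F) (by omega)
  obtain ⟨⟨z, hz⟩, hz0⟩ := exists_ne (0 : fixS y)
  have hz0' : z ≠ 0 := fun h => hz0 (Subtype.ext h)
  have hspan : ∀ v ∈ fixS y, ∃ c : F, c • z = v := by
    intro v hv
    obtain ⟨c, hc⟩ := exists_smul_eq_of_finrank_eq_one h1 hz0 ⟨v, hv⟩
    exact ⟨c, congrArg Subtype.val hc⟩
  obtain ⟨α, hα⟩ := hspan ((s : Module.End F C) z) (fix_inv hc.symm z hz)
  have hα0 : α ≠ 0 := by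
    rintro rfl
    rw [zero_smul] at hα
    apply hz0'
    rw [← unit_apply_inv s z, ← hα, map_zero]
  -- the unit `α⁻¹ s`
  set a : (Module.End F C)ˣ := scalarUnit C (Units.mk0 α⁻¹ (inv_ne_zero hα0)) * s with ha
  have hav : ∀ v, (a : Module.End F C) v = α⁻¹ • (s : Module.End F C) v := fun v => rfl
  have hcomm : Commute (scalarUnit C (Units.mk0 α⁻¹ (inv_ne_zero hα0))) s := scalarUnit_commute _ _
  have hq1 : 1 ≤ Nat.card F := Nat.card_pos
  have hαq : (Units.mk0 α⁻¹ (inv_ne_zero hα0)) ^ (Nat.card F - 1) = 1 := by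
    rw [← Nat.card_units]
    exact pow_card_eq_one'
  have haN : a ^ (M * (Nat.card F - 1)) = 1 := by
    rw [ha, hcomm.mul_pow, pow_mul s, hsM, one_pow, mul_one, mul_comm, pow_mul, scalarUnit,
      ← map_pow, hαq, map_one, one_pow]
  have hN : ((M * (Nat.card F - 1) : ℕ) : F) ≠ 0 := by
    rw [Nat.cast_mul]
    apply mul_ne_zero hM
    have h3 : ((Nat.card F : ℕ) : F) = 0 := by
      have hf : Fintype F := Fintype.ofFinite F
      rw [Nat.card_eq_fintype_card]
      exact FiniteField.cast_card_eq_zero F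
    rw [Nat.cast_sub hq1, h3, Nat.cast_one, zero_sub]
    exact neg_ne_zero.mpr one_ne_zero
  have hya : Commute y a := by
    rw [ha]
    exact (scalarUnit_commute _ _).symm.mul_right hc
  have hcompl := isCompl hN haN (u := a) (V := C)
  have hcom : comS a = ⊥ := by
    by_contra hne
    obtain ⟨w, -, hw⟩ := H46.OrthDec.exists_res y (comS a) (com_inv hya)
    obtain ⟨v, hv, hv0⟩ := Submodule.exists_mem_ne_zero_of_ne_bot hne
    have hwp : w ^ p = 1 := by
      apply Units.ext
      apply LinearMap.ext
      intro z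
      apply Subtype.ext
      rw [Units.val_pow_eq_pow_val, H46.OrthDec.res_pow hw p z, ← Units.val_pow_eq_pow_val, hyp]
      rfl
    apply hv0
    have := exists_fixed p hwp (⟨v, hv⟩ : comS a) (by
      intro t ht
      have h4 : (t : C) ∈ fixS y := by rw [mem_fixS, ← hw, ht]
      obtain ⟨c, hc'⟩ := hspan _ h4
      have h5 : (t : C) ∈ fixS a := by
        rw [mem_fixS, hav, ← hc', map_smul, ← hα, smul_smul, smul_smul]
        congr 1
        field_simp
      have h6 : (t : C) ∈ comS a ⊓ fixS a := ⟨t.2, h5⟩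
      rw [hcompl.inf_eq_bot, Submodule.mem_bot] at h6
      exact Subtype.ext h6)
    exact congrArg Subtype.val this
  have hall : ∀ v, (s : Module.End F C) v = α • v := by
    intro v
    have h4 : (a : Module.End F C) v - v ∈ comS a := mem_comS.mpr ⟨v, rfl⟩
    rw [hcom, Submodule.mem_bot, sub_eq_zero, hav] at h4
    nth_rewrite 2 [← h4]
    rw [smul_smul, mul_inv_cancel₀ hα0, one_smul]
  refine ⟨α, ?_, hall⟩
  apply mul_self_eq_one_iff.mp
  apply norm_one_of_scalar hnd hsi
  apply LinearMap.ext
  intro v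
  rw [hall, Module.algebraMap_end_apply]

end Three

end H17.SpecOrd1
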