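import Mathlib
import Cfsg.Agent.Lib.H17.SpecOrd1

set_option autoImplicit false
set_option linter.unusedSectionVars false

/-! The spectra of `PSp(2n,q)` and `PΩ(2n+1,q)`, `q` odd, `n ≥ 3`, are different. -/

namespace H17.SpecOrd2

open Module QuadraticMap H17.OrthAbs H46.SForm H46.SForm.SForm H46.ProdUnit H46.ProjOrder
  H17.SpecPO H17.SpecConv H17.SpecUni H17.SpecStr H46.Irr H17.SpecMain H17.SpecMain2 H17.SpecOrd1

universe u

variable {F : Type u} [Field F] [Finite F] (h2 : (2 : F) ≠ 0)

include h2 in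
/-- `PSp(2m+2, q)` contains elements of order `(q^m+1) p`. -/
theorem mem_sp (p : ℕ) [Fact p.Prime] [CharP F p] {m : ℕ} (hm : 1 ≤ m) :
    (Nat.card F ^ m + 1) * p ∈ oSp (m + 1) F := by
  have hpP : p.Prime := Fact.out
  have hpo : Odd p := by
    rcases hpP.eq_two_or_odd' with h | h
    · exfalso
      subst h
      exact h2 (by exact_mod_cast CharP.cast_eq_zero F 2)
    · exact h
  obtain ⟨A', _, _, f', u', E, ha', hnd', hd', hu', ho', hE⟩ :=
    H46.UnipModel.exists_unip_sp (K := F) p h2 1 1 (by omega) (Or.inr (by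
      rw [Nat.sub_self, pow_zero]; omega))
  obtain ⟨A, _, _, f, b, ha, hnd, hA, hb, hbo⟩ :=
    exists_torus F (t := Nat.card F ^ m + 1) (d := m) (by omega) (Or.inr dvd_rfl)
  haveI : Nontrivial A := Module.nontrivial_of_finrank_pos (R := F) (by omega)
  haveI : Nontrivial A' := Module.nontrivial_of_finrank_pos (R := F) (by omega)
  haveI : FiniteDimensional F A := Module.finite_of_finrank_pos (by omega)
  haveI : FiniteDimensional F A' := Module.finite_of_finrank_pos (by omega)
  have hcop : Nat.Coprime (Nat.card F ^ m + 1) (p ^ E) := by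
    apply Nat.Coprime.pow_right
    apply Nat.Coprime.symm
    rw [hpP.coprime_iff_not_dvd]
    intro hdvd
    have h3 : p ∣ Nat.card F := by
      have hf : Fintype F := Fintype.ofFinite F
      obtain ⟨n, -, hn⟩ := FiniteField.card F p
      rw [Nat.card_eq_fintype_card, hn]
      exact dvd_pow_self p n.2.ne'
    have h4 : p ∣ Nat.card F ^ m := h3.trans (dvd_pow_self _ (by omega))
    exact hpP.one_lt.ne' (Nat.dvd_one.mp ((Nat.dvd_add_right h4).mp hdvd))
  have h1 : orderOf (prodUnit b u') = (Nat.card F ^ m + 1) * p ^ E := by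
    rw [orderOf_prodUnit, ho', hbo, hcop.lcm_eq_mul]
  have hpr : projOrder F (prodUnit b u') = orderOf (prodUnit b u') := by
    apply Nat.dvd_antisymm (projOrder_dvd_orderOf _)
    obtain ⟨c, hc⟩ := (projOrder_dvd_iff (prodUnit b u') (projOrder F (prodUnit b u'))).mp dvd_rfl
    rw [← Units.val_pow_eq_pow_val] at hc
    have hcc : c * c = 1 := norm_one_of_scalar (hnd.prod hnd') ((hb.prod hu').pow _) hc
    have hc1 : c = 1 := by
      rcases mul_self_eq_one_iff.mp hcc with h | h
      · exact h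
      · exfalso
        obtain ⟨v, hv⟩ := exists_ne (0 : A')
        have h3 : ∀ v : A', ((u' ^ projOrder F (prodUnit b u') : (Module.End F A')ˣ) :
            Module.End F A') v = -v := by
          intro v
          have := congrArg (fun z : Module.End F (A × A') => (z (0, v)).2) hc
          rw [prodUnit_pow] at this
          change ((u' ^ projOrder F (prodUnit b u') : (Module.End F A')ˣ) : Module.End F A') v =
            ((algebraMap F (Module.End F (A × A')) c) (0, v)).2 at this
          rw [this, h, Module.algebraMap_end_apply]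
          change (-1 : F) • v = -v
          rw [neg_one_smul]
        have h4 : ∀ k : ℕ, Odd k → (((u' ^ projOrder F (prodUnit b u')) ^ k :
            (Module.End F A')ˣ) : Module.End F A') v = -v := by
          intro k hk
          obtain ⟨i, rfl⟩ := hk
          induction i with
          | zero => rw [mul_zero, zero_add, pow_one]; exact h3 v
          | succ i ih =>
            rw [show 2 * (i + 1) + 1 = (2 * i + 1) + 1 + 1 by ring, pow_succ', pow_succ',
              Units.val_mul, Units.val_mul, Module.End.mul_apply, Module.End.mul_apply, ih, h3, h3,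
              neg_neg]
        have h5 := h4 (p ^ E) hpo.pow
        rw [← pow_mul, mul_comm, pow_mul, ← ho', pow_orderOf_eq_one, one_pow] at h5
        change v = -v at h5
        apply hv
        have h6 : (2 : F) • v = 0 := by
          rw [two_smul]
          nth_rewrite 1 [h5]
          simp
        exact (smul_eq_zero.mp h6).resolve_left h2
    rw [hc1, map_one] at hc
    exact orderOf_dvd_of_pow_eq_one (Units.ext hc)
  have h4 := H46.OrdPSp.mem_orders (n := m + 1) (by omega) (f.prod f') (ha.prod ha')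
    (hnd.prod hnd') (by rw [finrank_prod, hA, hd']; ring) (prodUnit b u') (hb.prod hu')
  rw [hpr, h1] at h4
  exact H46.Orders.mem_of_dvd h4 (Nat.mul_dvd_mul_left _ (dvd_pow_self p (by omega)))

/-- The arithmetic contradiction. -/
theorem arith {q Q e e' j : ℤ} (hq : Odd q) (hQ : Odd Q) (hq3 : 3 ≤ q) (hQq : q ^ 2 ≤ Q)
    (he : e = 1 ∨ e = -1) (he' : e' = 1 ∨ e' = -1)
    (h : Q ^ 2 * q ^ 2 + e * (q * Q) = 2 * (Q + 1) * j + (q ^ 2 + e' * q)) : False := by
  have h1 : (Q + 1) * (q ^ 2 * (Q - 1) + e * q - 2 * j) = (e + e') * q := by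
    linear_combination h
  have h2 : (e + e') * q = 0 := by
    set K := q ^ 2 * (Q - 1) + e * q - 2 * j with hK
    have hb : |(e + e') * q| ≤ 2 * q := by
      rw [abs_mul, abs_of_pos (by linarith : (0 : ℤ) < q)]
      have : |e + e'| ≤ 2 := by
        rcases he with rfl | rfl <;> rcases he' with rfl | rfl <;> norm_num
      nlinarith
    have hQ1 : 2 * q < Q + 1 := by nlinarith
    by_contra hne
    have hK0 : K ≠ 0 := by
      intro hK0
      rw [hK0, mul_zero] at h1
      exact hne h1.symm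
    have hK1 : 1 ≤ |K| := Int.one_le_abs hK0
    have : |(Q + 1) * K| = (Q + 1) * |K| := by
      rw [abs_mul, abs_of_pos (by linarith : (0 : ℤ) < Q + 1)]
    rw [h1] at this
    nlinarith
  rw [h2] at h1
  have h3 : q ^ 2 * (Q - 1) + e * q - 2 * j = 0 := by
    rcases mul_eq_zero.mp h1 with h3 | h3
    · nlinarith
    · exact h3
  have h4 : Even (q ^ 2 * (Q - 1) - 2 * j) := by
    obtain ⟨k, hk⟩ := hQ
    refine ⟨q ^ 2 * k - j, ?_⟩
    rw [hk]; ring
  have h5 : Odd (e * q) := by
    rcases he with rfl | rfl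
    · rwa [one_mul]
    · rw [neg_one_mul]; exact hq.neg
  have h6 : e * q = -(q ^ 2 * (Q - 1) - 2 * j) := by linear_combination h3
  rw [h6] at h5
  exact (Int.not_even_iff_odd.mpr h5) h4.neg

set_option maxHeartbeats 4000000 in
include h2 in
theorem not_mem_o (p : ℕ) [Fact p.Prime] [CharP F p] {m : ℕ} (hm : 2 ≤ m) :
    (Nat.card F ^ m + 1) * p ∉ oO (m + 1) F := by
  rintro ⟨x0, hx0⟩
  have hpP : p.Prime := Fact.out
  have hpo : Odd p := by
    rcases hpP.eq_two_or_odd' with h | h
    · exfalso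
      subst h
      exact h2 (by exact_mod_cast CharP.cast_eq_zero F 2)
    · exact h
  have hpq : p ∣ Nat.card F := by
    have hf : Fintype F := Fintype.ofFinite F
    obtain ⟨n, -, hn⟩ := FiniteField.card F p
    rw [Nat.card_eq_fintype_card, hn]
    exact dvd_pow_self p n.2.ne'
  have hqodd : Odd (Nat.card F) := by
    have hf : Fintype F := Fintype.ofFinite F
    obtain ⟨k, -, hk⟩ := FiniteField.card F p
    rw [Nat.card_eq_fintype_card, hk]
    exact hpo.pow
  have hq1 : 1 < Nat.card F := Finite.one_lt_card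
  have hq3 : 3 ≤ Nat.card F := by
    rcases hqodd with ⟨k, hk⟩
    omega
  set q := Nat.card F with hq
  set M := q ^ m + 1 with hM
  have hM0 : 0 < M := Nat.succ_pos _
  -- the Zsigmondy prime
  obtain ⟨r, hrP, hrd, hrn⟩ := H53.Zsig.zsigmondy (a := q) (n := 2 * m) hq1 (by omega)
    (by omega) (by omega)
  haveI : Fact r.Prime := ⟨hrP⟩
  have hrM : r ∣ M := by
    rcases dvd_half hrP hq1.le hrd with h | h
    · exact absurd h (hrn m (by omega) (by omega))
    · exact h
  have hr2 : r ≠ 2 := by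
    rintro rfl
    apply hrn 1 (by norm_num) (by omega)
    rw [pow_one]
    obtain ⟨k, hk⟩ := hqodd
    exact ⟨k, by omega⟩
  have hrodd : Odd r := hrP.odd_of_ne_two hr2
  have hrF : (r : F) ≠ 0 := by
    intro h
    rw [CharP.cast_eq_zero_iff F p] at h
    have h3 : p ∣ q ^ m + 1 := h.trans hrM
    have h4 : p ∣ q ^ m := hpq.trans (dvd_pow_self _ (by omega))
    exact hpP.one_lt.ne' (Nat.dvd_one.mp ((Nat.dvd_add_right h4).mp h3))
  have hMF : (M : F) ≠ 0 := by
    intro h
    rw [CharP.cast_eq_zero_iff F p] at h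
    have h4 : p ∣ q ^ m := hpq.trans (dvd_pow_self _ (by omega))
    exact hpP.one_lt.ne' (Nat.dvd_one.mp ((Nat.dvd_add_right h4).mp h))
  have hT : ∀ d, 0 < d → d < m → ¬ (r ∣ q ^ d - 1 ∨ r ∣ q ^ d + 1) := by
    intro d h0 h1 h
    apply hrn (2 * d) (by omega) (by omega)
    have h3 : q ^ (2 * d) - 1 = (q ^ d + 1) * (q ^ d - 1) := by
      rw [mul_comm 2 d, pow_mul, ← Nat.sq_sub_sq, one_pow]
    rw [h3]
    rcases h with h | h
    · exact h.mul_left _
    · exact h.mul_right _
  -- the elements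
  obtain ⟨u, hu, huo⟩ := SpecPO.exists_of_mem h2 (n := m + 1) (by omega) x0
  rw [hx0] at huo
  obtain ⟨hs', hy'⟩ := split_rp (r := M) (p := p) hM0 hpP.pos huo
  set s := u ^ p with hsdef
  set y := u ^ M with hydef
  obtain ⟨t, ht⟩ := hrM
  have ht0 : 0 < t := by
    rcases Nat.eq_zero_or_pos t with h | h
    · rw [h, mul_zero] at ht; omega
    · exact h
  set x := s ^ t with hxdef
  have hx : orderOf x = r := by
    rw [hxdef, orderOf_pow_of_dvd ht0.ne' (by rw [hs', ht]; exact dvd_mul_left _ _), hs', ht,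
      Nat.mul_div_cancel _ ht0]
  set f := stdO (m + 1) F with hf
  have hs : f.Sym 1 := stdO_sym (m + 1) F
  have hnd : f.ND := stdO_nd h2 (m + 1)
  have hd : finrank F (Unit ⊕ (Fin (m + 1) ⊕ Fin (m + 1)) → F) = 2 * (m + 1) + 1 :=
    stdO_finrank (m + 1) F
  have hui := isom_of_mem h2 hs hu
  have hsi : f.Isom s := hui.pow p
  have hyi : f.Isom y := hui.pow M
  have hxi : f.Isom x := hsi.pow t
  have hxr : x ^ r = 1 := by rw [← hx]; exact pow_orderOf_eq_one x
  have hsM : s ^ M = 1 := by rw [← hs']; exact pow_orderOf_eq_one s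
  have hyp : y ^ p = 1 := by rw [← hy']; exact pow_orderOf_eq_one y
  have hsO : s ∈ Om f := pow_mem hu p
  have hcsy : Commute y s := (Commute.refl u).pow_pow M p
  have hcsx : Commute s x := (Commute.refl s).pow_right t
  have hcyx : Commute y x := hcsy.pow_right t
  obtain ⟨h1, h3, h4⟩ := finrank_com h2 (Or.inl rfl) hs hnd hxi hrodd hrF hx hT
  have hcompl := isCompl hrF hxr (u := x) (V := Unit ⊕ (Fin (m + 1) ⊕ Fin (m + 1)) → F)
  have hsum : finrank F (comS x) + finrank F (fixS x) = 2 * (m + 1) + 1 := by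
    rw [← hd]
    exact Submodule.finrank_add_eq_of_isCompl hcompl
  have hcom : finrank F (comS x) = 2 * m := by
    obtain ⟨e, he⟩ := h3
    have h5 : finrank F (comS x) = 2 * m ∨ finrank F (comS x) = 2 * m + 2 := by omega
    rcases h5 with h5 | h5
    · exact h5
    · exfalso
      rw [h5] at h4
      apply hrn 2 (by norm_num) (by omega)
      have h6 : r ∣ (q ^ (2 * m + 2) - 1) - (q ^ (2 * m) - 1) * q ^ 2 :=
        Nat.dvd_sub h4 (hrd.mul_right _)
      have h7 : (q ^ (2 * m + 2) - 1) - (q ^ (2 * m) - 1) * q ^ 2 = q ^ 2 - 1 := by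
        rw [Nat.sub_mul, one_mul, ← pow_add]
        have h8 : q ^ 2 ≤ q ^ (2 * m + 2) := Nat.pow_le_pow_right hq1.le (by omega)
        have h9 : 1 ≤ q ^ 2 := Nat.one_le_pow _ _ hq1.le
        omega
      rwa [h7] at h6
  have hfix3 : finrank F (fixS x) = 3 := by omega
  -- decompositions
  obtain ⟨s₁, s₂, a1, a2, a3, a4, a5, -, -, a6, a7⟩ := H46.OrthDec.decomp_isom hs hnd (comS x)
    (fixS x) hcompl (orth hs hxi) s hsi (com_inv hcsx) (fix_inv hcsx)
  obtain ⟨y₁, y₂, b1, b2, -, -, -, -, -, b6, b7⟩ := H46.OrthDec.decomp_isom hs hnd (comS x)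
    (fixS x) hcompl (orth hs hxi) y hyi (com_inv hcyx) (fix_inv hcyx)
  obtain ⟨x₁, -, c1, -, -, -, -, -, -, c6, -⟩ := H46.OrthDec.decomp_isom hs hnd (comS x)
    (fixS x) hcompl (orth hs hxi) x hxi (com_inv (Commute.refl x)) (fix_inv (Commute.refl x))
  have hpow1 : ∀ {g : (Module.End F (Unit ⊕ (Fin (m + 1) ⊕ Fin (m + 1)) → F))ˣ}
      {W : Submodule F (Unit ⊕ (Fin (m + 1) ⊕ Fin (m + 1)) → F)} {w : (Module.End F W)ˣ},
      (∀ z : W, (((w : Module.End F W) z : W) : Unit ⊕ (Fin (m + 1) ⊕ Fin (m + 1)) → F) =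
        (g : Module.End F (Unit ⊕ (Fin (m + 1) ⊕ Fin (m + 1)) → F)) z) →
      ∀ k : ℕ, g ^ k = 1 → w ^ k = 1 := by
    intro g W w hw k hk
    apply Units.ext
    apply LinearMap.ext
    intro z
    apply Subtype.ext
    rw [Units.val_pow_eq_pow_val, H46.OrthDec.res_pow hw k z, ← Units.val_pow_eq_pow_val, hk]
    rfl
  have hx1r := hpow1 c6 r hxr
  have hfix1 : ∀ w, (x₁ : Module.End F (comS x)) w = w → w = 0 := by
    intro w hw
    apply Subtype.ext
    apply fix_com hrF hxr _ w.2
    rw [mem_fixS, ← c6, hw]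
  have hcom1 : ∀ {g : (Module.End F (Unit ⊕ (Fin (m + 1) ⊕ Fin (m + 1)) → F))ˣ}
      {w : (Module.End F (comS x))ˣ},
      (∀ z : comS x, (((w : Module.End F (comS x)) z : comS x) :
        Unit ⊕ (Fin (m + 1) ⊕ Fin (m + 1)) → F) =
        (g : Module.End F (Unit ⊕ (Fin (m + 1) ⊕ Fin (m + 1)) → F)) z) → Commute g x →
      Commute w x₁ := by
    intro g w hw hc
    apply Units.ext
    apply LinearMap.ext
    intro z
    apply Subtype.ext
    change ((((w : Module.End F (comS x)) ((x₁ : Module.End F (comS x)) z)) : comS x) :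
      Unit ⊕ (Fin (m + 1) ⊕ Fin (m + 1)) → F) =
      ((((x₁ : Module.End F (comS x)) ((w : Module.End F (comS x)) z)) : comS x) :
        Unit ⊕ (Fin (m + 1) ⊕ Fin (m + 1)) → F)
    rw [hw, c6, c6, hw]
    exact congrArg (fun t : (Module.End F (Unit ⊕ (Fin (m + 1) ⊕ Fin (m + 1)) → F))ˣ =>
      (t : Module.End F (Unit ⊕ (Fin (m + 1) ⊕ Fin (m + 1)) → F)) z) hc.eq
  -- irreducibility
  have hirr : ∀ U : Submodule F (comS x), (∀ v ∈ U, (x₁ : Module.End F (comS x)) v ∈ U) →
      U = ⊥ ∨ U = ⊤ := by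
    intro U hU
    by_cases hb : U = ⊥
    · exact Or.inl hb
    right
    obtain ⟨w, -, hw⟩ := H46.OrthDec.exists_res x₁ U hU
    have hwr : w ^ r = 1 := by
      apply Units.ext
      apply LinearMap.ext
      intro z
      apply Subtype.ext
      rw [Units.val_pow_eq_pow_val, H46.OrthDec.res_pow hw r z, ← Units.val_pow_eq_pow_val, hx1r]
      rfl
    have hwf : ∀ z : U, (w : Module.End F U) z = z → z = 0 := by
      intro z hz
      apply Subtype.ext
      apply hfix1
      rw [← hw, hz]
    have h5 := dvd_of_fpf (V := U) (F := F) hwr hwf hrF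
    have hU0 : finrank F U ≠ 0 := fun h => hb (Submodule.finrank_eq_zero.mp h)
    apply Submodule.eq_top_of_finrank_eq
    apply le_antisymm (Submodule.finrank_le U)
    by_contra hlt
    push Not at hlt
    exact hrn (finrank F U) (Nat.pos_of_ne_zero hU0) (by omega) h5
  haveI hWnt : Nontrivial (comS x) := Module.nontrivial_of_finrank_pos (R := F) (by omega)
  -- `y` is trivial on the commutator space
  have hy1p := hpow1 b6 p hyp
  have hcy1 := hcom1 b6 hcyx
  have hy1 : y₁ = 1 := by
    rcases hirr (fixS y₁) (fix_inv hcy1.symm) with h | h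
    · exfalso
      obtain ⟨v, hv⟩ := exists_ne (0 : comS x)
      apply hv
      apply exists_fixed p hy1p v
      intro w hw
      have : w ∈ fixS y₁ := mem_fixS.mpr hw
      rwa [h, Submodule.mem_bot] at this
    · apply Units.ext
      apply LinearMap.ext
      intro v
      have : v ∈ fixS y₁ := by rw [h]; trivial
      exact mem_fixS.mp this
  have hy2 : y₂ ≠ 1 := by
    intro h
    have : y = 1 := by
      apply Units.ext
      apply LinearMap.ext
      intro v
      obtain ⟨a, ha, b, hb, rfl⟩ := H46.SForm.mem_sup_of_compl hcompl v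
      have h5 := b6 ⟨a, ha⟩
      have h6 := b7 ⟨b, hb⟩
      rw [hy1] at h5
      rw [h] at h6
      rw [map_add]
      change a = _ at h5
      change b = _ at h6
      rw [← h5, ← h6]
      rfl
    rw [this, orderOf_one] at hy'
    exact hpP.one_lt.ne hy'
  have hc2 : Commute y₂ s₂ := by
    apply Units.ext
    apply LinearMap.ext
    intro z
    apply Subtype.ext
    change ((((y₂ : Module.End F (fixS x)) ((s₂ : Module.End F (fixS x)) z)) : fixS x) :
      Unit ⊕ (Fin (m + 1) ⊕ Fin (m + 1)) → F) =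
      ((((s₂ : Module.End F (fixS x)) ((y₂ : Module.End F (fixS x)) z)) : fixS x) :
        Unit ⊕ (Fin (m + 1) ⊕ Fin (m + 1)) → F)
    rw [b7, a7, a7, b7]
    exact congrArg (fun t : (Module.End F (Unit ⊕ (Fin (m + 1) ⊕ Fin (m + 1)) → F))ˣ =>
      (t : Module.End F (Unit ⊕ (Fin (m + 1) ⊕ Fin (m + 1)) → F)) z) hcsy.eq
  obtain ⟨α, hα, hα'⟩ := three h2 p (h := f.pull (fixS x).subtype) (fun v w => hs _ _) a4 hfix3 b2
    (hpow1 b7 p hyp) hy2 a2 hc2 hMF (hpow1 a7 M hsM)
  -- `s` acts freely on the commutator space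
  have hcs1 := hcom1 a6 hcsx
  have hfree1 : ∀ (v : comS x), v ≠ 0 → ∀ k : ℕ, ((s₁ : Module.End F (comS x)) ^ k) v = v →
      s₁ ^ k = 1 := by
    intro v hv k hk
    have hck : Commute x₁ (s₁ ^ k) := (hcs1.symm.pow_right k)
    rcases hirr (fixS (s₁ ^ k)) (fix_inv hck) with h | h
    · exfalso
      have : v ∈ fixS (s₁ ^ k) := mem_fixS.mpr (by rw [Units.val_pow_eq_pow_val]; exact hk)
      rw [h, Submodule.mem_bot] at this
      exact hv this
    · apply Units.ext
      apply LinearMap.ext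
      intro w
      have : w ∈ fixS (s₁ ^ k) := by rw [h]; trivial
      exact mem_fixS.mp this
  have hMe : Even M := by
    have : Odd (q ^ m) := hqodd.pow
    rw [hM]
    exact this.add_one
  have hall : ∀ k : ℕ, Even k → s₁ ^ k = 1 → s ^ k = 1 := by
    intro k hk h
    apply Units.ext
    apply LinearMap.ext
    intro v
    obtain ⟨a, ha, b, hb, rfl⟩ := H46.SForm.mem_sup_of_compl hcompl v
    have h5 := H46.OrthDec.res_pow a6 k ⟨a, ha⟩
    have h6 := H46.OrthDec.res_pow a7 k ⟨b, hb⟩
    have h7 : ((s₂ : Module.End F (fixS x)) ^ k) ⟨b, hb⟩ = ⟨b, hb⟩ := by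
      obtain ⟨i, rfl⟩ := hk
      have h8 : ∀ w, ((s₂ : Module.End F (fixS x)) ^ 2) w = w := by
        intro w
        rw [pow_two, Module.End.mul_apply, hα', hα', smul_smul]
        rcases hα with rfl | rfl <;> simp
      have h9 : (s₂ : Module.End F (fixS x)) ^ 2 = 1 := LinearMap.ext h8
      rw [← two_mul, pow_mul, h9, one_pow]
      rfl
    rw [h7] at h6
    rw [← Units.val_pow_eq_pow_val, h] at h5
    change a = _ at h5
    change b = _ at h6
    rw [Units.val_pow_eq_pow_val, map_add, ← h5, ← h6]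
    rfl
  have hM2 : 2 < M := by
    have : q ≤ q ^ m := Nat.le_self_pow (by omega) q
    omega
  -- the eigenvalue on the fixed space is one
  have hdets : LinearMap.det (s : Module.End F (Unit ⊕ (Fin (m + 1) ⊕ Fin (m + 1)) → F)) = 1 :=
    det_of_mem hsO
  have hdets1 : LinearMap.det (s₁ : Module.End F (comS x)) = 1 := by
    have hinj : ∀ v, (s₁ : Module.End F (comS x)) v =
        ((s₁⁻¹ : (Module.End F (comS x))ˣ) : Module.End F (comS x)) v → v = 0 := by
      intro v hv
      by_contra hv0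
      have h5 : ((s₁ : Module.End F (comS x)) ^ 2) v = v := by
        rw [pow_two, Module.End.mul_apply, hv]
        exact unit_inv_apply s₁ v
      have h6 := hall 2 (by decide) (hfree1 v hv0 2 h5)
      have h7 := orderOf_dvd_of_pow_eq_one h6
      rw [hs'] at h7
      exact absurd (Nat.le_of_dvd (by norm_num) h7) (by omega)
    have hsp : (f.pull (comS x).subtype).Sym 1 := fun v w => hs _ _
    exact det_alt (tw (f.pull (comS x).subtype) s₁) (alt_of_sym h2 (tw_sym hsp a1)) (tw_nd a3 hinj)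
      s₁ (tw_isom a1 (Commute.refl _))
  have hα1 : α = 1 := by
    have h5 : (s₂ : Module.End F (fixS x)) = α • LinearMap.id := LinearMap.ext hα'
    rw [hdets, hdets1, h5, LinearMap.det_smul, LinearMap.det_id, hfix3, mul_one, one_mul] at a5
    rcases hα with rfl | rfl
    · rfl
    · exfalso
      apply h2
      linear_combination a5
  have hfixeq : ∀ a ∈ comS x, ∀ b ∈ fixS x, ∀ k : ℕ,
      ((s : Module.End F (Unit ⊕ (Fin (m + 1) ⊕ Fin (m + 1)) → F)) ^ k) (a + b) = a + b →
      a = 0 ∨ M ∣ k := by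
    intro a ha b hb k hk
    by_cases ha0 : a = 0
    · exact Or.inl ha0
    right
    have h5 := H46.OrthDec.res_pow a6 k ⟨a, ha⟩
    have h6 : ((s : Module.End F (Unit ⊕ (Fin (m + 1) ⊕ Fin (m + 1)) → F)) ^ k) b = b := by
      have h7 := H46.OrthDec.res_pow a7 k ⟨b, hb⟩
      have h8 : (s₂ : Module.End F (fixS x)) = 1 := by
        apply LinearMap.ext
        intro w
        rw [hα', hα1, one_smul]
        rfl
      rw [h8, one_pow] at h7
      exact h7.symm
    rw [map_add, h6, ← h5] at hk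
    have h9 := add_right_cancel hk
    have h10 := hfree1 ⟨a, ha⟩ (fun h => ha0 (congrArg Subtype.val h)) k (Subtype.ext h9)
    rw [← hs']
    apply orderOf_dvd_of_pow_eq_one
    apply Units.ext
    apply LinearMap.ext
    intro v
    obtain ⟨a', ha', b', hb', rfl⟩ := H46.SForm.mem_sup_of_compl hcompl v
    have h11 := H46.OrthDec.res_pow a6 k ⟨a', ha'⟩
    have h12 := H46.OrthDec.res_pow a7 k ⟨b', hb'⟩
    have h8 : (s₂ : Module.End F (fixS x)) = 1 := by
      apply LinearMap.ext
      intro w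
      rw [hα', hα1, one_smul]
      rfl
    rw [h8, one_pow] at h12
    rw [← Units.val_pow_eq_pow_val, h10] at h11
    change a' = _ at h11
    change b' = _ at h12
    rw [Units.val_pow_eq_pow_val, map_add, ← h11, ← h12]
    rfl
  -- counting
  obtain ⟨j, hj⟩ := SpecCount.sign_free h2 hs hsO (1 : F) (N := M) hMe hM0 hsM (by
    intro v hv k hk
    obtain ⟨a, ha, b, hb, rfl⟩ := H46.SForm.mem_sup_of_compl hcompl v
    rcases hfixeq a ha b hb k hk with h | h
    · exfalso
      apply hv
      have h7 := a7 ⟨b, hb⟩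
      rw [hα', hα1, one_smul] at h7
      rw [h, zero_add]
      exact h7.symm
    · exact h)
  have hfixs : ∀ v, (s : Module.End F (Unit ⊕ (Fin (m + 1) ⊕ Fin (m + 1)) → F)) v = v ↔
      v ∈ fixS x := by
    intro v
    constructor
    · intro h
      obtain ⟨a, ha, b, hb, rfl⟩ := H46.SForm.mem_sup_of_compl hcompl v
      rcases hfixeq a ha b hb 1 (by rw [pow_one]; exact h) with h5 | h5
      · rw [h5, zero_add]; exact hb
      · exact absurd (Nat.le_of_dvd (by norm_num) h5) (by omega)
    · intro h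
      have h7 := a7 ⟨v, h⟩
      rw [hα', hα1, one_smul] at h7
      exact h7.symm
  have hcne : (1 : F) ≠ 0 := one_ne_zero
  obtain ⟨e, he, hcard⟩ := SpecCount.card_norm h2 hs hnd (m := m + 1) hd hcne
  obtain ⟨e', he', hcard'⟩ := SpecCount.card_norm h2 (f := f.pull (fixS x).subtype)
    (fun v w => hs _ _) a4 (m := 1) (by rw [hfix3]) hcne
  have hcardL : Nat.card {v : Unit ⊕ (Fin (m + 1) ⊕ Fin (m + 1)) → F // Qof f v = 1 ∧
      (s : Module.End F (Unit ⊕ (Fin (m + 1) ⊕ Fin (m + 1)) → F)) v = v} =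
      Nat.card {v : fixS x // Qof (f.pull (fixS x).subtype) v = 1} := by
    apply Nat.card_congr
    exact
      { toFun := fun v => ⟨⟨v.1, (hfixs _).mp v.2.2⟩, v.2.1⟩
        invFun := fun v => ⟨v.1.1, v.2, (hfixs _).mpr v.1.2⟩
        left_inv := fun v => rfl
        right_inv := fun v => rfl }
  rw [hcardL] at hj
  have hj' : (Nat.card {v : Unit ⊕ (Fin (m + 1) ⊕ Fin (m + 1)) → F // Qof f v = 1} : ℤ) =
      2 * M * j + (Nat.card {v : fixS x // Qof (f.pull (fixS x).subtype) v = 1} : ℤ) := by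
    exact_mod_cast hj
  rw [hcard, hcard'] at hj'
  apply arith (q := (q : ℤ)) (Q := (q : ℤ) ^ m) (e := e) (e' := e') (j := (j : ℤ))
  · exact_mod_cast hqodd
  · have : Odd (q ^ m) := hqodd.pow
    exact_mod_cast this
  · exact_mod_cast hq3
  · have : q ^ 2 ≤ q ^ m := Nat.pow_le_pow_right hq1.le hm
    exact_mod_cast this
  · exact he
  · exact he'
  · have hMz : (M : ℤ) = (q : ℤ) ^ m + 1 := by rw [hM]; push_cast; ring
    rw [hMz] at hj'
    have e1 : (q : ℤ) ^ (2 * (m + 1)) = ((q : ℤ) ^ m) ^ 2 * (q : ℤ) ^ 2 := by ring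
    have e2 : (q : ℤ) ^ (m + 1) = (q : ℤ) * (q : ℤ) ^ m := by ring
    rw [e1, e2] at hj'
    linear_combination hj'

end H17.SpecOrd2
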