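import Mathlib
import Cfsg.Agent.Lib.H97.AschHex2
import Cfsg.Agent.Lib.H97.AschFive2
import Cfsg.Agent.Lib.H17.U35F

/-!
Stabilisers of frames are not maximal in the three-dimensional unitary group over the field with 25 elements
(piece A of S5778).
-/

set_option autoImplicit false
set_option linter.unusedSectionVars false

namespace H17.U35A

open Cfsg Cfsg.Geo Matrix H97.AschRad H97.AschEnv H97.AschNonab H97.AschGrp H97.AschLinear H97.AschIdem H97.AschDecomp
open H97.AschForm H97.AschSubfield H97.AschReal H97.AschNCU H97.AschUSymp H97.AschUPair H97.AschUElim H97.AschPauli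
open H97.AschCases H97.AschNC H97.AschHex
open H96.AschSympType1 H96.AschSympType2 H96.AschSympType3 H96.AschSubForm H96.AschSympType5 H96.AschAdj
open H96.AschComm H96.AschField H96.AschSympEx
open H96.AschSp H96.AschSp2 H96.AschSU H96.AschSU2 H96.AschOdd2 H96.AschDescent H96.AschSU3

variable {F : Type*} [Field F] [Fintype F] {q : ℕ} {σ : F ≃+* F}

/-- the coordinates in a frame -/
def co (q : ℕ) (w : Fin 3 → (Fin 3 → F)) (v : Fin 3 → F) : Fin 3 → F := fun i => hermForm 3 F q v (w i)

/-- the stabiliser of the configuration -/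
def stabOm (q : ℕ) (w : Fin 3 → (Fin 3 → F)) : Subgroup (GL (Fin 3) F) where
  carrier := {g | ∀ v, H17.U35.Om (co q w ((g : Matrix (Fin 3) (Fin 3) F) *ᵥ v)) ↔ H17.U35.Om (co q w v)}
  one_mem' := fun v => by rw [Units.val_one, Matrix.one_mulVec]
  mul_mem' := by
    intro a b ha hb v
    rw [Units.val_mul, ← Matrix.mulVec_mulVec, ha, hb]
  inv_mem' := by
    intro a ha v
    have h1 := ha (((a⁻¹ : GL (Fin 3) F) : Matrix (Fin 3) (Fin 3) F) *ᵥ v)
    rw [Matrix.mulVec_mulVec, ← Units.val_mul, mul_inv_cancel, Units.val_one, Matrix.one_mulVec] at h1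
    exact h1.symm

variable {w : Fin 3 → (Fin 3 → F)}

lemma co_add (h : Ctx (F := F) σ 3 q) (u v : Fin 3 → F) (i : Fin 3) : co q w (u + v) i = co q w u i + co q w v i :=
  h.form.sesq.add_left _ _ _

lemma co_smul (h : Ctx (F := F) σ 3 q) (c : F) (v : Fin 3 → F) (i : Fin 3) : co q w (c • v) i = c * co q w v i :=
  h.form.sesq.smul_left _ _ _

lemma co_sum (h : Ctx (F := F) σ 3 q) (hww : ∀ i j, hermForm 3 F q (w i) (w j) = if i = j then 1 else 0)
    (x : Fin 3 → F) (j : Fin 3) : co q w (∑ i, x i • w i) j = x j := by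
  have hS := h.form.sesq
  change hermForm 3 F q _ _ = _
  rw [hS.sum_left, Finset.sum_eq_single j]
  · rw [hS.smul_left, hww, if_pos rfl, mul_one]
  · intro k _ hk
    rw [hS.smul_left, hww, if_neg hk, mul_zero]
  · intro h; exact absurd (Finset.mem_univ _) h

lemma dot_sum (h : Ctx (F := F) σ 3 q) (v x : Fin 3 → F) :
    hermForm 3 F q v (∑ i, x i • w i) = ∑ i, σ (x i) * co q w v i := by
  have hS := h.form.sesq
  rw [hS.sum_right]
  exact Finset.sum_congr rfl (fun i _ => hS.smul_right _ _ _)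

lemma five (h : Ctx (F := F) σ 3 q) (hq : q = 5) : (5 : F) = 0 := by
  have hF : Fintype.card F = 25 := by rw [h.card, hq]; norm_num
  obtain ⟨r, hr, h5⟩ := H17.U35.exists_r hF
  exact h5

/-- an involution in the group preserving the configuration -/
lemma exists_refl (h : Ctx (F := F) σ 3 q) (hq : q = 5)
    (hww : ∀ i j, hermForm 3 F q (w i) (w j) = if i = j then 1 else 0) :
    ∃ g ∈ GU 3 F q ⊓ specialLinear (Fin 3) F, (∀ v, (g : Matrix (Fin 3) (Fin 3) F) *ᵥ v =
      (-1 : F) • (v + (∑ j, co q w v j) • ∑ i, (1 : F) • w i)) ∧ g ∈ stabOm q w := by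
  have hS := h.form.sesq
  have hF : Fintype.card F = 25 := by rw [h.card, hq]; norm_num
  have h5 := five h hq
  set s : Fin 3 → F := ∑ i, (1 : F) • w i with hs
  have hvs : ∀ v, hermForm 3 F q v s = ∑ j, co q w v j := by
    intro v
    have := dot_sum h (w := w) v (fun _ => 1)
    simp only [map_one, one_mul] at this
    exact this
  have hss : hermForm 3 F q s s = 3 := by
    rw [hvs]
    have h1 : ∀ j, co q w s j = 1 := fun j => co_sum h hww (fun _ => 1) j
    simp only [h1]
    simp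
  let φ : Fin 3 → F := fun i => s i ^ q
  have hφ : ∀ v, φ ⬝ᵥ v = hermForm 3 F q v s := by
    intro v
    simp only [dotProduct, hermForm, φ]
    exact Finset.sum_congr rfl (fun i _ => mul_comm _ _)
  let M : Matrix (Fin 3) (Fin 3) F := (-1 : F) • (1 + Matrix.vecMulVec s φ)
  have hM : ∀ v, M *ᵥ v = (-1 : F) • (v + (hermForm 3 F q v s) • s) := by
    intro v
    simp only [M]
    rw [Matrix.smul_mulVec, Matrix.add_mulVec, Matrix.one_mulVec, Matrix.vecMulVec_mulVec, hφ]
    congr 2
    ext i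
    simp [mul_comm]
  have hMM : M * M = 1 := by
    apply Matrix.ext_of_mulVec_single
    intro i
    rw [← Matrix.mulVec_mulVec, hM, hM, Matrix.one_mulVec, hS.smul_left, hS.add_left, hS.smul_left, hss]
    ext j
    simp only [Pi.smul_apply, Pi.add_apply, smul_eq_mul]
    linear_combination (hermForm 3 F q (Pi.single i 1) s * s j) * h5
  let g : GL (Fin 3) F := ⟨M, M, hMM, hMM⟩
  have hgv : ∀ v, (g : Matrix (Fin 3) (Fin 3) F) *ᵥ v = (-1 : F) • (v + (∑ j, co q w v j) • s) := by
    intro v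
    rw [← hvs]
    exact hM v
  have hgU : g ∈ GU 3 F q := by
    have key : ∀ u v, hermForm 3 F q ((g : Matrix (Fin 3) (Fin 3) F) *ᵥ u) ((g : Matrix (Fin 3) (Fin 3) F) *ᵥ v) =
        hermForm 3 F q u v := by
      intro u v
      have h1 : (g : Matrix (Fin 3) (Fin 3) F) *ᵥ u = (-1 : F) • (u + (hermForm 3 F q u s) • s) := hM u
      have h2 : (g : Matrix (Fin 3) (Fin 3) F) *ᵥ v = (-1 : F) • (v + (hermForm 3 F q v s) • s) := hM v
      have h3 : hermForm 3 F q s v = σ (hermForm 3 F q v s) := by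
        have := h.form.herm s v
        rwa [one_mul] at this
      rw [h1, h2, hS.smul_left, hS.smul_right, hS.add_left, hS.smul_left, hS.add_right, hS.add_right,
        hS.smul_right, hS.smul_right, hss, h3, map_neg, map_one]
      linear_combination (hermForm 3 F q u s * σ (hermForm 3 F q v s)) * h5
    exact key
  have hgS : g ∈ specialLinear (Fin 3) F := by
    rw [H97.AschFive2.mem_SL]
    change M.det = 1
    have h1 : φ ⬝ᵥ s = 3 := by rw [hφ, hss]
    have h2 : M.det = -(1 + φ ⬝ᵥ s) := by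
      simp only [M, Matrix.det_fin_three, dotProduct, Fin.sum_univ_three, Matrix.smul_apply, Matrix.add_apply,
        Matrix.vecMulVec_apply, Matrix.one_apply, smul_eq_mul]
      simp
      ring
    rw [h2, h1]
    linear_combination -h5
  refine ⟨g, ⟨hgU, hgS⟩, hgv, ?_⟩
  have hgg : ∀ v, (g : Matrix (Fin 3) (Fin 3) F) *ᵥ ((g : Matrix (Fin 3) (Fin 3) F) *ᵥ v) = v := by
    intro v
    rw [Matrix.mulVec_mulVec]
    change (M * M) *ᵥ v = v
    rw [hMM, Matrix.one_mulVec]
  have hact : ∀ v, co q w ((g : Matrix (Fin 3) (Fin 3) F) *ᵥ v) =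
      fun i => (-1) * (co q w v i + (co q w v 0 + co q w v 1 + co q w v 2)) := by
    intro v
    ext i
    rw [hgv, co_smul h, co_add h, co_smul h, hs, co_sum h hww, mul_one, Fin.sum_univ_three]
  have key : ∀ v, H17.U35.Om (co q w v) → H17.U35.Om (co q w ((g : Matrix (Fin 3) (Fin 3) F) *ᵥ v)) := by
    intro v hv
    rw [hact]
    exact H17.U35.Om_mono (π := 1) (d := fun _ => -1) (fun _ => by norm_num)
      (by rw [Fin.prod_univ_three]; norm_num) (fun i => rfl) (H17.U35.Om_h hF hv)
  intro v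
  constructor
  · intro hv
    have := key _ hv
    rwa [hgg] at this
  · exact key v

/-- the configuration is not invariant under the special unitary group -/
lemma not_le (h : Ctx (F := F) σ 3 q) (hq : q = 5)
    (hww : ∀ i j, hermForm 3 F q (w i) (w j) = if i = j then 1 else 0) :
    ¬ GU 3 F q ⊓ specialLinear (Fin 3) F ≤ stabOm q w := by
  intro hsub
  have hS := h.form.sesq
  have hF : Fintype.card F = 25 := by rw [h.card, hq]; norm_num
  obtain ⟨r, hr, h5⟩ := H17.U35.exists_r hF
  have hli := frame_li h hww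
  have hσr : σ r + 1 * r = 0 := by
    rw [h.val, hq]
    linear_combination (r ^ 3 + 2 * r) * hr + r * h5
  have hr0 : r ≠ 0 := by
    rintro rfl
    have := H17.U35.nz h5 (d := 2) (by norm_num) (by norm_num)
    apply this
    push_cast
    linear_combination -hr
  obtain ⟨α, hα0, hα⟩ := h.norm (c := -1) (by norm_num) (by rw [map_neg, map_one])
  let x : Fin 3 → F := ![1, α, 0]
  have hu : (∑ i, x i • w i) ∈ Iso 3 q F := by
    refine ⟨fun h0 => ?_, ?_⟩
    · have h1 := congrFun (hli _ h0) 0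
      simp [x] at h1
    · rw [dot_sum h]
      simp only [co_sum h hww]
      simp [x, Fin.sum_univ_three]
      linear_combination hα
  obtain ⟨g, hg, htv⟩ := h.tv hu hr0 hσr
  have h1 := hsub hg (w 0)
  have hw0 : co q w (w 0) = ![1, 0, 0] := by
    ext i
    change hermForm 3 F q (w 0) (w i) = _
    rw [hww]
    fin_cases i <;> simp
  have h2 : H17.U35.Om (co q w (w 0)) := by
    rw [hw0]
    refine ⟨⟨?_, ?_⟩, ?_⟩
    · simp
    · right; right; simp
    · simp
  have h3 := h1.mpr h2
  have h4 : hermForm 3 F q (w 0) (∑ i, x i • w i) = 1 := by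
    rw [dot_sum h, hw0]
    simp [x, Fin.sum_univ_three]
  have h6 : co q w ((g : Matrix (Fin 3) (Fin 3) F) *ᵥ w 0) = ![1 + r, r * α, 0] := by
    ext i
    rw [htv.val, co_add h, co_smul h, co_sum h hww, h4, hw0]
    fin_cases i <;> simp [x]
  rw [h6] at h3
  obtain ⟨⟨-, h7⟩, -⟩ := h3
  simp only [Matrix.cons_val_zero, Matrix.cons_val_one, Matrix.cons_val] at h7
  have e1 : (1 + r) ^ 6 = 4 := by
    linear_combination (r ^ 4 + 6 * r ^ 3 + 17 * r ^ 2 + 32 * r + 49) * hr + (14 * r + 19) * h5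
  have hα6 : α ^ 6 = -1 := by
    rw [h.val, hq] at hα
    linear_combination hα
  have e2 : (r * α) ^ 6 = 2 := by
    rw [mul_pow, hα6]
    linear_combination (-(r ^ 4 + 2 * r ^ 2 + 4)) * hr - 2 * h5
  rw [e1, e2] at h7
  have n2 := H17.U35.nz h5 (d := 2) (by norm_num) (by norm_num)
  have n4 := H17.U35.nz h5 (d := 4) (by norm_num) (by norm_num)
  push_cast at n2 n4
  rcases h7 with h7 | h7 | h7
  · apply n2; linear_combination h7
  · apply n4; rw [h7]; norm_num
  · apply n2; rw [h7]; norm_num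

/-- monomial elements preserve the configuration -/
lemma mono_mem (h : Ctx (F := F) σ 3 q) (hq : q = 5)
    (hww : ∀ i j, hermForm 3 F q (w i) (w j) = if i = j then 1 else 0) {g : GL (Fin 3) F}
    (hg : g ∈ GU 3 F q ⊓ specialLinear (Fin 3) F) {π : Equiv.Perm (Fin 3)} {d : Fin 3 → F}
    (hgd : ∀ i, (g : Matrix (Fin 3) (Fin 3) F) *ᵥ w i = d i • w (π i)) (hdd : ∀ i, d i * σ (d i) = 1) (v : Fin 3 → F)
    (hv : H17.U35.Om (co q w v)) : H17.U35.Om (co q w ((g : Matrix (Fin 3) (Fin 3) F) *ᵥ v)) := by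
  have hli := frame_li h hww
  have hP2 : (∏ x, d x) ^ 2 = 1 := by
    rw [det_mono' hli hgd]
    rw [(H97.AschFive2.mem_SL).1 hg.2, one_pow]
  refine H17.U35.Om_mono (π := π) (d := d) (fun i => ?_) ?_ (fun i => coord_mono h hg.1 hgd hdd v i) hv
  · have := hdd i
    rw [h.val, hq] at this
    linear_combination this
  · calc (∏ x, d x) ^ 8 = ((∏ x, d x) ^ 2) ^ 4 := by ring
      _ = 1 := by rw [hP2, one_pow]

/-- **no maximal subgroup preserves a frame** -/
theorem no_lines (h : Ctx (F := F) σ 3 q) (hq : q = 5) {D : Fin 3 → Submodule F (Fin 3 → F)}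
    (hD : IsNondegenerateMDecomposition (hermForm 3 F q) 1 D) {H : Subgroup (GL (Fin 3) F)}
    (hH : IsMaximalIn (GU 3 F q ⊓ specialLinear (Fin 3) F) H) (hle : H ≤ decompositionStabilizer D) : False := by
  classical
  have h5 := five h hq
  obtain ⟨w, hwD, hww, hexp⟩ := frame_of_lines h hD
  have hHM : H ≤ stabOm q w := by
    have key : ∀ g ∈ H, ∀ v, H17.U35.Om (co q w v) →
        H17.U35.Om (co q w ((g : Matrix (Fin 3) (Fin 3) F) *ᵥ v)) := by
      intro g hg v hv
      obtain ⟨π, d, hgd, hdd⟩ := frame_mono h hww hwD hexp (hle hg) (hH.1.le hg).1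
      exact mono_mem h hq hww (hH.1.le hg) hgd hdd v hv
    intro g hg v
    constructor
    · intro hv
      have h1 := key g⁻¹ (H.inv_mem hg) _ hv
      rwa [Matrix.mulVec_mulVec, ← Units.val_mul, inv_mul_cancel, Units.val_one, Matrix.one_mulVec] at h1
    · exact key g hg v
  have hHeq := eq_of_max hH hHM (not_le h hq hww)
  obtain ⟨g, hg, hgv, hgM⟩ := exists_refl h hq hww
  have hgH : g ∈ H := by
    rw [hHeq]
    exact ⟨hgM, hg⟩
  obtain ⟨π, d, hgd, hdd⟩ := frame_mono h hww hwD hexp (hle hgH) hg.1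
  have h4 : ∀ i, co q w ((g : Matrix (Fin 3) (Fin 3) F) *ᵥ w 0) i = d 0 * (if π 0 = i then 1 else 0) := by
    intro i
    rw [hgd, co_smul h]
    change _ * hermForm 3 F q _ _ = _
    rw [hww]
  have hw0 : co q w (w 0) = ![1, 0, 0] := by
    ext i
    change hermForm 3 F q (w 0) (w i) = _
    rw [hww]
    fin_cases i <;> simp
  have h3 : ∀ i, co q w ((g : Matrix (Fin 3) (Fin 3) F) *ᵥ w 0) i ≠ 0 := by
    intro i
    rw [hgv, co_smul h, co_add h, co_smul h, co_sum h hww, hw0, Fin.sum_univ_three]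
    have n2 := H17.U35.nz h5 (d := 2) (by norm_num) (by norm_num)
    push_cast at n2
    fin_cases i
    · simp
      intro h0
      apply n2
      linear_combination -h0
    · simp
    · simp
  obtain ⟨i, hi⟩ : ∃ i : Fin 3, π 0 ≠ i := by
    by_cases h0 : π 0 = 0
    · exact ⟨1, by rw [h0]; decide⟩
    · exact ⟨0, h0⟩
  apply h3 i
  rw [h4, if_neg hi, mul_zero]

end H17.U35A
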