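import Cfsg.Agent.Lib.H17.U35

set_option autoImplicit false

/-! Transport of the computation of `U35` to a field with 25 elements. -/

namespace H17.U36

open Matrix MulAction H17.U3A H17.U35
open scoped LinearAlgebra.Projectivization Pointwise

variable {K : Type*} [Field K] {w : K}

structure Om (w : K) : Prop where
  five : (5 : K) = 0
  eq : w ^ 2 = -1 - w

def ph (w : K) (x : E) : K := (x.1 : K) + (x.2 : K) * w

theorem cast_mod (h : (5 : K) = 0) (n : ℕ) : ((n % 5 : ℕ) : K) = n := by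
  have h1 : ((5 * (n / 5) + n % 5 : ℕ) : K) = n := by rw [Nat.div_add_mod]
  rw [← h1]
  push_cast
  rw [h]; ring

theorem ph_ad (O : Om w) (x y : E) : ph w (ad x y) = ph w x + ph w y := by
  simp only [ph, ad, cast_mod O.five]
  push_cast; ring

theorem ph_ml (O : Om w) (x y : E) : ph w (ml x y) = ph w x * ph w y := by
  simp only [ph, ml, cast_mod O.five]
  push_cast
  linear_combination ((x.2 : K) * y.2 * (1 + w)) * O.five - ((x.2 : K) * y.2) * O.eq

theorem ph_ng (O : Om w) (x : E) : ph w (ng x) = - ph w x := by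
  simp only [ph, ng, cast_mod O.five]
  push_cast
  linear_combination ((x.1 : K) + x.2 * w) * O.five

theorem ph_sb (O : Om w) (x y : E) : ph w (sb x y) = ph w x - ph w y := by
  rw [sb, ph_ad O, ph_ng O]; ring

theorem w_pow5 (O : Om w) : w ^ 5 = -1 - w := by
  linear_combination (w ^ 3 - w ^ 2 + 1) * O.eq

theorem ph_cj (O : Om w) (x : E) : ph w (cj x) = ph w x ^ 5 := by
  have : Fact (Nat.Prime 5) := ⟨by norm_num⟩
  have : CharP K 5 := (CharP.charP_iff_prime_eq_zero (by norm_num)).2 (by exact_mod_cast O.five)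
  have h1 : ∀ n : ℕ, (n : K) ^ 5 = n := fun n => by
    have := map_natCast (frobenius K 5) n
    rwa [frobenius_def] at this
  simp only [ph, cj, cast_mod O.five]
  rw [add_pow_char, mul_pow, h1, h1, w_pow5 O]
  push_cast
  linear_combination ((x.2 : K) * (1 + w)) * O.five

theorem ph_zero : ph w (0, 0) = 0 := by simp [ph]
theorem ph_one : ph w (1, 0) = 1 := by simp [ph]

theorem key : ∀ a b : Fin 5, nz (a.1, b.1) = true → ∃ c d : Fin 5, ml (a.1, b.1) (c.1, d.1) = (1, 0) := by decide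

theorem ph_ne (O : Om w) {x : E} (h : nz x = true) : ph w x ≠ 0 := by
  obtain ⟨c, d, hcd⟩ := key ⟨x.1 % 5, Nat.mod_lt _ (by norm_num)⟩ ⟨x.2 % 5, Nat.mod_lt _ (by norm_num)⟩ (by
    simpa [nz] using h)
  have h1 : ph w (x.1 % 5, x.2 % 5) = ph w x := by simp only [ph, cast_mod O.five]
  intro h0
  have := congrArg (ph w) hcd
  rw [ph_ml O, ph_one] at this
  change ph w (x.1 % 5, x.2 % 5) * _ = 1 at this
  rw [h1, h0, zero_mul] at this
  exact one_ne_zero this.symm

def toV (w : K) (v : V) : Fin 3 → K := ![ph w v.1, ph w v.2.1, ph w v.2.2]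
def toM (w : K) (A : M) : Matrix (Fin 3) (Fin 3) K := Matrix.of ![toV w A.1, toV w A.2.1, toV w A.2.2]

theorem ph_dot (O : Om w) (u v : V) : ph w (dot u v) = ph w u.1 * ph w v.1 + ph w u.2.1 * ph w v.2.1 + ph w u.2.2 * ph w v.2.2 := by
  rw [dot, ph_ad O, ph_ad O, ph_ml O, ph_ml O, ph_ml O]; ring

theorem toM_mulVec (O : Om w) (A : M) (v : V) : toM w A *ᵥ toV w v = toV w (mv A v) := by
  funext i
  fin_cases i <;>
  simp [toM, toV, mv, ph_dot O, Matrix.mulVec, dotProduct, Fin.sum_univ_three]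

theorem toV_sm (O : Om w) (c : E) (v : V) : toV w (sm c v) = ph w c • toV w v := by
  funext i
  fin_cases i <;>
  simp [toV, sm, ph_ml O]

theorem det_toM (O : Om w) (A : M) : (toM w A).det = ph w (det3 A) := by
  rw [Matrix.det_fin_three]
  simp only [det3, ph_ad O, ph_sb O, ph_ml O]
  simp [toM, toV]
  ring

theorem uni_toM (O : Om w) {A : M} (h : uni A = true) : (toM w A)ᵀ * H7.UnitSU.bar 5 (toM w A) = 1 := by
  simp only [uni, Bool.and_eq_true, beq_iff_eq] at h
  obtain ⟨⟨⟨⟨⟨⟨⟨⟨h1, h2⟩, h3⟩, h4⟩, h5⟩, h6⟩, h7⟩, h8⟩, h9⟩ := h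
  have e : ∀ u v : V, ph w (dot u (cjV v)) = ph w u.1 * ph w v.1 ^ 5 + ph w u.2.1 * ph w v.2.1 ^ 5 + ph w u.2.2 * ph w v.2.2 ^ 5 := by
    intro u v
    rw [ph_dot O]
    simp only [cjV, ph_cj O]
  have k1 := congrArg (ph w) h1
  have k2 := congrArg (ph w) h2
  have k3 := congrArg (ph w) h3
  have k4 := congrArg (ph w) h4
  have k5 := congrArg (ph w) h5
  have k6 := congrArg (ph w) h6
  have k7 := congrArg (ph w) h7
  have k8 := congrArg (ph w) h8
  have k9 := congrArg (ph w) h9
  rw [e, ph_one] at k1 k5 k9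
  rw [e, ph_zero] at k2 k3 k4 k6 k7 k8
  ext i j
  fin_cases i <;> fin_cases j <;>
  simp [Matrix.mul_apply, Fin.sum_univ_three, H7.UnitSU.bar, toM, toV]
  · exact k1
  · exact k2
  · exact k3
  · exact k4
  · exact k5
  · exact k6
  · exact k7
  · exact k8
  · exact k9

theorem ind_lin (O : Om w) {u v : V} (h : ind u v = true) {a b : K} (hab : a • toV w u = b • toV w v) : a = 0 ∧ b = 0 := by
  have q0 : a * ph w u.1 = b * ph w v.1 := congrFun hab 0
  have q1 : a * ph w u.2.1 = b * ph w v.2.1 := congrFun hab 1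
  have q2 : a * ph w u.2.2 = b * ph w v.2.2 := congrFun hab 2
  simp only [ind, Bool.or_eq_true] at h
  have fin : ∀ m : K, m ≠ 0 → a * m = 0 → b * m = 0 → a = 0 ∧ b = 0 := fun m hm h1 h2 =>
    ⟨(mul_eq_zero.1 h1).resolve_right hm, (mul_eq_zero.1 h2).resolve_right hm⟩
  rcases h with (h | h) | h
  · have hm := ph_ne O h
    rw [ph_sb O, ph_ml O, ph_ml O] at hm
    refine fin _ hm ?_ ?_
    · linear_combination ph w v.2.1 * q0 - ph w v.1 * q1
    · linear_combination ph w u.2.1 * q0 - ph w u.1 * q1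
  · have hm := ph_ne O h
    rw [ph_sb O, ph_ml O, ph_ml O] at hm
    refine fin _ hm ?_ ?_
    · linear_combination ph w v.2.2 * q0 - ph w v.1 * q2
    · linear_combination ph w u.2.2 * q0 - ph w u.1 * q2
  · have hm := ph_ne O h
    rw [ph_sb O, ph_ml O, ph_ml O] at hm
    refine fin _ hm ?_ ?_
    · linear_combination ph w v.2.2 * q1 - ph w v.2.1 * q2
    · linear_combination ph w u.2.2 * q1 - ph w u.2.1 * q2

theorem ind_ne_left (O : Om w) {u v : V} (h : ind u v = true) : toV w u ≠ 0 := fun h0 =>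
  one_ne_zero (ind_lin O h (a := 1) (b := 0) (by rw [h0]; simp)).1

theorem ind_ne_right (O : Om w) {u v : V} (h : ind u v = true) : toV w v ≠ 0 := fun h0 =>
  one_ne_zero (ind_lin O h (a := 0) (b := 1) (by rw [h0]; simp)).2

open Classical in
/-- the point spanned by a vector -/
noncomputable def Pt (w : K) (v : V) : PP K := if h : toV w v = 0 then E0 else Projectivization.mk K (toV w v) h

theorem Pt_eq {v : V} (h : toV w v ≠ 0) : Pt w v = Projectivization.mk K (toV w v) h := by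
  unfold Pt; rw [dif_neg h]

theorem Pt_ne (O : Om w) {u v : V} (h : ind u v = true) : Pt w u ≠ Pt w v := by
  rw [Pt_eq (ind_ne_left O h), Pt_eq (ind_ne_right O h), Ne, Projectivization.mk_eq_mk_iff']
  rintro ⟨a, ha⟩
  exact one_ne_zero (ind_lin O h (a := 1) (b := a) (by rw [ha]; simp)).1

def OO (i : ℕ) : V := OL.getD i ((0,0),(0,0),(0,0))

theorem ind_OO {i j : ℕ} (hi : i < 105) (hj : j < i) : ind (OO i) (OO j) = true := by
  have := pairs
  rw [List.all_eq_true] at this
  have := this i (List.mem_range.2 hi)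
  rw [List.all_eq_true] at this
  exact this j (List.mem_range.2 hj)

theorem OO_ne (O : Om w) {i : ℕ} (hi : i < 105) : toV w (OO i) ≠ 0 := by
  rcases Nat.eq_zero_or_pos i with rfl | h
  · exact ind_ne_right O (ind_OO (i := 1) (j := 0) (by norm_num) (by norm_num))
  · exact ind_ne_left O (ind_OO hi h)

theorem Pt_OO_inj (O : Om w) {i j : ℕ} (hi : i < 105) (hj : j < 105) (h : Pt w (OO i) = Pt w (OO j)) : i = j := by
  rcases lt_trichotomy i j with h1 | h1 | h1
  · exact absurd h.symm (Pt_ne O (ind_OO hj h1))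
  · exact h1
  · exact absurd h (Pt_ne O (ind_OO hi h1))

/-- the group element with matrix `A` -/
def el (O : Om w) (A : M) (h : det3 A = (1, 0)) : SL3 K := ⟨toM w A, by rw [det_toM O, h, ph_one]⟩

theorem el_smul (O : Om w) (A : M) (h : det3 A = (1, 0)) (v : V) : el O A h • toV w v = toV w (mv A v) :=
  toM_mulVec O A v

theorem el_mem [Fintype K] (hF : Fintype.card K = 5 ^ 2) (O : Om w) (A : M) (h : det3 A = (1, 0)) (hu : uni A = true) :
    el O A h ∈ Cfsg.SU 3 K 5 := by
  rw [H7.UnitSU.mem_SU_iff hF]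
  exact uni_toM O hu

theorem el_Pt (O : Om w) (A : M) (h : det3 A = (1, 0)) {u v : V} {c : E} (_hc : nz c = true) (hv : toV w v ≠ 0) (hu : toV w u ≠ 0)
    (he : mv A v = sm c u) : el O A h • Pt w v = Pt w u := by
  rw [Pt_eq hv, Pt_eq hu, smul_mk_eq, el_smul, he, toV_sm O]
  exact ⟨_, rfl⟩

def OS (w : K) : Set (PP K) := {P | ∃ i < 105, P = Pt w (OO i)}

theorem OS_finite : (OS w).Finite := by
  have : OS w = (fun i => Pt w (OO i)) '' (Set.Iio 105) := by
    ext P
    constructor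
    · rintro ⟨i, hi, rfl⟩; exact ⟨i, hi, rfl⟩
    · rintro ⟨i, hi, rfl⟩; exact ⟨i, hi, rfl⟩
  rw [this]
  exact (Set.finite_Iio 105).image _

theorem chk_spec {A : M} {T : List (ℕ × E)} (h : chk A T = true) {i : ℕ} (hi : i < 105) :
    (T.getD i (0, (0, 0))).1 < 105 ∧ nz (T.getD i (0, (0, 0))).2 = true ∧
      mv A (OO i) = sm (T.getD i (0, (0, 0))).2 (OO (T.getD i (0, (0, 0))).1) := by
  unfold chk at h
  rw [List.all_eq_true] at h
  have := h i (List.mem_range.2 hi)
  simp only [Bool.and_eq_true, decide_eq_true_eq, beq_iff_eq] at this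
  exact ⟨this.1.1, this.1.2, this.2⟩

theorem el_Pt_OO (O : Om w) {A : M} (hd : det3 A = (1, 0)) {T : List (ℕ × E)} (h : chk A T = true) {i : ℕ} (hi : i < 105) :
    el O A hd • Pt w (OO i) = Pt w (OO (T.getD i (0, (0, 0))).1) := by
  obtain ⟨h1, h2, h3⟩ := chk_spec h hi
  exact el_Pt O A hd h2 (OO_ne O hi) (OO_ne O h1) h3

theorem el_stab (O : Om w) {A : M} (hd : det3 A = (1, 0)) {T : List (ℕ × E)} (h : chk A T = true) :
    el O A hd ∈ stabilizer (SL3 K) (OS w) := by
  rw [mem_stabilizer_set' OS_finite]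
  rintro _ ⟨i, hi, rfl⟩
  exact ⟨_, (chk_spec h hi).1, el_Pt_OO O hd h hi⟩

/-- the subgroup -/
def A0 (w : K) : Subgroup (SL3 K) := Cfsg.SU 3 K 5 ⊓ stabilizer (SL3 K) (OS w)

def gens : ℕ → M
  | 0 => gA
  | 1 => gB
  | 2 => gC
  | 3 => gD
  | _ => gE

theorem gens_chk (n : ℕ) : chk (gens n) (tabs n) = true := by
  match n with
  | 0 => exact chkA
  | 1 => exact chkB
  | 2 => exact chkC
  | 3 => exact chkD
  | _ + 4 => exact chkE

theorem gens_det (n : ℕ) : det3 (gens n) = (1, 0) := by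
  match n with
  | 0 => exact detA
  | 1 => exact detB
  | 2 => exact detC
  | 3 => exact detD
  | _ + 4 => exact detE

theorem gens_uni (n : ℕ) : uni (gens n) = true := by
  match n with
  | 0 => exact uniA
  | 1 => exact uniB
  | 2 => exact uniC
  | 3 => exact uniD
  | _ + 4 => exact uniE

theorem gens_mem [Fintype K] (hF : Fintype.card K = 5 ^ 2) (O : Om w) (n : ℕ) : el O (gens n) (gens_det n) ∈ A0 w :=
  ⟨el_mem hF O _ _ (gens_uni n), el_stab O _ (gens_chk n)⟩

theorem trans [Fintype K] (hF : Fintype.card K = 5 ^ 2) (O : Om w) (i : ℕ) : i < 105 → ∃ g ∈ A0 w, g • Pt w (OO 0) = Pt w (OO i) := by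
  induction i using Nat.strong_induction_on with
  | _ i ih =>
    intro hi
    have h := tree
    rw [List.all_eq_true] at h
    have h := h i (List.mem_range.2 hi)
    rcases Nat.eq_zero_or_pos i with rfl | hpos
    · exact ⟨1, one_mem _, one_smul _ _⟩
    have hne : (i == 0) = false := by simpa using hpos.ne'
    rw [hne, Bool.false_or, Bool.and_eq_true, decide_eq_true_eq, beq_iff_eq] at h
    obtain ⟨g, hg, hg2⟩ := ih _ h.1 (h.1.trans hi)
    refine ⟨el O (gens (par.getD i (0, 0)).1) (gens_det _) * g, mul_mem (gens_mem hF O _) hg, ?_⟩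
    rw [mul_smul, hg2, el_Pt_OO O _ (gens_chk _) (h.1.trans hi), h.2]

theorem step {G X : Type*} [Group G] [Finite G] [MulAction G X] (A : Subgroup G) (x : X) (s : Finset X)
    (hs : ∀ y ∈ s, ∃ g ∈ A, g • x = y) : s.card * Nat.card (A ⊓ stabilizer G x : Subgroup G) ≤ Nat.card A := by
  have h1 := (stabilizer A x).card_mul_index
  rw [index_stabilizer] at h1
  have h2 : s.card ≤ (orbit A x).ncard := by
    rw [← Set.ncard_coe_finset]
    refine Set.ncard_le_ncard ?_ (Set.finite_range _)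
    intro y hy
    obtain ⟨g, hg, h⟩ := hs y hy
    exact ⟨⟨g, hg⟩, h⟩
  have h3 : Nat.card (A ⊓ stabilizer G x : Subgroup G) ≤ Nat.card (stabilizer A x) := by
    refine Nat.card_le_card_of_injective (fun g => (⟨⟨g.1, g.2.1⟩, g.2.2⟩ : stabilizer A x)) ?_
    intro a b h
    have := congrArg (fun z : stabilizer A x => ((z : A) : G)) h
    exact Subtype.ext this
  calc s.card * Nat.card (A ⊓ stabilizer G x : Subgroup G) ≤ (orbit A x).ncard * Nat.card (stabilizer A x) :=
        Nat.mul_le_mul h2 h3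
    _ = Nat.card A := by rw [mul_comm, h1]

end H17.U36
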