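import Cfsg.Agent.Lib.H17.U36

set_option autoImplicit false
set_option maxRecDepth 100000

/-! The subgroup of index 50 of `PSU 3 F 5`. -/

namespace H17.U37

open Matrix MulAction H17.U3A H17.U35 H17.U36 H43.SU3 H49.Unitary
open scoped LinearAlgebra.Projectivization Pointwise

variable {K : Type*} [Field K] {w : K}

def va : ℕ → V
  | 0 => ((1,0),(0,0),(0,0))
  | n + 1 => mv gA (va n)

def vb : ℕ → V
  | 0 => ((0,0),(1,0),(0,0))
  | n + 1 => mv gB (vb n)

theorem va_ne : ∀ i < 6, ∀ j < i, nz (sb (va i).1 (va j).1) = true := by decide +kernel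
theorem vb_ne : ∀ i < 6, ∀ j < i, nz (sb (vb i).2.1 (vb j).2.1) = true := by decide +kernel

theorem va_inj (O : Om w) : Set.InjOn (fun i => toV w (va i)) (Finset.range 6 : Finset ℕ) := by
  have key : ∀ i < 6, ∀ j < i, toV w (va i) ≠ toV w (va j) := by
    intro i hi j hj h
    have h1 := ph_ne O (va_ne i hi j hj)
    rw [ph_sb O] at h1
    exact h1 (sub_eq_zero.2 (congrFun h 0))
  intro i hi j hj h
  simp only [Finset.coe_range, Set.mem_Iio] at hi hj
  rcases lt_trichotomy i j with h1 | h1 | h1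
  · exact absurd h.symm (key j hj i h1)
  · exact h1
  · exact absurd h (key i hi j h1)

theorem vb_inj (O : Om w) : Set.InjOn (fun i => toV w (vb i)) (Finset.range 6 : Finset ℕ) := by
  have key : ∀ i < 6, ∀ j < i, toV w (vb i) ≠ toV w (vb j) := by
    intro i hi j hj h
    have h1 := ph_ne O (vb_ne i hi j hj)
    rw [ph_sb O] at h1
    exact h1 (sub_eq_zero.2 (congrFun h 1))
  intro i hi j hj h
  simp only [Finset.coe_range, Set.mem_Iio] at hi hj
  rcases lt_trichotomy i j with h1 | h1 | h1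
  · exact absurd h.symm (key j hj i h1)
  · exact h1
  · exact absurd h (key i hi j h1)

theorem powA (O : Om w) (n : ℕ) : (el O gA detA) ^ n • toV w (va 0) = toV w (va n) := by
  induction n with
  | zero => rw [pow_zero, one_smul]
  | succ n ih => rw [pow_succ', mul_smul, ih, el_smul]; rfl

theorem powB (O : Om w) (n : ℕ) : (el O gB detB) ^ n • toV w (vb 0) = toV w (vb n) := by
  induction n with
  | zero => rw [pow_zero, one_smul]
  | succ n ih => rw [pow_succ', mul_smul, ih, el_smul]; rfl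

theorem tabfix : (gAT.getD 0 (0, (0, 0))).1 = 0 ∧ (gAT.getD 1 (0, (0, 0))).1 = 1 ∧ (gBT.getD 0 (0, (0, 0))).1 = 0 ∧
    (gBT.getD 1 (0, (0, 0))).1 = 1 ∧ (gDT.getD 0 (0, (0, 0))).1 = 0 ∧ (gDT.getD 1 (0, (0, 0))).1 = 3 ∧
    mv gB (va 0) = va 0 := by decide +kernel

theorem card_A0 [Fintype K] (hF : Fintype.card K = 5 ^ 2) (O : Om w) : 7560 ≤ Nat.card (A0 w) := by
  classical
  obtain ⟨t1, t2, t3, t4, t5, t6, t7⟩ := tabfix
  have fA0 : el O gA detA • Pt w (OO 0) = Pt w (OO 0) := by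
    have := el_Pt_OO O detA chkA (i := 0) (by norm_num)
    rwa [t1] at this
  have fA1 : el O gA detA • Pt w (OO 1) = Pt w (OO 1) := by
    have := el_Pt_OO O detA chkA (i := 1) (by norm_num)
    rwa [t2] at this
  have fB0 : el O gB detB • Pt w (OO 0) = Pt w (OO 0) := by
    have := el_Pt_OO O detB chkB (i := 0) (by norm_num)
    rwa [t3] at this
  have fB1 : el O gB detB • Pt w (OO 1) = Pt w (OO 1) := by
    have := el_Pt_OO O detB chkB (i := 1) (by norm_num)
    rwa [t4] at this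
  have fD0 : el O gD detD • Pt w (OO 0) = Pt w (OO 0) := by
    have := el_Pt_OO O detD chkD (i := 0) (by norm_num)
    rwa [t5] at this
  have fD1 : el O gD detD • Pt w (OO 1) = Pt w (OO 3) := by
    have := el_Pt_OO O detD chkD (i := 1) (by norm_num)
    rwa [t6] at this
  have mA : el O gA detA ∈ A0 w := gens_mem hF O 0
  have mB : el O gB detB ∈ A0 w := gens_mem hF O 1
  have mD : el O gD detD ∈ A0 w := gens_mem hF O 3
  -- first step
  set s1 : Finset (PP K) := (Finset.range 105).image (fun i => Pt w (OO i)) with hs1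
  have c1 : s1.card = 105 := by
    rw [hs1, Finset.card_image_of_injOn, Finset.card_range]
    intro i hi j hj h
    simp only [Finset.coe_range, Set.mem_Iio] at hi hj
    exact Pt_OO_inj O hi hj h
  have st1 := step (A0 w) (Pt w (OO 0)) s1 (by
    intro y hy
    rw [hs1, Finset.mem_image] at hy
    obtain ⟨i, hi, rfl⟩ := hy
    exact trans hF O i (Finset.mem_range.1 hi))
  -- second step
  set s2 : Finset (PP K) := {Pt w (OO 1), Pt w (OO 3)} with hs2
  have c2 : s2.card = 2 := by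
    rw [hs2, Finset.card_pair]
    intro h
    exact absurd (Pt_OO_inj O (by norm_num) (by norm_num) h) (by norm_num)
  have st2 := step (A0 w ⊓ stabilizer (SL3 K) (Pt w (OO 0))) (Pt w (OO 1)) s2 (by
    intro y hy
    rw [hs2, Finset.mem_insert, Finset.mem_singleton] at hy
    rcases hy with rfl | rfl
    · exact ⟨1, one_mem _, one_smul _ _⟩
    · exact ⟨el O gD detD, ⟨mD, fD0⟩, fD1⟩)
  -- third step
  set s3 : Finset (Fin 3 → K) := (Finset.range 6).image (fun i => toV w (va i)) with hs3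
  have c3 : s3.card = 6 := by
    rw [hs3, Finset.card_image_of_injOn (va_inj O), Finset.card_range]
  have st3 := step (A0 w ⊓ stabilizer (SL3 K) (Pt w (OO 0)) ⊓ stabilizer (SL3 K) (Pt w (OO 1))) (toV w (va 0)) s3 (by
    intro y hy
    rw [hs3, Finset.mem_image] at hy
    obtain ⟨i, _, rfl⟩ := hy
    exact ⟨_, pow_mem (show el O gA detA ∈ A0 w ⊓ stabilizer (SL3 K) (Pt w (OO 0)) ⊓ stabilizer (SL3 K) (Pt w (OO 1)) from
      ⟨⟨mA, fA0⟩, fA1⟩) i, powA O i⟩)
  -- fourth step
  set s4 : Finset (Fin 3 → K) := (Finset.range 6).image (fun i => toV w (vb i)) with hs4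
  have c4 : s4.card = 6 := by
    rw [hs4, Finset.card_image_of_injOn (vb_inj O), Finset.card_range]
  have fB : el O gB detB • toV w (va 0) = toV w (va 0) := by rw [el_smul, t7]
  have st4 := step (A0 w ⊓ stabilizer (SL3 K) (Pt w (OO 0)) ⊓ stabilizer (SL3 K) (Pt w (OO 1)) ⊓ stabilizer (SL3 K) (toV w (va 0)))
    (toV w (vb 0)) s4 (by
    intro y hy
    rw [hs4, Finset.mem_image] at hy
    obtain ⟨i, _, rfl⟩ := hy
    exact ⟨_, pow_mem (show el O gB detB ∈ A0 w ⊓ stabilizer (SL3 K) (Pt w (OO 0)) ⊓ stabilizer (SL3 K) (Pt w (OO 1)) ⊓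
      stabilizer (SL3 K) (toV w (va 0)) from ⟨⟨⟨mB, fB0⟩, fB1⟩, fB⟩) i, powB O i⟩)
  rw [c1] at st1
  rw [c2] at st2
  rw [c3] at st3
  rw [c4] at st4
  have hpos : 0 < Nat.card (A0 w ⊓ stabilizer (SL3 K) (Pt w (OO 0)) ⊓ stabilizer (SL3 K) (Pt w (OO 1)) ⊓
    stabilizer (SL3 K) (toV w (va 0)) ⊓ stabilizer (SL3 K) (toV w (vb 0)) : Subgroup (SL3 K)) := Nat.card_pos
  omega

theorem X_not (O : Om w) : el O gX detX ∉ A0 w := by
  rintro ⟨_, h⟩
  have h : el O gX detX ∈ stabilizer (SL3 K) (OS w) := h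
  rw [mem_stabilizer_set' OS_finite] at h
  obtain ⟨i, hi, he⟩ := h ⟨0, by norm_num, rfl⟩
  have hx := outX
  rw [List.all_eq_true] at hx
  have hx : ind (mv gX (OO 0)) (OO i) = true := hx i (List.mem_range.2 hi)
  have h0 := ind_ne_left O hx
  have : el O gX detX • Pt w (OO 0) = Pt w (mv gX (OO 0)) := by
    rw [Pt_eq (OO_ne O (by norm_num)), Pt_eq h0, smul_mk_eq, el_smul]
    exact ⟨1, (one_smul _ _).symm⟩
  rw [this] at he
  exact Pt_ne O hx he

theorem exists_w [Fintype K] (hF : Fintype.card K = 25) : ∃ w : K, Om w := by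
  classical
  have h5 : (5 : K) = 0 := by
    have h := Nat.cast_card_eq_zero K
    rw [hF] at h
    have : (5 : K) * 5 = 0 := by
      rw [← h]; norm_num
    rcases mul_eq_zero.1 this with h | h <;> exact h
  have hu : Fintype.card Kˣ = 24 := by rw [Fintype.card_units, hF]
  have : Fact (Nat.Prime 3) := ⟨by norm_num⟩
  obtain ⟨u, hu3⟩ := exists_prime_orderOf_dvd_card (G := Kˣ) 3 (by rw [hu]; norm_num)
  refine ⟨u, h5, ?_⟩
  have h1 : u ^ 3 = 1 := by rw [← hu3]; exact pow_orderOf_eq_one u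
  have h2 : u ≠ 1 := by
    rintro rfl
    rw [orderOf_one] at hu3
    norm_num at hu3
  have h3 : (u : K) ^ 3 = 1 := by
    rw [← Units.val_pow_eq_pow_val, h1, Units.val_one]
  have h4 : (u : K) - 1 ≠ 0 := fun h => h2 (Units.ext (by simpa using sub_eq_zero.1 h))
  have h6 : ((u : K) - 1) * ((u : K) ^ 2 + u + 1) = 0 := by linear_combination h3
  have := (mul_eq_zero.1 h6).resolve_left h4
  linear_combination this

theorem upper5 [Fintype K] (hF : Fintype.card K = 25) : ∃ H : Subgroup (Cfsg.PSU 3 K 5), H.index = 50 := by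
  obtain ⟨w, O⟩ := exists_w hF
  have hF' : Fintype.card K = 5 ^ 2 := by rw [hF]; norm_num
  have hK : Nat.card K = 5 ^ 2 := by rw [Nat.card_eq_fintype_card, hF']
  have D := U3R.dat hF' hK (by norm_num)
  obtain ⟨f, hf, hr⟩ := U3R.exists_f hF' hK
  let π : ↥(Cfsg.SU 3 K 5) →* Cfsg.PSU 3 K 5 := QuotientGroup.mk' _
  have hπ : Function.Surjective π := QuotientGroup.mk'_surjective _
  have hcard : Nat.card ↥(Cfsg.SU 3 K 5) = 378000 := by
    have h1 : Nat.card ↥(Cfsg.SU 3 K 5) = Nat.card (SJ (frob hK)) := by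
      rw [← hr]
      exact Nat.card_congr (MonoidHom.ofInjective hf).toEquiv
    rw [h1, U3B.card_SJ D]; norm_num
  set L := (A0 w).subgroupOf (Cfsg.SU 3 K 5) with hL
  have hLc : Nat.card L = Nat.card (A0 w) :=
    Nat.card_congr (Subgroup.subgroupOfEquivOfLe (inf_le_left : A0 w ≤ Cfsg.SU 3 K 5)).toEquiv
  have h1 := L.card_mul_index
  rw [hLc, hcard] at h1
  have h2 := card_A0 hF' O
  have h3 : L.index ≤ 50 := by
    by_contra h
    have : 7560 * 51 ≤ Nat.card (A0 w) * L.index := Nat.mul_le_mul h2 (by omega)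
    rw [h1] at this
    norm_num at this
  have hLne : L ≠ ⊤ := by
    intro h
    apply X_not O
    have : (⟨el O gX detX, el_mem hF' O _ _ uniX⟩ : ↥(Cfsg.SU 3 K 5)) ∈ L := by rw [h]; trivial
    exact this
  have hker : π.ker ≤ L := by
    intro z hz
    have hz' : z ∈ Subgroup.center ↥(Cfsg.SU 3 K 5) := by
      have : π.ker = Subgroup.center ↥(Cfsg.SU 3 K 5) := QuotientGroup.ker_mk' _
      rw [← this]; exact hz
    obtain ⟨c, hc⟩ := H7.UnitSU.center_scalar hF' (by norm_num) hz'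
    refine ⟨z.2, ?_⟩
    change (z : SL3 K) ∈ stabilizer (SL3 K) (OS w)
    rw [mem_stabilizer_set' OS_finite]
    rintro _ ⟨i, hi, rfl⟩
    refine ⟨i, hi, ?_⟩
    rw [Pt_eq (OO_ne O hi), smul_mk_eq]
    refine ⟨c, ?_⟩
    rw [sl_smul, hc]
    ext j
    simp [Matrix.mulVec_diagonal]
  have hidx : (L.map π).index = L.index := by
    rw [← (L.map π).index_comap_of_surjective hπ, Subgroup.comap_map_eq, sup_eq_left.2 hker]
  refine ⟨L.map π, ?_⟩
  have h4 := (U3R.lower hF' (by norm_num) (L.map π) (by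
    intro h
    rw [h, Subgroup.index_top] at hidx
    exact hLne (Subgroup.index_eq_one.1 hidx.symm)) (by rw [hidx]; omega)).2
  rw [hidx] at h4 ⊢
  omega

theorem lower5 [Fintype K] (hF : Fintype.card K = 25) (H : Subgroup (Cfsg.PSU 3 K 5)) (hH : H ≠ ⊤) : 50 ≤ H.index := by
  by_contra h
  exact h (U3R.lower (by rw [hF]; norm_num) (by norm_num) H hH (by omega)).2

end H17.U37
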