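import Cfsg.Agent.Lib.H16.Herm
import Cfsg.Agent.Lib.H16.Witt
import Cfsg.Agent.Lib.H16.Parab
import Cfsg.Agent.Lib.H7.UnitSU
import Cfsg.Agent.Lib.H7.UnitOrd

set_option autoImplicit false

/-! Perpendicular spaces and numbers of isotropic vectors for `hermForm n F q`; Witt for `GU n F q`. -/

namespace H17.UParab

open Matrix Cfsg H16.Herm Module

variable {F : Type*} [Field F] [Fintype F] {n q : ℕ}

/-- the hermitian form as a sesquilinear map, linear in the second variable -/
def HB (n : ℕ) (hF : Fintype.card F = q ^ 2) : (Fin n → F) →ₛₗ[frobQ F hF] (Fin n → F) →ₗ[F] F :=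
  LinearMap.mk₂'ₛₗ (frobQ F hF) (RingHom.id F) (fun u v => hermForm n F q v u)
    (fun u u' v => hermForm_add_right hF v u u')
    (fun c u v => hermForm_smul_right c v u)
    (fun u v v' => hermForm_add_left v v' u)
    (fun c u v => hermForm_smul_left c v u)

theorem HB_apply (hF : Fintype.card F = q ^ 2) (u v : Fin n → F) : HB n hF u v = hermForm n F q v u := rfl

theorem HB_symm (hF : Fintype.card F = q ^ 2) : (HB n hF).IsSymm :=
  ⟨fun x y => hermForm_swap hF y x⟩

theorem HB_nondeg (hF : Fintype.card F = q ^ 2) : (HB n hF).Nondegenerate :=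
  ⟨fun _ h => eq_zero_of_forall_left hF h, fun _ h => eq_zero_of_forall_right hF h⟩

theorem frobQ_ne (hF : Fintype.card F = q ^ 2) : frobQ F hF ≠ RingHom.id F := by
  intro h
  obtain ⟨a, ha⟩ := exists_pow_q_ne hF
  exact ha (congrArg (fun f : F →+* F => f a) h)

theorem exists_frames (hF : Fintype.card F = q ^ 2) {ι : Type*} (u v : ι → Fin n → F) (hu : LinearIndependent F u)
    (hv : LinearIndependent F v) (h : ∀ i j, hermForm n F q (u i) (u j) = hermForm n F q (v i) (v j)) :
    ∃ g ∈ GU n F q, ∀ i, (g : Matrix (Fin n) (Fin n) F) *ᵥ u i = v i := by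
  let bu := Basis.span hu
  let bv := Basis.span hv
  let φ : Submodule.span F (Set.range u) ≃ₗ[F] Submodule.span F (Set.range v) := bu.equiv bv (Equiv.refl ι)
  have hφ : ∀ i, φ (bu i) = bv i := fun i => by
    change bu.equiv bv (Equiv.refl ι) (bu i) = bv i
    rw [Basis.equiv_apply]; rfl
  have hbu : ∀ i, (bu i : Fin n → F) = u i := fun i => congrArg Subtype.val (Basis.span_apply hu i)
  have hbv : ∀ i, (bv i : Fin n → F) = v i := fun i => congrArg Subtype.val (Basis.span_apply hv i)
  have hB : ∀ x x' : Submodule.span F (Set.range u), HB n hF (φ x : Fin n → F) (φ x' : Fin n → F)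
      = HB n hF (x : Fin n → F) (x' : Fin n → F) := by
    have h1 : ∀ i, ∀ x' : Submodule.span F (Set.range u), HB n hF (φ (bu i) : Fin n → F) (φ x' : Fin n → F)
      = HB n hF (bu i : Fin n → F) (x' : Fin n → F) := by
      intro i x'
      have : (HB n hF (φ (bu i) : Fin n → F)).comp ((Submodule.subtype _).comp φ.toLinearMap) =
          (HB n hF (bu i : Fin n → F)).comp (Submodule.subtype _) := by
        apply bu.ext
        intro j
        change HB n hF (φ (bu i) : Fin n → F) (φ (bu j) : Fin n → F) = HB n hF (bu i : Fin n → F) (bu j : Fin n → F)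
        rw [hφ, hφ, hbu, hbu, hbv, hbv]
        exact (h j i).symm
      exact congrArg (fun f : Submodule.span F (Set.range u) →ₗ[F] F => f x') this
    intro x x'
    have : ((HB n hF).flip (φ x' : Fin n → F)).comp ((Submodule.subtype _).comp φ.toLinearMap) =
        ((HB n hF).flip (x' : Fin n → F)).comp (Submodule.subtype _) := by
      apply bu.ext
      intro i
      exact h1 i x'
    exact congrArg (fun f : Submodule.span F (Set.range u) →ₛₗ[frobQ F hF] F => f x) this
  obtain ⟨g, hg1, hg2⟩ := H16.Witt.witt_herm (frobQ F hF) (frobQ_ne hF) (fun a => pow_q_pow_q hF a) (HB n hF) (HB_symm hF)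
    (HB_nondeg hF) _ _ φ hB
  have e1 : LinearMap.toMatrix' g.toLinearMap * LinearMap.toMatrix' g.symm.toLinearMap = 1 := by
    rw [← LinearMap.toMatrix'_comp, LinearEquiv.comp_symm, LinearMap.toMatrix'_id]
  have e2 : LinearMap.toMatrix' g.symm.toLinearMap * LinearMap.toMatrix' g.toLinearMap = 1 := by
    rw [← LinearMap.toMatrix'_comp, LinearEquiv.symm_comp, LinearMap.toMatrix'_id]
  have hmv : ∀ x, LinearMap.toMatrix' g.toLinearMap *ᵥ x = g x := fun x => LinearMap.toMatrix'_mulVec _ x
  refine ⟨⟨_, _, e1, e2⟩, ?_, fun i => ?_⟩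
  · intro x y
    change hermForm n F q (LinearMap.toMatrix' g.toLinearMap *ᵥ x) (LinearMap.toMatrix' g.toLinearMap *ᵥ y) = _
    rw [hmv, hmv]
    exact hg1 y x
  · change LinearMap.toMatrix' g.toLinearMap *ᵥ u i = v i
    rw [hmv, ← hbu i, ← hbv i, ← hφ i]
    exact hg2 (bu i)

/-- perpendicular subspace -/
def perp (n : ℕ) (q : ℕ) (P : Submodule F (Fin n → F)) : Submodule F (Fin n → F) where
  carrier := {v | ∀ x ∈ P, hermForm n F q v x = 0}
  add_mem' := by
    intro a b ha hb x hx
    rw [hermForm_add_left, ha x hx, hb x hx, add_zero]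
  zero_mem' := fun x _ => hermForm_zero_left x
  smul_mem' := by
    intro c a ha x hx
    rw [hermForm_smul_left, ha x hx, mul_zero]

theorem mem_perp {P : Submodule F (Fin n → F)} {v : Fin n → F} : v ∈ perp n q P ↔ ∀ x ∈ P, hermForm n F q v x = 0 := Iff.rfl

theorem exists_sol (hF : Fintype.card F = q ^ 2) {k : ℕ} (u : Fin k → Fin n → F) (hu : LinearIndependent F u) (c : Fin k → F) :
    ∃ w, ∀ i, hermForm n F q w (u i) = c i := by
  let bu := Basis.span hu
  obtain ⟨f, hf⟩ := LinearMap.exists_extend (bu.constr F (fun i => (c i) ^ q) : Submodule.span F (Set.range u) →ₗ[F] F)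
  obtain ⟨w, hw⟩ := H16.Witt.exists_repr (frobQ F hF) (HB n hF) (HB_nondeg hF).2 f
  refine ⟨w, fun i => ?_⟩
  have h1 : hermForm n F q w (u i) = (f (u i)) ^ q := hw (u i)
  have h2 : f (u i) = (c i) ^ q := by
    have h3 := congrArg (fun f : Submodule.span F (Set.range u) →ₗ[F] F => f (bu i)) hf
    simp only [LinearMap.comp_apply, Submodule.subtype_apply] at h3
    rw [Basis.constr_basis] at h3
    rw [← h3]
    congr 1
    exact (congrArg Subtype.val (Basis.span_apply hu i)).symm
  rw [h1, h2, pow_q_pow_q hF]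

theorem mem_perp_span {k : ℕ} (hF : Fintype.card F = q ^ 2) (u : Fin k → Fin n → F) (v : Fin n → F) :
    v ∈ perp n q (Submodule.span F (Set.range u)) ↔ ∀ i, hermForm n F q v (u i) = 0 := by
  constructor
  · intro h i
    exact h _ (Submodule.subset_span ⟨i, rfl⟩)
  · intro h x hx
    induction hx using Submodule.span_induction with
    | mem x hx =>
      obtain ⟨i, rfl⟩ := hx
      exact h i
    | zero => exact hermForm_zero_right hF v
    | add x y _ _ hx hy => rw [hermForm_add_right hF, hx, hy, add_zero]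
    | smul a x _ hx => rw [hermForm_smul_right, hx, mul_zero]

theorem finrank_perp (hF : Fintype.card F = q ^ 2) (P : Submodule F (Fin n → F)) :
    finrank F (perp n q P) + finrank F P = n := by
  let b := finBasis F P
  obtain ⟨u, hu⟩ : ∃ u : Fin (finrank F P) → (Fin n → F), ∀ i, u i = (b i : Fin n → F) := ⟨_, fun _ => rfl⟩
  have hu' : u = fun i => (b i : Fin n → F) := funext hu
  have hli : LinearIndependent F u := by
    rw [hu']
    exact b.linearIndependent.map' P.subtype (Submodule.ker_subtype P)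
  have hspan : P = Submodule.span F (Set.range u) := by
    have h1 := b.span_eq
    have h2 := congrArg (Submodule.map P.subtype) h1
    rw [Submodule.map_span, ← Set.range_comp, Submodule.map_top, Submodule.range_subtype] at h2
    rw [hu']
    exact h2.symm
  let Φ : (Fin n → F) →ₗ[F] (Fin (finrank F P) → F) := LinearMap.pi (fun i => HB n hF (u i))
  have hsurj : Function.Surjective Φ := by
    intro c
    obtain ⟨w, hw⟩ := exists_sol hF u hli c
    exact ⟨w, funext hw⟩
  have hker : LinearMap.ker Φ = perp n q P := by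
    ext v
    have : v ∈ perp n q P ↔ ∀ i, hermForm n F q v (u i) = 0 := by
      rw [← mem_perp_span hF u v, ← hspan]
    rw [this, LinearMap.mem_ker]
    exact ⟨fun h i => congrFun h i, fun h => funext h⟩
  have h1 := LinearMap.finrank_range_add_finrank_ker Φ
  rw [LinearMap.range_eq_top.2 hsurj, finrank_top, hker, finrank_fintype_fun_eq_card, finrank_fintype_fun_eq_card,
    Fintype.card_fin, Fintype.card_fin] at h1
  omega

theorem perp_perp (hF : Fintype.card F = q ^ 2) (P : Submodule F (Fin n → F)) : perp n q (perp n q P) = P := by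
  symm
  apply Submodule.eq_of_le_of_finrank_eq
  · intro x hx v hv
    rw [← hermForm_swap hF, hv x hx, zero_pow_q hF]
  · have h1 := finrank_perp hF P
    have h2 := finrank_perp hF (perp n q P)
    omega

/-! ### counting isotropic vectors -/

/-- number of isotropic vectors (with zero) of a subspace -/
noncomputable def cI (n q : ℕ) (P : Submodule F (Fin n → F)) : ℕ :=
  Nat.card {v : Fin n → F // v ∈ P ∧ hermForm n F q v v = 0}

theorem exists_aniso (hF : Fintype.card F = q ^ 2) {P : Submodule F (Fin n → F)} {x y : Fin n → F} (hx : x ∈ P) (hy : y ∈ P)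
    (hxy : hermForm n F q x y ≠ 0) : ∃ e ∈ P, hermForm n F q e e ≠ 0 := by
  by_contra hcon
  push Not at hcon
  obtain ⟨a, ha⟩ := exists_pow_q_ne hF
  have h1 : ∀ c : F, c ^ q * hermForm n F q x y + c * (hermForm n F q x y) ^ q = 0 := by
    intro c
    have h2 := hcon (x + c • y) (P.add_mem hx (P.smul_mem c hy))
    rw [hermForm_add_left, hermForm_add_right hF, hermForm_add_right hF, hermForm_smul_left, hermForm_smul_left,
      hermForm_smul_right, hermForm_smul_right, hcon x hx, hcon y hy, ← hermForm_swap hF x y] at h2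
    linear_combination h2
  have h2 := h1 1
  rw [one_pow] at h2
  have h3 := h1 a
  have h4 : (a ^ q - a) * hermForm n F q x y = 0 := by linear_combination h3 - a * h2
  rcases mul_eq_zero.1 h4 with h | h
  · exact ha (sub_eq_zero.1 h)
  · exact hxy h

theorem mem_perp_singleton {e v : Fin n → F} (hF : Fintype.card F = q ^ 2) :
    v ∈ perp n q (Submodule.span F {e}) ↔ hermForm n F q v e = 0 := by
  constructor
  · intro h
    exact h e (Submodule.mem_span_singleton_self e)
  · intro h x hx
    obtain ⟨c, rfl⟩ := Submodule.mem_span_singleton.1 hx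
    rw [hermForm_smul_right, h, mul_zero]

/-- splitting off an anisotropic vector -/
theorem split (hF : Fintype.card F = q ^ 2) {P : Submodule F (Fin n → F)} {e : Fin n → F} (he : e ∈ P)
    (hee : hermForm n F q e e ≠ 0) {v : Fin n → F} (hv : v ∈ P) :
    ∃ v' ∈ P ⊓ perp n q (Submodule.span F {e}), ∃ a : F, v = v' + a • e := by
  refine ⟨v - (hermForm n F q v e / hermForm n F q e e) • e, ⟨P.sub_mem hv (P.smul_mem _ he), ?_⟩, _, (sub_add_cancel _ _).symm⟩
  change _ ∈ perp n q (Submodule.span F {e})
  rw [mem_perp_singleton hF, hermForm_sub_left, hermForm_smul_left, div_mul_cancel₀ _ hee, sub_self]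

theorem split_unique (hF : Fintype.card F = q ^ 2) {e v v' : Fin n → F} (hee : hermForm n F q e e ≠ 0)
    (hv : v ∈ perp n q (Submodule.span F {e})) (hv' : v' ∈ perp n q (Submodule.span F {e})) {a a' : F}
    (h : v + a • e = v' + a' • e) : v = v' ∧ a = a' := by
  rw [mem_perp_singleton hF] at hv hv'
  have h1 := congrArg (fun x => hermForm n F q x e) h
  simp only [hermForm_add_left, hermForm_smul_left, hv, hv', zero_add] at h1
  have ha : a = a' := mul_right_cancel₀ hee h1
  subst ha
  exact ⟨add_right_cancel h, rfl⟩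

theorem card_split (hF : Fintype.card F = q ^ 2) {P : Submodule F (Fin n → F)} {e : Fin n → F} (he : e ∈ P)
    (hee : hermForm n F q e e ≠ 0) :
    Nat.card P = Nat.card (P ⊓ perp n q (Submodule.span F {e}) : Submodule F (Fin n → F)) * q ^ 2 := by
  rw [← hF, ← Nat.card_eq_fintype_card, ← Nat.card_prod]
  symm
  apply Nat.card_congr
  refine Equiv.ofBijective (fun x => (⟨(x.1 : Fin n → F) + x.2 • e, P.add_mem x.1.2.1 (P.smul_mem _ he)⟩ : P)) ⟨?_, ?_⟩
  · rintro ⟨x, a⟩ ⟨y, b⟩ h
    have h1 := congrArg Subtype.val h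
    obtain ⟨h2, h3⟩ := split_unique hF hee x.2.2 y.2.2 h1
    exact Prod.ext (Subtype.ext h2) h3
  · rintro ⟨v, hv⟩
    obtain ⟨v', hv', a, h⟩ := split hF he hee hv
    exact ⟨(⟨v', hv'⟩, a), Subtype.ext h.symm⟩

theorem fibre (hF : Fintype.card F = q ^ 2) {c d : F} (hc : c ^ q = c) (hd : d ^ q = d) (hd0 : d ≠ 0) [Decidable (c = 0)] :
    Nat.card {a : F // c + a ^ (q + 1) * d = 0} = if c = 0 then 1 else q + 1 := by
  split_ifs with h
  · subst h
    rw [Nat.card_eq_one_iff_unique]
    refine ⟨⟨fun a b => ?_⟩, ⟨⟨0, by simp⟩⟩⟩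
    have key : ∀ a : {a : F // 0 + a ^ (q + 1) * d = 0}, a.1 = 0 := by
      rintro ⟨a, ha⟩
      rw [zero_add] at ha
      exact pow_eq_zero_iff (by omega) |>.1 ((mul_eq_zero.1 ha).resolve_right hd0)
    exact Subtype.ext ((key a).trans (key b).symm)
  · refine Eq.trans ?_ (H7.QuadExt.card_norm_eq hF (c := -c / d) (by
      rw [div_pow, H7.QuadExt.neg_pow_q hF, hc, hd]) (div_ne_zero (neg_ne_zero.2 h) hd0))
    apply Nat.card_congr
    apply Equiv.subtypeEquivRight
    intro a
    rw [eq_div_iff hd0]
    constructor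
    · intro h; linear_combination h
    · intro h; linear_combination h

theorem cI_rec (hF : Fintype.card F = q ^ 2) {P : Submodule F (Fin n → F)} {e : Fin n → F} (he : e ∈ P)
    (hee : hermForm n F q e e ≠ 0) :
    cI n q P + q * cI n q (P ⊓ perp n q (Submodule.span F {e})) =
      (q + 1) * Nat.card (P ⊓ perp n q (Submodule.span F {e}) : Submodule F (Fin n → F)) := by
  classical
  set P' := P ⊓ perp n q (Submodule.span F {e}) with hP'
  have hform : ∀ v' ∈ P', ∀ a : F, hermForm n F q (v' + a • e) (v' + a • e) =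
      hermForm n F q v' v' + a ^ (q + 1) * hermForm n F q e e := by
    intro v' hv' a
    have h1 : hermForm n F q v' e = 0 := (mem_perp_singleton hF).1 hv'.2
    have h2 : hermForm n F q e v' = 0 := by rw [← hermForm_swap hF, h1, zero_pow_q hF]
    rw [hermForm_add_left, hermForm_add_right hF, hermForm_add_right hF, hermForm_smul_left, hermForm_smul_left,
      hermForm_smul_right, hermForm_smul_right, h1, h2]
    ring
  have e1 : cI n q P = ∑ v' : P', Nat.card {a : F // hermForm n F q (v' : Fin n → F) v' + a ^ (q + 1) * hermForm n F q e e = 0} := by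
    rw [← Nat.card_sigma, cI]
    symm
    apply Nat.card_congr
    refine Equiv.ofBijective (fun x => (⟨(x.1 : Fin n → F) + x.2.1 • e, P.add_mem x.1.2.1 (P.smul_mem _ he), by
      rw [hform _ x.1.2]; exact x.2.2⟩ : {v : Fin n → F // v ∈ P ∧ hermForm n F q v v = 0})) ⟨?_, ?_⟩
    · rintro ⟨x, a, ha⟩ ⟨y, b, hb⟩ h
      have h1 := congrArg Subtype.val h
      obtain ⟨h2, h3⟩ := split_unique hF hee x.2.2 y.2.2 h1
      have hxy : x = y := Subtype.ext h2
      subst hxy
      simp only at h3
      subst h3
      rfl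
    · rintro ⟨v, hv, hvv⟩
      obtain ⟨v', hv', a, h⟩ := split hF he hee hv
      refine ⟨⟨⟨v', hv'⟩, a, ?_⟩, Subtype.ext h.symm⟩
      rw [← hform v' hv', ← h]; exact hvv
  have hfix : ∀ v : Fin n → F, (hermForm n F q v v) ^ q = hermForm n F q v v := fun v => hermForm_swap hF v v
  have e2 : cI n q P' = ∑ v' : P', if hermForm n F q (v' : Fin n → F) v' = 0 then 1 else 0 := by
    rw [← Finset.card_filter, cI, ← Fintype.card_subtype, ← Nat.card_eq_fintype_card]
    apply Nat.card_congr
    exact
      { toFun := fun x => ⟨⟨x.1, x.2.1⟩, x.2.2⟩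
        invFun := fun x => ⟨x.1.1, x.1.2, x.2⟩
        left_inv := fun _ => rfl
        right_inv := fun _ => rfl }
  rw [e1, e2, Finset.mul_sum, ← Finset.sum_add_distrib, Nat.card_eq_fintype_card, ← Finset.card_univ, mul_comm, ← smul_eq_mul,
    ← Finset.sum_const]
  apply Finset.sum_congr rfl
  intro v' _
  rw [fibre hF (hfix _) (hfix _) hee]
  split_ifs <;> ring

theorem cI_formula (hF : Fintype.card F = q ^ 2) (m : ℕ) : ∀ (r : ℕ) (P : Submodule F (Fin n → F)),
    Nat.card P = (q ^ 2) ^ (r + m) → Nat.card (P ⊓ perp n q P : Submodule F (Fin n → F)) = (q ^ 2) ^ r →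
    (q : ℤ) * cI n q P = (q : ℤ) ^ (2 * r) * ((q : ℤ) ^ (2 * m) + (-1) ^ m * ((q : ℤ) ^ (m + 1) - (q : ℤ) ^ m)) := by
  induction m with
  | zero =>
    intro r P hP hR
    have hle : P ⊓ perp n q P ≤ P := inf_le_left
    have heq : P ⊓ perp n q P = P := by
      apply SetLike.coe_injective
      apply Set.eq_of_subset_of_ncard_le (SetLike.coe_subset_coe.2 hle)
      · change Nat.card P ≤ Nat.card (P ⊓ perp n q P : Submodule F (Fin n → F))
        rw [hP, hR, add_zero]
    have h1 : cI n q P = Nat.card P := by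
      rw [cI]
      apply Nat.card_congr
      apply Equiv.subtypeEquivRight
      intro v
      constructor
      · exact fun h => h.1
      · intro hv
        have hv' : v ∈ P ⊓ perp n q P := by rw [heq]; exact hv
        exact ⟨hv, hv'.2 v hv⟩
    rw [h1, hP]
    push_cast
    rw [add_zero, ← pow_mul]
    ring
  | succ m ih =>
    intro r P hP hR
    have hq := one_lt_q hF
    -- an anisotropic vector
    obtain ⟨x, hx, y, hy, hxy⟩ : ∃ x ∈ P, ∃ y ∈ P, hermForm n F q x y ≠ 0 := by
      by_contra hcon
      push Not at hcon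
      have : P ⊓ perp n q P = P := inf_eq_left.2 (fun x hx y hy => hcon x hx y hy)
      rw [this, hP] at hR
      have h1 := Nat.pow_right_injective (show 2 ≤ q ^ 2 by nlinarith) hR
      omega
    obtain ⟨e, he, hee⟩ := exists_aniso hF hx hy hxy
    have hc := card_split hF he hee
    have hrec := cI_rec hF he hee
    set P' := P ⊓ perp n q (Submodule.span F {e}) with hP'
    have hP'c : Nat.card P' = (q ^ 2) ^ (r + m) := by
      rw [hP, show r + (m + 1) = (r + m) + 1 by ring, pow_succ] at hc
      exact (Nat.eq_of_mul_eq_mul_right (by positivity) hc).symm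
    have hrad : P' ⊓ perp n q P' = P ⊓ perp n q P := by
      ext v
      constructor
      · rintro ⟨hv, hv'⟩
        refine ⟨hv.1, fun x hx => ?_⟩
        obtain ⟨x', hx', a, rfl⟩ := split hF he hee hx
        have h1 : hermForm n F q v e = 0 := (mem_perp_singleton hF).1 hv.2
        rw [hermForm_add_right hF, hermForm_smul_right, hv' x' hx', h1, mul_zero, add_zero]
      · rintro ⟨hv, hv'⟩
        exact ⟨⟨hv, (mem_perp_singleton hF).2 (hv' e he)⟩, fun x hx => hv' x hx.1⟩
    have h2 := ih r P' hP'c (by rw [hrad]; exact hR)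
    have h3 : (cI n q P : ℤ) + q * cI n q P' = (q + 1) * ((q : ℤ) ^ 2) ^ (r + m) := by
      have h4 := congrArg (fun x : ℕ => (x : ℤ)) hrec
      push_cast at h4
      rw [h4]
      have h5 : (Nat.card (P' : Submodule F (Fin n → F)) : ℤ) = ((q : ℤ) ^ 2) ^ (r + m) := by rw [hP'c]; push_cast; ring
      rw [h5]
    have h6 : (q : ℤ) * cI n q P = (q + 1) * (q * ((q : ℤ) ^ 2) ^ (r + m)) - q * (q * cI n q P') := by
      linear_combination (q : ℤ) * h3
    rw [h6, h2]
    ring

end H17.UParab
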