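import Cfsg.Agent.Lib.H17.UParab

set_option autoImplicit false
set_option linter.unusedSectionVars false

/-! Isotropic frames of `hermForm n F q` and stabilisers of totally isotropic subspaces in `GU n F q`. -/

namespace H17.UParab2

open Matrix Cfsg H16.Herm Module H17.UParab H16.Parab

variable {F : Type*} [Field F] [Fintype F] {n q : ℕ}

/-- totally isotropic frames -/
def Fr (F : Type*) [Field F] (n q k : ℕ) : Type _ :=
  {u : Fin k → (Fin n → F) // LinearIndependent F u ∧ ∀ i j, hermForm n F q (u i) (u j) = 0}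

theorem snoc_iff (hF : Fintype.card F = q ^ 2) (k : ℕ) (u : Fin k → (Fin n → F)) (v : Fin n → F) :
    (LinearIndependent F (Fin.snoc u v : Fin (k + 1) → (Fin n → F)) ∧ ∀ i j : Fin (k + 1), hermForm n F q ((Fin.snoc u v : Fin (k + 1) → (Fin n → F)) i) ((Fin.snoc u v : Fin (k + 1) → (Fin n → F)) j) = 0) ↔
    (LinearIndependent F u ∧ ∀ i j, hermForm n F q (u i) (u j) = 0) ∧
      (v ∉ Submodule.span F (Set.range u) ∧ (∀ i, hermForm n F q v (u i) = 0) ∧ hermForm n F q v v = 0) := by
  rw [linearIndependent_finSnoc]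
  constructor
  · rintro ⟨⟨h1, h3⟩, h2⟩
    refine ⟨⟨h1, fun i j => ?_⟩, h3, fun i => ?_, ?_⟩
    · have := h2 (Fin.castSucc i) (Fin.castSucc j)
      simpa only [Fin.snoc_castSucc] using this
    · have := h2 (Fin.last k) (Fin.castSucc i)
      simpa only [Fin.snoc_castSucc, Fin.snoc_last] using this
    · have := h2 (Fin.last k) (Fin.last k)
      simpa only [Fin.snoc_last] using this
  · rintro ⟨⟨h1, h2⟩, h3, h4, h5⟩
    refine ⟨⟨h1, h3⟩, fun i j => ?_⟩
    refine Fin.lastCases ?_ (fun i => ?_) i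
    · refine Fin.lastCases ?_ (fun j => ?_) j
      · simp only [Fin.snoc_last]
        exact h5
      · simp only [Fin.snoc_last, Fin.snoc_castSucc]
        exact h4 j
    · refine Fin.lastCases ?_ (fun j => ?_) j
      · simp only [Fin.snoc_last, Fin.snoc_castSucc]
        rw [← hermForm_swap hF, h4, zero_pow_q hF]
      · simp only [Fin.snoc_castSucc]
        exact h2 i j

def frameEquiv (hF : Fintype.card F = q ^ 2) (k : ℕ) : Fr F n q (k + 1) ≃
    (Σ u : Fr F n q k, {v : Fin n → F // v ∉ Submodule.span F (Set.range u.1) ∧ (∀ i, hermForm n F q v (u.1 i) = 0) ∧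
      hermForm n F q v v = 0}) where
  toFun w := ⟨⟨Fin.init w.1, by
      have h := w.2
      rw [← Fin.snoc_init_self w.1] at h
      exact ((snoc_iff hF k _ _).mp h).1⟩, ⟨w.1 (Fin.last k), by
      have h := w.2
      rw [← Fin.snoc_init_self w.1] at h
      exact ((snoc_iff hF k _ _).mp h).2⟩⟩
  invFun p := ⟨Fin.snoc p.1.1 p.2.1, (snoc_iff hF k _ _).mpr ⟨p.1.2, p.2.2⟩⟩
  left_inv w := Subtype.ext (Fin.snoc_init_self w.1)
  right_inv p := by
    obtain ⟨⟨u, hu⟩, ⟨v, hv⟩⟩ := p
    have h1 : Fin.init (Fin.snoc u v : Fin (k + 1) → (Fin n → F)) = u := Fin.init_snoc _ _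
    have h2 : (Fin.snoc u v : Fin (k + 1) → (Fin n → F)) (Fin.last k) = v := Fin.snoc_last _ _
    refine Sigma.ext (Subtype.ext h1) ?_
    rw [Subtype.heq_iff_coe_eq]
    · exact h2
    · intro x
      dsimp only
      rw [h1]

/-- the factors of the order of the unitary group -/
def A (q i : ℕ) : ℕ := if Even i then q ^ (i + 1) + 1 else q ^ (i + 1) - 1

theorem A_cast (q i : ℕ) (hq : 0 < q) : (A q i : ℤ) = (q : ℤ) ^ (i + 1) + (-1) ^ i := by
  unfold A
  split_ifs with h
  · rw [h.neg_one_pow]; push_cast; ring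
  · rw [Nat.not_even_iff_odd] at h
    rw [h.neg_one_pow, Nat.cast_sub (Nat.one_le_pow _ _ hq)]
    push_cast; ring

theorem card_ext (hF : Fintype.card F = q ^ 2) {k : ℕ} (hk : 2 * (k + 1) ≤ n) (u : Fr F n q k) :
    Nat.card {v : Fin n → F // v ∉ Submodule.span F (Set.range u.1) ∧ (∀ i, hermForm n F q v (u.1 i) = 0) ∧
      hermForm n F q v v = 0} = q ^ (2 * k) * (A q (n - 2 * k - 1) * A q (n - 2 * k - 2)) := by
  classical
  have hq := one_lt_q hF
  set W := Submodule.span F (Set.range u.1) with hW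
  set P := perp n q W with hP
  have hfW : finrank F W = k := by
    rw [finrank_span_eq_card u.2.1, Fintype.card_fin]
  have hfP : finrank F P = n - k := by
    have := finrank_perp hF W
    rw [← hP] at this
    omega
  have hcF : Nat.card F = q ^ 2 := by rw [Nat.card_eq_fintype_card, hF]
  have hWP : W ≤ P := by
    rw [hW, Submodule.span_le]
    rintro _ ⟨j, rfl⟩
    exact (mem_perp_span hF u.1 _).2 (fun i => u.2.2 j i)
  have hPc : Nat.card P = (q ^ 2) ^ (k + (n - 2 * k)) := by
    rw [Module.natCard_eq_pow_finrank (K := F) (V := P), hfP, hcF]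
    congr 1
    omega
  have hrad : P ⊓ perp n q P = W := by
    rw [hP, perp_perp hF, ← hP]
    exact inf_eq_right.2 hWP
  have hWc : Nat.card W = (q ^ 2) ^ k := by
    rw [Module.natCard_eq_pow_finrank (K := F) (V := W), hfW, hcF]
  have h0 := cI_formula hF (n - 2 * k) k P hPc (by rw [hrad]; exact hWc)
  -- difference of cardinalities
  have h1 : Nat.card {v : Fin n → F // v ∉ W ∧ (∀ i, hermForm n F q v (u.1 i) = 0) ∧ hermForm n F q v v = 0} + Nat.card W =
      cI n q P := by
    have e1 : Nat.card {v : Fin n → F // v ∉ W ∧ (∀ i, hermForm n F q v (u.1 i) = 0) ∧ hermForm n F q v v = 0} =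
        ({v : Fin n → F | v ∈ P ∧ hermForm n F q v v = 0} \ (W : Set (Fin n → F))).ncard := by
      rw [← Nat.card_coe_set_eq]
      apply Nat.card_congr
      apply Equiv.subtypeEquivRight
      intro v
      have : v ∈ P ↔ ∀ i, hermForm n F q v (u.1 i) = 0 := mem_perp_span hF u.1 v
      rw [← this]
      constructor
      · rintro ⟨a, b, c⟩; exact ⟨⟨b, c⟩, a⟩
      · rintro ⟨⟨b, c⟩, a⟩; exact ⟨a, b, c⟩
    have hsub : (W : Set (Fin n → F)) ⊆ {v : Fin n → F | v ∈ P ∧ hermForm n F q v v = 0} :=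
      fun v hv => ⟨hWP hv, hWP hv v hv⟩
    have e2 : Nat.card W = (W : Set (Fin n → F)).ncard := rfl
    rw [e1, e2, Set.ncard_sdiff_add_ncard_of_subset hsub (Set.toFinite _)]
    rfl
  obtain ⟨r, hr⟩ : ∃ r, n = 2 * k + 2 + r := ⟨n - (2 * k + 2), by omega⟩
  have a1 : n - 2 * k = r + 2 := by omega
  have a2 : n - 2 * k - 1 = r + 1 := by omega
  have a3 : n - 2 * k - 2 = r := by omega
  rw [a2, a3]
  rw [a1] at h0
  set c := Nat.card {v : Fin n → F // v ∉ W ∧ (∀ i, hermForm n F q v (u.1 i) = 0) ∧ hermForm n F q v v = 0} with hc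
  have h2 : (cI n q P : ℤ) = c + ((q : ℤ) ^ 2) ^ k := by
    rw [← h1, hWc]; push_cast; ring
  have hq0 : (q : ℤ) ≠ 0 := by exact_mod_cast (by omega : q ≠ 0)
  have h3 : (q : ℤ) * (c : ℤ) = (q : ℤ) * ((q ^ (2 * k) * (A q (r + 1) * A q r) : ℕ) : ℤ) := by
    push_cast
    rw [A_cast q _ (by omega), A_cast q _ (by omega)]
    have h4 : (q : ℤ) * (c : ℤ) = (q : ℤ) * cI n q P - q * ((q : ℤ) ^ 2) ^ k := by rw [h2]; ring
    rw [h4, h0]
    have hs : ((-1 : ℤ) ^ r) ^ 2 = 1 := by rw [← pow_mul, mul_comm, pow_mul]; norm_num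
    linear_combination ((q : ℤ) ^ (2 * k) * q) * hs
  exact_mod_cast mul_left_cancel₀ hq0 h3

theorem card_Fr (hF : Fintype.card F = q ^ 2) (k : ℕ) (hk : 2 * k ≤ n) : Nat.card (Fr F n q k) =
    ∏ i : Fin k, (q ^ (2 * (i : ℕ)) * (A q (n - 2 * i - 1) * A q (n - 2 * i - 2))) := by
  classical
  induction k with
  | zero =>
    rw [Finset.univ_eq_empty, Finset.prod_empty, Nat.card_eq_one_iff_unique]
    exact ⟨⟨fun a b => Subtype.ext (Subsingleton.elim _ _)⟩, ⟨⟨fun i => i.elim0, linearIndependent_empty_type, fun i => i.elim0⟩⟩⟩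
  | succ k ih =>
    have : Finite (Fr F n q k) := Subtype.finite
    have : Fintype (Fr F n q k) := Fintype.ofFinite _
    rw [Nat.card_congr (frameEquiv hF k), Nat.card_sigma, Fin.prod_univ_castSucc]
    rw [Finset.sum_congr rfl (fun u _ => card_ext hF hk u), Finset.sum_const, Finset.card_univ, smul_eq_mul,
      ← Nat.card_eq_fintype_card, ih (by omega)]
    rfl

/-- order formula of `GU` -/
def g (q n : ℕ) : ℕ := q ^ (n * (n - 1) / 2) * ∏ i ∈ Finset.range n, A q i

theorem arith (q n k : ℕ) (hk : 2 * k ≤ n) :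
    (∏ i : Fin k, (q ^ (2 * (i : ℕ)) * (A q (n - 2 * i - 1) * A q (n - 2 * i - 2)))) *
      (q ^ (k * (2 * n - 3 * k)) * g q (n - 2 * k)) = g q n := by
  induction k with
  | zero => simp
  | succ k ih =>
    rw [← ih (by omega), Fin.prod_univ_castSucc]
    simp only [Fin.val_castSucc, Fin.val_last]
    obtain ⟨r, hr⟩ : ∃ r, n = 2 * k + 2 + r := ⟨n - (2 * k + 2), by omega⟩
    subst hr
    have a1 : 2 * k + 2 + r - 2 * k = r + 2 := by omega
    have a2 : 2 * k + 2 + r - 2 * (k + 1) = r := by omega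
    have a3 : 2 * (2 * k + 2 + r) - 3 * k = k + 4 + 2 * r := by omega
    have a4 : 2 * (2 * k + 2 + r) - 3 * (k + 1) = k + 1 + 2 * r := by omega
    have a5 : r + 2 - 1 = r + 1 := by omega
    have a6 : r + 2 - 2 = r := by omega
    rw [a1, a2, a3, a4, a5, a6]
    have e1 : (r + 2) * (r + 2 - 1) / 2 = r * (r - 1) / 2 + (2 * r + 1) := by
      rw [a5]
      rcases r with _ | s
      · rfl
      · rw [Nat.add_sub_cancel, show (s + 1 + 2) * (s + 1 + 1) = (s + 1) * s + 2 * (2 * (s + 1) + 1) by ring,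
          Nat.add_mul_div_left _ _ two_pos]
    have e2 : g q (r + 2) = q ^ (r * (r - 1) / 2 + (2 * r + 1)) * ((∏ i ∈ Finset.range r, A q i) * A q r * A q (r + 1)) := by
      unfold g
      rw [e1, Finset.prod_range_succ, Finset.prod_range_succ]
    rw [e2]
    unfold g
    generalize r * (r - 1) / 2 = t
    generalize ∏ i ∈ Finset.range r, A q i = z
    generalize (∏ x : Fin k, q ^ (2 * (x : ℕ)) * (A q (2 * k + 2 + r - 2 * x - 1) * A q (2 * k + 2 + r - 2 * x - 2))) = y
    generalize A q r = b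
    generalize A q (r + 1) = d
    have e3 : q ^ (2 * k) * q ^ ((k + 1) * (k + 1 + 2 * r)) * q ^ t = q ^ (k * (k + 4 + 2 * r)) * q ^ (t + (2 * r + 1)) := by
      rw [← pow_add, ← pow_add, ← pow_add]
      congr 1
      ring
    calc y * (q ^ (2 * k) * (d * b)) * (q ^ ((k + 1) * (k + 1 + 2 * r)) * (q ^ t * z))
        = y * (q ^ (2 * k) * q ^ ((k + 1) * (k + 1 + 2 * r)) * q ^ t) * (d * b * z) := by ring
      _ = y * (q ^ (k * (k + 4 + 2 * r)) * q ^ (t + (2 * r + 1))) * (d * b * z) := by rw [e3]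
      _ = y * (q ^ (k * (k + 4 + 2 * r)) * (q ^ (t + (2 * r + 1)) * (z * b * d))) := by ring

/-! ### orbit counting -/

/-- action on tuples -/
def tupAct (F : Type*) [Field F] (n k : ℕ) : MulAction (GeneralLinearGroup (Fin n) F) (Fin k → (Fin n → F)) where
  smul g u := fun i => (g : Matrix (Fin n) (Fin n) F) *ᵥ u i
  one_smul u := by
    funext i
    exact Matrix.one_mulVec _
  mul_smul g h u := by
    funext i
    exact (Matrix.mulVec_mulVec _ _ _).symm

/-- orbit-stabiliser for a subgroup acting on a set of tuples -/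
theorem card_mul {k : ℕ} (G : Subgroup (GeneralLinearGroup (Fin n) F)) (u : Fin k → (Fin n → F))
    (S : Set (Fin k → (Fin n → F)))
    (hS : ∀ w, w ∈ S ↔ ∃ g ∈ G, ∀ i, (g : Matrix (Fin n) (Fin n) F) *ᵥ u i = w i) :
    Nat.card S * Nat.card {g : GeneralLinearGroup (Fin n) F // g ∈ G ∧ ∀ i, (g : Matrix (Fin n) (Fin n) F) *ᵥ u i = u i} = Nat.card G := by
  classical
  letI := tupAct F n k
  have h1 : S = MulAction.orbit G u := by
    ext w
    rw [hS]
    constructor
    · rintro ⟨g, hg, hgw⟩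
      exact ⟨⟨g, hg⟩, funext hgw⟩
    · rintro ⟨g, hg⟩
      exact ⟨g.1, g.2, fun i => congrFun hg i⟩
  have h2 : Nat.card {g : GeneralLinearGroup (Fin n) F // g ∈ G ∧ ∀ i, (g : Matrix (Fin n) (Fin n) F) *ᵥ u i = u i}
      = Nat.card (MulAction.stabilizer G u) := by
    apply Nat.card_congr
    exact
      { toFun := fun g => ⟨⟨g.1, g.2.1⟩, funext g.2.2⟩
        invFun := fun g => ⟨g.1.1, g.1.2, fun i => congrFun g.2 i⟩
        left_inv := fun _ => rfl
        right_inv := fun _ => rfl }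
  rw [h1, h2, ← Nat.card_prod]
  exact Nat.card_congr (MulAction.orbitProdStabilizerEquivGroup G u)

theorem mulVec_span_mem {k : ℕ} {u : Fin k → (Fin n → F)} {W : Submodule F (Fin n → F)}
    (hW : W = Submodule.span F (Set.range u)) (g : GeneralLinearGroup (Fin n) F)
    (h : ∀ i, (g : Matrix (Fin n) (Fin n) F) *ᵥ u i ∈ W) :
    ∀ x ∈ W, (g : Matrix (Fin n) (Fin n) F) *ᵥ x ∈ W := by
  intro x hx
  have hx' : x ∈ Submodule.span F (Set.range u) := by rw [← hW]; exact hx
  induction hx' using Submodule.span_induction with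
  | mem x hx' =>
    obtain ⟨i, rfl⟩ := hx'
    exact h i
  | zero => rw [Matrix.mulVec_zero]; exact W.zero_mem
  | add x y hx1 hy1 ihx ihy =>
    rw [Matrix.mulVec_add]
    exact W.add_mem (ihx (by rw [hW]; exact hx1)) (ihy (by rw [hW]; exact hy1))
  | smul a x hx1 ihx =>
    rw [Matrix.mulVec_smul]
    exact W.smul_mem _ (ihx (by rw [hW]; exact hx1))

theorem li_mulVec {ι : Type*} (g : GeneralLinearGroup (Fin n) F) {u : ι → (Fin n → F)} (hu : LinearIndependent F u) :
    LinearIndependent F (fun i => (g : Matrix (Fin n) (Fin n) F) *ᵥ u i) := by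
  have := hu.map' (Matrix.mulVecLin (g : Matrix (Fin n) (Fin n) F)) (by
    rw [LinearMap.ker_eq_bot]
    intro x y h
    exact toMat_inj (Units.coeHom (Matrix (Fin n) (Fin n) F)) g h)
  exact this

/-- the stabiliser in `GU` -/
def StG (n : ℕ) (q : ℕ) (W : Submodule F (Fin n → F)) : Subgroup (GeneralLinearGroup (Fin n) F) :=
  GU n F q ⊓ stabilizing (Units.coeHom (Matrix (Fin n) (Fin n) F)) (W : Set (Fin n → F))

theorem mem_StG {W : Submodule F (Fin n → F)} {g : GeneralLinearGroup (Fin n) F} :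
    g ∈ StG n q W ↔ g ∈ GU n F q ∧ ∀ x ∈ W, (g : Matrix (Fin n) (Fin n) F) *ᵥ x ∈ W := by
  unfold StG
  rw [Subgroup.mem_inf, mem_stab_iff]
  rfl

/-- key counting -/
theorem card_stab_mul (hF : Fintype.card F = q ^ 2) (k : ℕ) (W : Submodule F (Fin n → F))
    (hWk : finrank F W = k) (hW : ∀ u ∈ W, ∀ v ∈ W, hermForm n F q u v = 0) :
    Nat.card (Fr F n q k) * Nat.card (StG n q W) =
    (∏ i : Fin k, ((q ^ 2) ^ k - (q ^ 2) ^ (i : ℕ))) * Nat.card (GU n F q) := by
  classical
  subst hWk
  let b := finBasis F W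
  obtain ⟨u, hu⟩ : ∃ u : Fin (finrank F W) → (Fin n → F), ∀ i, u i = (b i : Fin n → F) := ⟨_, fun _ => rfl⟩
  have hu' : u = fun i => (b i : Fin n → F) := funext hu
  have huW : ∀ i, u i ∈ W := fun i => by rw [hu]; exact (b i).2
  have hli : LinearIndependent F u := by
    rw [hu']
    exact b.linearIndependent.map' W.subtype (Submodule.ker_subtype W)
  have hspan : W = Submodule.span F (Set.range u) := by
    have h1 := b.span_eq
    have h2 := congrArg (Submodule.map W.subtype) h1
    rw [Submodule.map_span, ← Set.range_comp, Submodule.map_top, Submodule.range_subtype] at h2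
    rw [hu']
    exact h2.symm
  have hiso : ∀ i j, hermForm n F q (u i) (u j) = 0 := fun i j => hW _ (huW i) _ (huW j)
  -- full group
  have h1 := card_mul (GU n F q) u
    {w | LinearIndependent F w ∧ ∀ i j, hermForm n F q (w i) (w j) = 0} (by
    intro w
    constructor
    · rintro ⟨hw1, hw2⟩
      obtain ⟨g, hg, hA⟩ := exists_frames hF u w hli hw1 (fun i j => by rw [hiso, hw2])
      exact ⟨g, hg, hA⟩
    · rintro ⟨g, hgG, hg⟩
      have : w = fun i => (g : Matrix (Fin n) (Fin n) F) *ᵥ u i := funext fun i => (hg i).symm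
      rw [this]
      exact ⟨li_mulVec g hli, fun i j => by
        have := hgG (u i) (u j)
        rw [hiso] at this
        exact this⟩)
  -- stabiliser
  have h2 := card_mul (StG n q W) u
    {w | LinearIndependent F w ∧ ∀ i, w i ∈ W} (by
    intro w
    constructor
    · rintro ⟨hw1, hw2⟩
      obtain ⟨g, hg, hA⟩ := exists_frames hF u w hli hw1 (fun i j => by rw [hiso, hW _ (hw2 i) _ (hw2 j)])
      refine ⟨g, ?_, hA⟩
      rw [mem_StG]
      exact ⟨hg, mulVec_span_mem hspan g (fun i => by rw [hA]; exact hw2 i)⟩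
    · rintro ⟨g, hgs, hg⟩
      rw [mem_StG] at hgs
      have : w = fun i => (g : Matrix (Fin n) (Fin n) F) *ᵥ u i := funext fun i => (hg i).symm
      rw [this]
      exact ⟨li_mulVec g hli, fun i => hgs.2 _ (huW i)⟩)
  have h3 : Nat.card {g : GeneralLinearGroup (Fin n) F // g ∈ GU n F q ∧ ∀ i, (g : Matrix (Fin n) (Fin n) F) *ᵥ u i = u i}
      = Nat.card {g : GeneralLinearGroup (Fin n) F // g ∈ StG n q W ∧ ∀ i, (g : Matrix (Fin n) (Fin n) F) *ᵥ u i = u i} := by
    apply Nat.card_congr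
    apply Equiv.subtypeEquivRight
    intro g
    constructor
    · rintro ⟨hg0, hg⟩
      refine ⟨?_, hg⟩
      rw [mem_StG]
      exact ⟨hg0, mulVec_span_mem hspan g (fun i => by rw [hg]; exact huW i)⟩
    · rintro ⟨hg0, hg⟩
      exact ⟨(mem_StG.1 hg0).1, hg⟩
  have h4 : Nat.card {w : Fin (finrank F W) → (Fin n → F) | LinearIndependent F w ∧ ∀ i j, hermForm n F q (w i) (w j) = 0} =
      Nat.card (Fr F n q (finrank F W)) := rfl
  have h5 : Nat.card {w : Fin (finrank F W) → (Fin n → F) | LinearIndependent F w ∧ ∀ i, w i ∈ W} =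
      ∏ i : Fin (finrank F W), ((q ^ 2) ^ (finrank F W) - (q ^ 2) ^ (i : ℕ)) := by
    rw [← hF, ← card_linearIndependent (K := F) (V := W) (le_refl _)]
    apply Nat.card_congr
    exact
      { toFun := fun w => ⟨fun i => ⟨w.1 i, w.2.2 i⟩, by
          apply LinearIndependent.of_comp W.subtype
          exact w.2.1⟩
        invFun := fun w => ⟨fun i => (w.1 i : Fin n → F), w.2.map' W.subtype (Submodule.ker_subtype W), fun i => (w.1 i).2⟩
        left_inv := fun _ => rfl
        right_inv := fun _ => rfl }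
  rw [h3] at h1
  rw [h4] at h1
  rw [h5] at h2
  rw [← h2, ← h1]
  ring

/-! ### determinants -/

theorem exists_partner (hF : Fintype.card F = q ^ 2) {e : Fin n → F} (he0 : e ≠ 0) (hee : hermForm n F q e e = 0) :
    ∃ f, hermForm n F q e f = 1 ∧ hermForm n F q f f = 0 := by
  obtain ⟨y, hy⟩ : ∃ y, hermForm n F q e y ≠ 0 := by
    by_contra h
    push Not at h
    exact he0 (eq_zero_of_forall_right hF h)
  obtain ⟨y', hy'⟩ : ∃ y', hermForm n F q e y' = 1 := by
    refine ⟨((hermForm n F q e y)⁻¹ ^ q) • y, ?_⟩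
    rw [hermForm_smul_right, pow_q_pow_q hF, inv_mul_cancel₀ hy]
  obtain ⟨t, ht⟩ := H7.QuadExt.exists_trace_eq hF (c := -hermForm n F q y' y') (by
    rw [neg_pow_q hF, hermForm_swap hF])
  refine ⟨y' + t • e, ?_, ?_⟩
  · rw [hermForm_add_right hF, hermForm_smul_right, hee, hy']; ring
  · have h1 : hermForm n F q y' e = 1 := by rw [← hermForm_swap hF, hy', one_pow]
    rw [hermForm_add_left, hermForm_add_right hF, hermForm_add_right hF, hermForm_smul_left, hermForm_smul_left,
      hermForm_smul_right, hermForm_smul_right, hee, hy', h1]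
    linear_combination ht

theorem hilbert (hF : Fintype.card F = q ^ 2) {x : Fˣ} (hx : x ^ (q + 1) = 1) : ∃ b : Fˣ, b ^ (q - 1) = x := by
  obtain ⟨g, hg⟩ := IsCyclic.exists_generator (α := Fˣ)
  have hq := one_lt_q hF
  have hord : orderOf g = (q - 1) * (q + 1) := by
    rw [orderOf_eq_card_of_forall_mem_zpowers hg, H7.QuadExt.card_units hF]
  obtain ⟨m, hm⟩ := (mem_powers_iff_mem_zpowers (G := Fˣ)).2 (hg x)
  have hm : g ^ m = x := hm
  have h1 : g ^ (m * (q + 1)) = 1 := by rw [pow_mul, hm, hx]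
  have h2 := orderOf_dvd_of_pow_eq_one h1
  rw [hord] at h2
  obtain ⟨c, hc⟩ := Nat.dvd_of_mul_dvd_mul_right (by omega) h2
  refine ⟨g ^ c, ?_⟩
  rw [← pow_mul, ← hm, hc, mul_comm]

theorem exists_det (hF : Fintype.card F = q ^ 2) {W : Submodule F (Fin n → F)}
    (hW : ∀ u ∈ W, ∀ v ∈ W, hermForm n F q u v = 0) {e : Fin n → F} (heW : e ∈ W) (he0 : e ≠ 0) {r : Fˣ} (hr : r ^ (q + 1) = 1) :
    ∃ g ∈ StG n q W, GeneralLinearGroup.det g = r := by
  have hq := one_lt_q hF
  have hee := hW e heW e heW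
  obtain ⟨f, hef, hff⟩ := exists_partner hF he0 hee
  have hfe : hermForm n F q f e = 1 := by rw [← hermForm_swap hF, hef, one_pow]
  obtain ⟨b, hb⟩ := hilbert hF hr
  set a : F := ((b⁻¹ : Fˣ) : F) with ha
  set d : F := (b : F) ^ q with hd
  have hab : a * (b : F) = 1 := by rw [ha, ← Units.val_mul, inv_mul_cancel, Units.val_one]
  have had : a * d = (r : F) := by
    have h1 : (b : F) ^ q = (b : F) * (b : F) ^ (q - 1) := by
      rw [← pow_succ', Nat.sub_add_cancel hq.le]
    rw [hd, h1, ← mul_assoc, hab, one_mul, ← hb, Units.val_pow_eq_pow_val]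
  have haqd : a ^ q * d = 1 := by rw [hd, ← mul_pow, hab, one_pow]
  have hadq : a * d ^ q = 1 := by rw [hd, pow_q_pow_q hF, hab]
  let U : Matrix (Fin n) (Fin 2) F := Matrix.of (fun i j => if j = 0 then (a - 1) * e i else (d - 1) * f i)
  let T : Matrix (Fin 2) (Fin n) F := Matrix.of (fun i j => if i = 0 then f j ^ q else e j ^ q)
  have hTU : T * U = Matrix.diagonal (fun i : Fin 2 => if i = 0 then a - 1 else d - 1) := by
    have h1 : ∀ (c : F) (x y : Fin n → F), ∑ j, y j ^ q * (c * x j) = c * hermForm n F q x y := by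
      intro c x y
      simp only [hermForm, Finset.mul_sum]
      exact Finset.sum_congr rfl (fun j _ => by ring)
    ext i j
    fin_cases i <;> fin_cases j <;> simp [U, T, Matrix.mul_apply, h1, hee, hef, hfe, hff]
  have hdet : (1 + U * T).det = (r : F) := by
    rw [Matrix.det_one_add_mul_comm, hTU, ← Matrix.diagonal_one, Matrix.diagonal_add, Matrix.det_diagonal, Fin.prod_univ_two]
    simp [← had]
  have hmv : ∀ x, (1 + U * T) *ᵥ x = x + ((a - 1) * hermForm n F q x f) • e + ((d - 1) * hermForm n F q x e) • f := by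
    intro x
    rw [Matrix.add_mulVec, Matrix.one_mulVec, ← Matrix.mulVec_mulVec, add_assoc]
    congr 1
    have h1 : T *ᵥ x = ![hermForm n F q x f, hermForm n F q x e] := by
      funext i
      fin_cases i <;> simp [T, Matrix.mulVec, dotProduct, hermForm, mul_comm]
    rw [h1]
    funext i
    simp [U, Matrix.mulVec, dotProduct, Fin.sum_univ_two]
    ring
  let g : GeneralLinearGroup (Fin n) F := GeneralLinearGroup.mkOfDetNeZero (1 + U * T) (by rw [hdet]; exact r.ne_zero)
  have hgv : ∀ x, (g : Matrix (Fin n) (Fin n) F) *ᵥ x = x + ((a - 1) * hermForm n F q x f) • e + ((d - 1) * hermForm n F q x e) • f := hmv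
  refine ⟨g, ?_, Units.ext hdet⟩
  rw [mem_StG]
  constructor
  · intro x y
    change hermForm n F q ((g : Matrix (Fin n) (Fin n) F) *ᵥ x) ((g : Matrix (Fin n) (Fin n) F) *ᵥ y) = _
    rw [hgv, hgv]
    have e1 : hermForm n F q e y = (hermForm n F q y e) ^ q := (hermForm_swap hF y e).symm
    have e2 : hermForm n F q f y = (hermForm n F q y f) ^ q := (hermForm_swap hF y f).symm
    simp only [hermForm_add_left, hermForm_add_right hF, hermForm_smul_left, hermForm_smul_right, hee, hef, hfe, hff, e1, e2,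
      mul_pow, sub_pow_q hF, one_pow]
    linear_combination (hermForm n F q x e * hermForm n F q y f ^ q) * haqd + (hermForm n F q x f * hermForm n F q y e ^ q) * hadq
  · intro x hx
    rw [hgv, hW x hx e heW, mul_zero, zero_smul, add_zero]
    exact W.add_mem hx (W.smul_mem _ heW)

theorem card_det (hF : Fintype.card F = q ^ 2) {W : Submodule F (Fin n → F)}
    (hW : ∀ u ∈ W, ∀ v ∈ W, hermForm n F q u v = 0) {e : Fin n → F} (heW : e ∈ W) (he0 : e ≠ 0) :
    Nat.card (StG n q W) = (q + 1) * Nat.card ((stabilizing (slToMat n F) (W : Set (Fin n → F))).subgroupOf (SU n F q)) := by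
  set δ : StG n q W →* Fˣ := GeneralLinearGroup.det.comp (StG n q W).subtype with hδ
  obtain ⟨r, hr, hr2⟩ := H7.QuadExt.exists_gen_norm_one hF
  have hrange : δ.range = Subgroup.zpowers r := by
    apply le_antisymm
    · rintro _ ⟨g, rfl⟩
      rw [← hr2]
      exact H7.UnitSU.det_GU hF (mem_StG.1 g.2).1
    · rw [Subgroup.zpowers_le]
      obtain ⟨g, hg, hgr⟩ := exists_det hF hW heW he0 ((hr2 r).2 (Subgroup.mem_zpowers r))
      exact ⟨⟨g, hg⟩, hgr⟩
  have hker : Nat.card δ.ker = Nat.card ((stabilizing (slToMat n F) (W : Set (Fin n → F))).subgroupOf (SU n F q)) := by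
    refine Nat.card_congr
      { toFun := fun g => ⟨⟨⟨((g : StG n q W) : GeneralLinearGroup (Fin n) F), by
          have := g.2
          rw [MonoidHom.mem_ker] at this
          exact congrArg Units.val this⟩, fun u v => (g : StG n q W).2.1 u v⟩, by
          rw [Subgroup.mem_subgroupOf]
          exact fun v => (g : StG n q W).2.2 v⟩
        invFun := fun g => ⟨⟨SpecialLinearGroup.toGL ((g : SU n F q) : SpecialLinearGroup (Fin n) F), ⟨fun u v => (g : SU n F q).2 u v,
          fun v => g.2 v⟩⟩, by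
          rw [MonoidHom.mem_ker]
          apply Units.ext
          change (((g : SU n F q) : SpecialLinearGroup (Fin n) F) : Matrix (Fin n) (Fin n) F).det = 1
          exact ((g : SU n F q) : SpecialLinearGroup (Fin n) F).2⟩
        left_inv := fun g => by
          apply Subtype.ext
          apply Subtype.ext
          apply Units.ext
          rfl
        right_inv := fun g => by
          apply Subtype.ext
          apply Subtype.ext
          apply Subtype.ext
          rfl }
  have h1 := Subgroup.card_mul_index δ.ker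
  rw [Subgroup.index_ker, hrange, Nat.card_zpowers, hr, hker] at h1
  rw [← h1, mul_comm]

theorem A_pos (hq : 1 < q) (i : ℕ) : 0 < A q i := by
  unfold A
  split_ifs
  · positivity
  · exact Nat.sub_pos_of_lt (Nat.one_lt_pow (by omega) hq)

theorem main (hF : Fintype.card F = q ^ 2) (k : ℕ) (hn : 1 ≤ n) (hk : 2 * k ≤ n) (W : Submodule F (Fin n → F))
    (hWk : finrank F W = k) (hW : ∀ u ∈ W, ∀ v ∈ W, hermForm n F q u v = 0) :
    (q + 1) * Nat.card ((stabilizing (slToMat n F) (W : Set (Fin n → F))).subgroupOf (SU n F q)) =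
      q ^ (k * (2 * n - 3 * k)) * (∏ i : Fin k, ((q ^ 2) ^ k - (q ^ 2) ^ (i : ℕ))) * g q (n - 2 * k) := by
  have hq := one_lt_q hF
  rcases Nat.eq_zero_or_pos k with hk0 | hk0
  · subst hk0
    have hWb : W = ⊥ := Submodule.finrank_eq_zero.1 hWk
    have h1 : stabilizing (slToMat n F) (W : Set (Fin n → F)) = ⊤ := by
      rw [eq_top_iff]
      intro x _
      rw [mem_stab_iff]
      intro v hv
      rw [hWb, Submodule.mem_bot] at hv ⊢
      rw [hv, Matrix.mulVec_zero]
    rw [h1, Subgroup.top_subgroupOf, Subgroup.card_top, H7.UnitSU.card_SU hF n hn]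
    simp [g, A]
  · obtain ⟨e, heW, he0⟩ : ∃ e ∈ W, e ≠ 0 := by
      have : W ≠ ⊥ := by
        rintro rfl
        rw [finrank_bot] at hWk
        omega
      exact (Submodule.ne_bot_iff W).1 this
    rw [← card_det hF hW heW he0]
    have h1 := card_stab_mul hF k W hWk hW
    have hg : Nat.card (GU n F q) = g q n := H7.UnitOrd.card_GU hF n
    rw [hg, card_Fr hF k hk, ← arith q n k hk] at h1
    have hpos : 0 < ∏ i : Fin k, (q ^ (2 * (i : ℕ)) * (A q (n - 2 * i - 1) * A q (n - 2 * i - 2))) :=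
      Finset.prod_pos (fun i _ => Nat.mul_pos (by positivity) (Nat.mul_pos (A_pos hq _) (A_pos hq _)))
    apply Nat.eq_of_mul_eq_mul_left hpos
    rw [h1]
    ring

end H17.UParab2
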